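import Cfsg.Agent.Co.A1
import Cfsg.Agent.H6.UBChain

/-! Coordinates in a frame and the action on the central quotient. -/

set_option autoImplicit false
set_option maxRecDepth 100000

namespace Cfsg.Co.Rc

open Subgroup Cfsg.H6

variable {G : Type*} [Group G] {z : G} {Q : Subgroup G} {m : Bool} {a : ℕ → G}

open Classical in
/-- The coordinates of an element in a frame. -/
noncomputable def co (a : ℕ → G) (q : G) : ℕ :=
  Nat.ofBits (n := 8) fun i => decide (a (pr i) * q ≠ q * a (pr i))

theorem co_lt (a : ℕ → G) (q : G) : co a q < 256 := Nat.ofBits_lt_two_pow (n := 8) _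

theorem co_bit (a : ℕ → G) (q : G) {i : ℕ} (hi : i < 8) :
    (co a q).testBit i = true ↔ a (pr i) * q ≠ q * a (pr i) := by
  rw [co, Nat.testBit_ofBits_lt _ _ hi]
  simp

theorem pr_lt (i : ℕ) : pr i < 8 := Nat.mod_lt _ (by norm_num)

theorem pr_pr : ∀ i < 8, pr (pr i) = i := by decide

theorem eq_of_bits {u v : ℕ} (hu : u < 256) (hv : v < 256)
    (h : ∀ i < 8, u.testBit i = true ↔ v.testBit i = true) : u = v := by
  refine Nat.eq_of_testBit_eq fun i => ?_
  by_cases hi : i < 8
  · exact Bool.eq_iff_iff.mpr (h i hi)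
  · have : 256 ≤ 2 ^ i := Nat.pow_le_pow_right (n := 2) (i := 8) (by norm_num) (by omega)
    rw [Nat.testBit_lt_two_pow (by omega), Nat.testBit_lt_two_pow (by omega)]

theorem xor_lt {u v : ℕ} (hu : u < 256) (hv : v < 256) : u ^^^ v < 256 :=
  Nat.xor_lt_two_pow (n := 8) hu hv

/-- The letters of a frame. -/
def fa (z : G) (a : ℕ → G) (l : ℕ) : G :=
  if l = 1 then z else if 2 ≤ l ∧ l < 10 then a (l - 2) else 1

/-- The vector of a letter. -/
def x1 (l : ℕ) : ℕ := if 2 ≤ l ∧ l < 10 then 2 ^ (l - 2) else 0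

/-- The vector of a word. -/
def xs (w : List ℕ) : ℕ := w.foldr (fun l acc => x1 l ^^^ acc) 0

/-- The word of a vector. -/
def bw (v : ℕ) : List ℕ := ((List.range 8).filter v.testBit).map (· + 2)

theorem xs_bw : ∀ v < 256, xs (bw v) = v := by decide +kernel

/-- Whether the square of a word is non-trivial. -/
def sqf (m : Bool) (w : List ℕ) : Bool :=
  (w.foldr (fun l (s : ℕ × Bool) => (x1 l ^^^ s.1,
    xor (decide (2 ≤ l ∧ l < 10) && xor (m && (l - 2) % 4 == 3) (s.1.testBit (pr (l - 2)))) s.2))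
    (0, false)).2

/-- The quadratic form. -/
def qf (m : Bool) (v : ℕ) : Bool :=
  Nat.testBit (cond m 0x6969c3c3a5a50f0f999933335555ffff6996c33ca55a0ff0996633cc55aaff00 0x6996c33ca55a0ff0996633cc55aaff0096963c3c5a5af0f06666ccccaaaa0000) v

theorem qf_eq : ∀ m, ∀ v < 256, qf m v = sqf m (bw v) := by decide +kernel

variable (E : ES z Q) (F : Fr z Q m a)
include E F

theorem fa_mem (l : ℕ) : fa z a l ∈ Q := by
  unfold fa
  split_ifs with h1 h2
  · exact E.zQ
  · exact F.mem _ (by omega)
  · exact Q.one_mem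

theorem ev_mem (w : List ℕ) : evL (fa z a) w ∈ Q := evL_mem_of_letters fun l _ => fa_mem E F l

theorem co_mul {p q : G} (hp : p ∈ Q) (hq : q ∈ Q) : co a (p * q) = co a p ^^^ co a q := by
  refine eq_of_bits (co_lt _ _) (xor_lt (co_lt _ _) (co_lt _ _)) fun i hi => ?_
  have h1 := co_bit a p hi
  have h2 := co_bit a q hi
  rw [co_bit a _ hi, Nat.testBit_xor]
  have hx := F.mem _ (pr_lt i)
  generalize a (pr i) = x at *
  have t : ∀ {b : Bool} {y : G}, (b = true ↔ x * y ≠ y * x) → y * x = z * (x * y) → b = true :=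
    fun h e => h.mpr (by rw [e]; exact (E.ne _).symm)
  have f : ∀ {b : Bool} {y : G}, (b = true ↔ x * y ≠ y * x) → y * x = x * y → b = false :=
    fun h e => Bool.eq_false_iff.mpr fun k => h.mp k e.symm
  rcases E.comm x hx p hp with e1 | e1 <;> rcases E.comm x hx q hq with e2 | e2
  · rw [f h1 e1, f h2 e2, mul_assoc, e2, ← mul_assoc p, e1, mul_assoc]
    simp
  · rw [f h1 e1, t h2 e2, mul_assoc, e2, ← mul_assoc p, E.qz p hp, mul_assoc, ← mul_assoc p, e1,
      mul_assoc]
    simpa using E.z1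
  · rw [t h1 e1, f h2 e2, mul_assoc, e2, ← mul_assoc p, e1, mul_assoc, mul_assoc]
    simpa using E.z1
  · rw [t h1 e1, t h2 e2, E.anti (E.qz p hp) e1 e2]
    simp

omit E F in
theorem co_zero {q : G} (h : ∀ i < 8, a i * q = q * a i) : co a q = 0 :=
  eq_of_bits (co_lt _ _) (by norm_num) fun i hi => by simp [co_bit a q hi, h _ (pr_lt i)]

theorem co_z : co a z = 0 := co_zero fun i hi => E.qz _ (F.mem i hi)

omit E F in
theorem co_one : co a 1 = 0 := co_zero fun i _ => by simp

theorem co_a {i : ℕ} (hi : i < 8) : co a (a i) = 2 ^ i := by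
  refine eq_of_bits (co_lt _ _) (Nat.pow_lt_pow_right (a := 2) (n := 8) (by norm_num) hi)
    fun j hj => ?_
  rw [co_bit a _ hj, F.cm i hi _ (pr_lt j), Nat.testBit_two_pow, decide_eq_true_iff]
  have : pr j = pr i ↔ i = j := by unfold pr; omega
  split_ifs with h
  · simpa [this.mp h] using E.z1
  · simpa using fun e => h (this.mpr e)

theorem co_fa (l : ℕ) : co a (fa z a l) = x1 l := by
  unfold fa x1
  split_ifs with h1 h2 h2
  · omega
  · exact co_z E F
  · exact co_a E F (by omega)
  · exact co_one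

theorem co_ev (w : List ℕ) : co a (evL (fa z a) w) = xs w := by
  induction w with
  | nil => exact co_one
  | cons l w ih => rw [evL_cons, co_mul E F (fa_mem E F l) (ev_mem E F w), ih, co_fa E F]; rfl

theorem co_bw {v : ℕ} (hv : v < 256) : co a (evL (fa z a) (bw v)) = v := by
  rw [co_ev E F, xs_bw v hv]

theorem co_zm {q : G} (hq : q ∈ Q) : co a (z * q) = co a q := by
  rw [co_mul E F E.zQ hq, co_z E F, Nat.zero_xor]

theorem eq_of_co_zero [Finite G] {q : G} (hq : q ∈ Q) (h : co a q = 0) : q = 1 ∨ q = z := by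
  by_contra hc
  push Not at hc
  have k : ∀ i : Fin 3, ![1, z, q] i ∈ Q ∧ co a (![1, z, q] i) = 0 := fun i => by
    fin_cases i
    exacts [⟨Q.one_mem, co_one⟩, ⟨E.zQ, co_z E F⟩, ⟨hq, h⟩]
  have := Nat.card_le_card_of_injective (fun x : Fin 256 × Fin 3 =>
    (⟨evL (fa z a) (bw x.1) * ![1, z, q] x.2, Q.mul_mem (ev_mem E F _) (k _).1⟩ : Q))
    fun x y e => by
      have e1 := congrArg Subtype.val e
      have e2 := congrArg (co a) e1
      simp only [co_mul E F (ev_mem E F _) (k _).1, (k _).2, Nat.xor_zero, co_bw E F (Fin.is_lt _)]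
        at e2
      obtain ⟨u, i⟩ := x
      obtain ⟨v, j⟩ := y
      obtain rfl : u = v := Fin.ext e2
      have e3 := mul_left_cancel e1
      have a1 := E.z1
      have a2 := hc.1
      have a3 := hc.2
      fin_cases i <;> fin_cases j <;>
        first | rfl | exact absurd e3 a1 | exact absurd e3 a2 | exact absurd e3 a3
              | exact absurd e3 a1.symm | exact absurd e3 a2.symm | exact absurd e3 a3.symm
  rw [E.card] at this
  simp at this

theorem co_inv {q : G} (hq : q ∈ Q) : co a q⁻¹ = co a q := by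
  have := co_mul E F (Q.inv_mem hq) hq
  rw [inv_mul_cancel, co_one] at this
  exact Nat.xor_eq_zero_iff.mp this.symm

theorem eq_of_co [Finite G] {p q : G} (hp : p ∈ Q) (hq : q ∈ Q) (h : co a p = co a q) :
    p = q ∨ p = z * q := by
  refine (eq_of_co_zero E F (Q.mul_mem hp (Q.inv_mem hq)) ?_).imp mul_inv_eq_one.mp
    mul_inv_eq_iff_eq_mul.mp
  rw [co_mul E F hp (Q.inv_mem hq), co_inv E F hq, h, Nat.xor_self]

theorem nf [Finite G] {q : G} (hq : q ∈ Q) :
    q = evL (fa z a) (bw (co a q)) ∨ q = z * evL (fa z a) (bw (co a q)) :=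
  eq_of_co E F hq (ev_mem E F _) (co_bw E F (co_lt _ _)).symm

omit F in
theorem sq_zm {q : G} (hq : q ∈ Q) : z * q * (z * q) = q * q := by
  rw [mul_assoc, ← mul_assoc q, E.qz q hq, mul_assoc, E.zzm]

theorem sq_ev (w : List ℕ) :
    evL (fa z a) w * evL (fa z a) w = if sqf m w = true then z else 1 := by
  have k : ∀ w : List ℕ, (w.foldr (fun l (s : ℕ × Bool) => (x1 l ^^^ s.1,
      xor (decide (2 ≤ l ∧ l < 10) && xor (m && (l - 2) % 4 == 3) (s.1.testBit (pr (l - 2)))) s.2))
      (0, false)).1 = xs w := fun w => by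
    induction w with
    | nil => rfl
    | cons l w ih => exact congrArg (x1 l ^^^ ·) ih
  induction w with
  | nil => simp [sqf, evL_nil]
  | cons l w ih =>
    have e : sqf m (l :: w) = xor (decide (2 ≤ l ∧ l < 10) && xor (m && (l - 2) % 4 == 3)
        ((xs w).testBit (pr (l - 2)))) (sqf m w) := by rw [← k w]; rfl
    rw [e, evL_cons]
    have hw := ev_mem E F w
    have hc := co_ev E F w
    generalize evL (fa z a) w = W at *
    generalize sqf m w = s at *
    unfold fa
    by_cases h1 : l = 1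
    · rw [if_pos h1, sq_zm E hw, ih]
      simp [h1]
    by_cases h2 : 2 ≤ l ∧ l < 10
    · rw [if_neg h1, if_pos h2]
      have hl : l - 2 < 8 := by omega
      have h3 := co_bit a W (pr_lt (l - 2))
      rw [pr_pr _ hl, hc] at h3
      have h4 := F.sq _ hl
      have hz := E.zz
      rcases E.comm _ (F.mem _ hl) W hw with e1 | e1
      · have : a (l - 2) * W * (a (l - 2) * W) = a (l - 2) * a (l - 2) * (W * W) := by
          rw [mul_assoc, ← mul_assoc W, e1]; group
        rw [this, h4, ih]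
        have h5 : (xs w).testBit (pr (l - 2)) = false := by simpa [e1] using h3
        cases m <;> cases s <;> by_cases h6 : (l - 2) % 4 = 3 <;> simp [h2, h5, h6, hz]
      · rw [E.sq_mul (F.mem _ hl) e1, h4, ih]
        have h5 : (xs w).testBit (pr (l - 2)) = true := h3.mpr (by rw [e1]; exact (E.ne _).symm)
        cases m <;> cases s <;> by_cases h6 : (l - 2) % 4 = 3 <;> simp [h2, h5, h6, hz]
    · rw [if_neg h1, if_neg h2, one_mul, ih]
      simp [h2]

theorem sq_co [Finite G] {q : G} (hq : q ∈ Q) :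
    q * q = if qf m (co a q) = true then z else 1 := by
  rw [qf_eq m _ (co_lt _ _), ← sq_ev E F]
  rcases nf E F hq with h | h
  · rw [← h]
  · rw [← sq_zm E (ev_mem E F _), ← h]

/-- Adjusting an element by an inner automorphism. -/
theorem adj {c : G} (hc : c * z = z * c) {t : ℕ → G}
    (h : ∀ j < 8, c * a j * c⁻¹ = t j ∨ c * a j * c⁻¹ = z * t j) :
    ∃ p ∈ Q, ∀ j < 8, c * p * a j * (c * p)⁻¹ = t j := by
  classical
  let u := Nat.ofBits (n := 8) fun i => decide (c * a (pr i) * c⁻¹ ≠ t (pr i))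
  have hu : u < 256 := Nat.ofBits_lt_two_pow (n := 8) _
  refine ⟨evL (fa z a) (bw u), ev_mem E F _, fun j hj => ?_⟩
  have h1 := co_bit a (evL (fa z a) (bw u)) (pr_lt j)
  rw [co_bw E F hu, Nat.testBit_ofBits_lt _ _ (pr_lt j), decide_eq_true_iff] at h1
  simp only [pr_pr j hj] at h1
  have hp := ev_mem E F (bw u)
  generalize evL (fa z a) (bw u) = p at *
  rcases E.comm _ (F.mem j hj) p hp with e | e
  · have : c * a j * c⁻¹ = t j := by simpa [e] using h1
    rw [← this, mul_assoc c, e]; group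
  · have h2 := (h j hj).resolve_left (h1.mpr (by rw [e]; exact (E.ne _).symm))
    calc c * p * a j * (c * p)⁻¹ = c * (p * a j) * p⁻¹ * c⁻¹ := by group
      _ = c * z * a j * c⁻¹ := by rw [e]; group
      _ = z * (c * a j * c⁻¹) := by rw [hc]; group
      _ = t j := by rw [h2, E.zzm]

theorem cen_a [Finite G] {c : G} (hc : c * z = z * c) (h : ∀ j < 8, c * a j * c⁻¹ = a j) :
    c = 1 ∨ c = z := by
  refine E.cen c hc fun q hq => ?_
  have k : ∀ w, evL (fa z a) w ∈ centralizer {c} := fun w => evL_mem_of_letters fun l _ => by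
    unfold fa
    split_ifs with h1 h2
    · exact mem_cen.mpr hc.symm
    · exact mem_cen.mpr (mul_inv_eq_iff_eq_mul.mp (h _ (by omega))).symm
    · exact one_mem _
  rcases nf E F hq with e | e <;> rw [e]
  · exact (mem_cen.mp (k _)).symm
  · exact (mem_cen.mp (mul_mem (mem_cen.mpr hc.symm) (k _))).symm

theorem mem_of_triv [Finite G] {c : G} (hc : c * z = z * c)
    (h : ∀ j < 8, co a (c * a j * c⁻¹) = 2 ^ j) : c ∈ Q := by
  obtain ⟨p, hp, e⟩ := adj E F hc (t := a) fun j hj =>
    eq_of_co E F (E.nrm c hc _ (F.mem j hj)) (F.mem j hj) (by rw [h j hj, co_a E F hj])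
  have h1 : c * p * z = z * (c * p) := by rw [mul_assoc, E.qz p hp, ← mul_assoc, hc, mul_assoc]
  refine (Q.mul_mem_cancel_right hp).mp ?_
  rcases cen_a E F h1 e with h2 | h2 <;> rw [h2]
  exacts [Q.one_mem, E.zQ]

/-- The action on coordinates. -/
noncomputable def rc (z : G) (a : ℕ → G) (c : G) (v : ℕ) : ℕ :=
  co a (c * evL (fa z a) (bw v) * c⁻¹)

theorem co_conj [Finite G] {c : G} (hc : c * z = z * c) {q : G} (hq : q ∈ Q) :
    co a (c * q * c⁻¹) = rc z a c (co a q) := by
  rcases nf E F hq with e | e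
  · rw [rc, ← e]
  · rw [rc, ← co_zm E F (E.nrm c hc _ (ev_mem E F _))]
    congr 1
    conv_lhs => rw [e, ← mul_assoc, hc]
    group

theorem rc_xor [Finite G] {c : G} (hc : c * z = z * c) {u v : ℕ} (hu : u < 256) (hv : v < 256) :
    rc z a c (u ^^^ v) = rc z a c u ^^^ rc z a c v := by
  have := co_conj E F hc (Q.mul_mem (ev_mem E F (bw u)) (ev_mem E F (bw v)))
  rw [co_mul E F (ev_mem E F _) (ev_mem E F _), co_bw E F hu, co_bw E F hv] at this
  rw [← this, rc, rc, ← co_mul E F (E.nrm c hc _ (ev_mem E F _)) (E.nrm c hc _ (ev_mem E F _))]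
  congr 1
  group

theorem rc_qf [Finite G] {c : G} (hc : c * z = z * c) {v : ℕ} (hv : v < 256) :
    qf m (rc z a c v) = qf m v := by
  have h1 := sq_co E F (ev_mem E F (bw v))
  have h2 := sq_co E F (E.nrm c hc _ (ev_mem E F (bw v)))
  rw [co_bw E F hv] at h1
  rw [show ∀ q : G, c * q * c⁻¹ * (c * q * c⁻¹) = c * (q * q) * c⁻¹ from fun q => by group, h1] at h2
  have := E.z1
  unfold rc
  split_ifs at h2 with h3 h4 h4
  · rw [h3, h4]
  · rw [hc, mul_inv_cancel_right] at h2
    exact absurd h2 this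
  · rw [mul_one, mul_inv_cancel] at h2
    exact absurd h2.symm this
  · rw [Bool.eq_false_iff.mpr h3, Bool.eq_false_iff.mpr h4]

theorem rc_mul [Finite G] {c d : G} (hc : c * z = z * c) (hd : d * z = z * d) (v : ℕ) :
    rc z a (c * d) v = rc z a c (rc z a d v) := by
  rw [rc, rc.eq_1 z a d, ← co_conj E F hc (E.nrm d hd _ (ev_mem E F _))]
  congr 1
  group

theorem rc_Q {p : G} (hp : p ∈ Q) {v : ℕ} (hv : v < 256) : rc z a p v = v := by
  rw [rc, co_mul E F (Q.mul_mem hp (ev_mem E F _)) (Q.inv_mem hp), co_mul E F hp (ev_mem E F _),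
    co_inv E F hp, co_bw E F hv, Nat.xor_comm, Nat.xor_xor_cancel_left]

/-- The action of the centraliser on the central quotient of `Q`. -/
noncomputable def rho [Finite G] : centralizer ({z} : Set G) →* Equiv.Perm (Fin 256) :=
  MonoidHom.toHomPerm
    { toFun := fun c v => ⟨rc z a c v, co_lt _ _⟩
      map_one' := funext fun v => Fin.ext (rc_Q E F Q.one_mem v.2)
      map_mul' := fun c d => funext fun v =>
        Fin.ext (rc_mul E F (mem_cen.mp c.2) (mem_cen.mp d.2) v) }

theorem rho_val [Finite G] (c : centralizer ({z} : Set G)) (v : Fin 256) :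
    (rho E F c v : ℕ) = rc z a c v := rfl

theorem rho_eq_one [Finite G] {c : centralizer ({z} : Set G)} : rho E F c = 1 ↔ (c : G) ∈ Q := by
  refine ⟨fun h => mem_of_triv E F (mem_cen.mp c.2) fun j hj => ?_,
    fun h => Equiv.ext fun v => Fin.ext (rc_Q E F h v.2)⟩
  rw [co_conj E F (mem_cen.mp c.2) (F.mem j hj), co_a E F hj]
  exact congrArg Fin.val (Equiv.congr_fun h
    ⟨2 ^ j, Nat.pow_lt_pow_right (a := 2) (n := 8) (by norm_num) hj⟩)

theorem card_range [Finite G] : Nat.card (rho E F).range = 174182400 := by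
  have h1 : (rho E F).ker = Q.subgroupOf _ := by
    ext c
    exact rho_eq_one E F
  have h2 := (rho E F).ker.card_mul_index
  rw [index_ker, h1, Nat.card_congr (subgroupOfEquivOfLe fun q hq => mem_cen.mpr (E.qz q hq)).toEquiv,
    E.card, E.cardC] at h2
  omega

end Cfsg.Co.Rc
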