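import Cfsg.Agent.H6.PG
import Cfsg.Agent.H6.Chain

/-! Relators that hold in a central extension by an element of order two. -/

set_option autoImplicit false
set_option maxRecDepth 100000

namespace Cfsg.Co.Rc

open Subgroup Cfsg.H6

/-- Representatives of four classes of involutions. -/
def rep (k : ℕ) : List ℕ := [[1], [5, 7], [1, 5], [1, 7]].getD k []

/-- The relators that fix the signs. -/
def NL : List (List ℕ) := [[1,2,1,3,1,2,1,3,1,3,1], [3,4,3,1,3,4,3,1,3,1,3], [3,4,3,5,3,4,3,5,3,5,3], [3,4,3,7,3,4,3,7,3,7,3], [1,2,1,2,1,2], [3,4,3,4,3,4], [5,6,5,6,5,6], [7,8,7,8,7,8]]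

def U3 : List ℕ := [5,6,5,3,5,6,5,3,5,3,5]

def U4 : List ℕ := [7,8,7,3,7,8,7,3,7,3,7]

/-- Involutions, conjugating words and classes. -/
def SQ : List (List ℕ × List ℕ × ℕ) := [([1,3,1,3], [3,4], 0), ([1,4], [2,4,2], 0), ([3,2], [2,3,1], 0), ([2,4,2,4], [2,1,4,3], 0), ([1,5,1,2], [2,1], 2), ([1,3,6,3], [6,5], 2), ([1,5,4], [2,4,2], 2), ([1,4,6,4], [6,4,5], 2), ([1,5], [], 2), ([1,5,6,5], [6], 2), ([1,6], [6,5], 2), ([1,6,4,6], [2,4,2,6], 0), ([1,6,5,6], [6], 2), ([3,5,3,2], [2,1,3], 2), ([3,2,6], [2,1,3,6,5], 2), ([5,4,2,4], [2,1,4], 2), ([5,2], [2,1], 2), ([5,2,5,6], [2,1,6,5], 2), ([2,6], [2,1,6,5], 2), ([3,5,3,5], [3,4,2,1,5,6], 0), ([3,6], [2,3,1,4,2,6,4], 0), ([5,4], [2,3,1,4,2,5,3], 0), ([4,6,4,6], [2,1,4,3,1,2,6,5], 0), ([1,2,1,6], [2,6,5], 2), ([1,7,1,2], [2,1], 3), ([1,2,1,8], [2,8,7], 3), ([1,2,5,2], [], 2), ([1,2,6,2], [6,5], 2), ([1,2,7,2], [], 3), ([1,2,8,2], [8,7], 3), ([1,7], [], 3), ([1,7,8,7], [8], 3), ([1,8], [8,7], 3),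 ([1,8,7,8], [8], 3), ([5,6,2,6], [2,1], 2), ([7,2], [2,1], 3), ([7,2,7,8], [2,1,8,7], 3), ([2,8], [2,1,8,7], 3), ([7,8,2,8], [2,1], 3), ([3,7,3,7], [3,4,2,1,7,8], 0), ([3,8], [2,3,1,4,2,8,4], 0), ([7,4], [2,3,1,4,2,7,3], 0), ([4,8,4,8], [2,1,4,3,1,2,8,7], 0), ([5,7,5,6], [6,5], 1), ([5,6,5,8], [6,8,7], 1), ([5,6,7,6], [], 1), ([5,6,8,6], [8,7], 1), ([5,7], [], 1), ([5,7,8,7], [8], 1), ([5,8], [8,7], 1), ([5,8,7,8], [8], 1), ([7,6], [6,5], 1), ([7,6,7,8], [6,5,8,7], 1), ([6,8], [6,5,8,7], 1), ([7,8,6,8], [6,5], 1)]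

/-- Root elements. -/
def SR : List (List ℕ × List ℕ × ℕ) := [([1], [], 0), ([2], [2,1], 0), ([3], [3,4,2,1], 0), ([4], [2,1,4,3,1,2], 0), ([5], [3,4,2,1,5,6,4,3], 0), ([6], [2,1,4,3,1,2,6,5,3,4], 0), ([7], [3,4,2,1,7,8,4,3], 0), ([8], [2,1,4,3,1,2,8,7,3,4], 0), ([1,3,1,3], [3,4], 0), ([1,3,1,3,5,3,1,3,1,5], [3,4,5,6], 0), ([1,1,3,1,3], [3], 0), ([1,1,3,1,3,5,3,1,3,1,5], [3,5,3], 0), ([1,3,1,3,1,3,1,3,5,3,1,3,1,5], [3,4,5], 0), ([1,1,3,1,3,1,3,1,3,5,3,1,3,1,5], [3,5], 0)]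

/-- The word that says that `p` is conjugate to `r`. -/
def cwd (p u r : List ℕ) : List ℕ := u ++ p ++ u.reverse ++ r.reverse

/-- The words whose values are assumed to be central. -/
def TL : List (List ℕ) :=
  ((List.range 9).map fun l => [l, l]) ++ ((List.range 4).map fun k => rep k ++ rep k) ++ NL ++
    [U3, U4] ++ (SR ++ SQ).map fun e => cwd e.1 e.2.1 (rep e.2.2)

/-- The relators. -/
def TR : List (List ℕ) :=
  NL ++ [U3 ++ [10], U4 ++ [11]] ++
    ([9, 10, 11].flatMap fun c => (List.range 9).map fun x => [c, x, c, x]) ++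
    SQ.map fun e => e.1 ++ e.1 ++ if e.2.2 = 3 then [9] else []

variable {Ω : Type*} [Group Ω]

/-- A central element of order at most two. -/
structure Ce (ε : Ω) : Prop where
  cm : ∀ x, x * ε = ε * x
  sq : ε * ε = 1

/-- Equality up to `ε`. -/
def Sim (ε a b : Ω) : Prop := a = b ∨ a = ε * b

variable {ε : Ω} {X : ℕ → Ω}

theorem Ce.mm (h : Ce ε) (x : Ω) : ε * (ε * x) = x := by rw [← mul_assoc, h.sq, one_mul]

theorem Ce.out (h : Ce ε) (x y : Ω) : x * (ε * y) = ε * (x * y) := by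
  rw [← mul_assoc, h.cm, mul_assoc]

theorem Sim.refl (a : Ω) : Sim ε a a := Or.inl rfl

theorem Sim.symm (h : Ce ε) {a b : Ω} (k : Sim ε a b) : Sim ε b a := by
  rcases k with rfl | rfl
  · exact Or.inl rfl
  · exact Or.inr (h.mm _).symm

theorem Sim.trans (h : Ce ε) {a b c : Ω} (k : Sim ε a b) (l : Sim ε b c) : Sim ε a c := by
  rcases k with rfl | rfl
  · exact l
  rcases l with rfl | rfl
  · exact Or.inr rfl
  · exact Or.inl (h.mm _)

theorem Sim.mul (h : Ce ε) {a b c d : Ω} (k : Sim ε a b) (l : Sim ε c d) :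
    Sim ε (a * c) (b * d) := by
  rcases k with rfl | rfl <;> rcases l with rfl | rfl
  · exact Or.inl rfl
  · exact Or.inr (h.out _ _)
  · exact Or.inr (mul_assoc _ _ _)
  · exact Or.inl (by rw [mul_assoc, h.out, h.mm])

theorem Sim.sq (h : Ce ε) {a b : Ω} (k : Sim ε a b) : a * a = b * b := by
  rcases k with rfl | rfl
  · rfl
  · rw [mul_assoc, h.out, h.mm]

theorem Sim.cen (h : Ce ε) {a : Ω} (k : Sim ε a 1) (x : Ω) : x * a = a * x := by
  rcases k with rfl | rfl
  · simp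
  · rw [mul_one, h.cm]

theorem Sim.sq1 (h : Ce ε) {a : Ω} (k : Sim ε a 1) : a * a = 1 := by rw [k.sq h, one_mul]

theorem Sim.rev (h : Ce ε) {w : List ℕ} (hl : ∀ l ∈ w, Sim ε (X l * X l) 1) :
    Sim ε (evL X w.reverse) (evL X w)⁻¹ := by
  induction w with
  | nil => exact Or.inl (by simp [evL_nil])
  | cons x w ih =>
    rw [List.reverse_cons, evL_append, evL_singleton, evL_cons, mul_inv_rev]
    refine (ih fun l hm => hl l (List.mem_cons_of_mem _ hm)).mul h ?_
    have := (hl x List.mem_cons_self).mul h (Sim.refl (X x)⁻¹)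
    rwa [mul_inv_cancel_right, one_mul] at this

theorem sq_eq (h : Ce ε) {p u r : List ℕ} (hl : ∀ l < 9, Sim ε (X l * X l) 1)
    (hu : ∀ l ∈ u ++ r, l < 9) (h1 : Sim ε (evL X (cwd p u r)) 1)
    (h2 : Sim ε (evL X (r ++ r)) 1) : evL X (p ++ p) = evL X (r ++ r) := by
  have a1 := Sim.rev h (w := u) fun l hm => hl l (hu l (List.mem_append_left _ hm))
  have a2 := Sim.rev h (w := r) fun l hm => hl l (hu l (List.mem_append_right _ hm))
  unfold cwd at h1
  rw [evL_append, evL_append, evL_append] at h1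
  have a3 := ((((Sim.refl (evL X u * evL X p)).mul h a1).mul h a2).symm h).trans h h1
  have a4 := (a3.mul h (Sim.refl (evL X r))).sq h
  rw [inv_mul_cancel_right, one_mul, ← evL_append X r r] at a4
  have a5 : evL X (p ++ p) = (evL X u)⁻¹ * (evL X (r ++ r) * evL X u) := by
    rw [← a4, evL_append]; group
  rw [a5, ← h2.cen h, inv_mul_cancel_left]

theorem three_sq {η U V W : Ω} (hc : ∀ x, x * η = η * x) (h2 : η * η = 1) (hU : U * U = η)
    (hV : V * V = η) (hW : W * W = η) (hUV : U * V * (U * V) = η) (hUW : U * W * (U * W) = η)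
    (hVW : V * W * (V * W) = η) (h : U * V * W * (U * V * W) = η) : η = 1 := by
  have C : Ce η := ⟨hc, h2⟩
  have k : ∀ {a b : Ω}, a * a = η → b * b = η → a * b * (a * b) = η → b * a = η * (a * b) := by
    intro a b ha hb hab
    have : a * (b * a) * b = a * (η * (a * b)) * b := by
      calc a * (b * a) * b = η := by rw [← hab]; group
        _ = η * (a * a) * (b * b) := by rw [ha, hb, h2, one_mul]
        _ = _ := by rw [C.out]; group
    exact mul_left_cancel (mul_right_cancel this)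
  have e : U * V * W * (U * V * W) = η * (η * (η * (U * U * (V * V) * (W * W)))) := by
    calc U * V * W * (U * V * W) = U * V * (W * U) * V * W := by group
      _ = η * (U * (V * U) * (W * V) * W) := by rw [k hU hW hUW, C.out]; group
      _ = η * (U * (η * (U * V)) * (η * (V * W)) * W) := by rw [k hU hV hUV, k hV hW hVW]
      _ = _ := by rw [C.out U, C.out (η * _)]; group
  rw [e, hU, hV, hW, C.mm, h2, one_mul, h2] at h
  exact h.symm

/-- The parity of a word. -/
def par (s : ℕ → Bool) (w : List ℕ) : Bool := w.foldr (fun l b => xor (s l) b) false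

/-- Letters with changed signs. -/
def sgn (ε : Ω) (X : ℕ → Ω) (s : ℕ → Bool) (l : ℕ) : Ω := if s l = true then ε * X l else X l

theorem evL_sgn (h : Ce ε) (s : ℕ → Bool) (w : List ℕ) :
    evL (sgn ε X s) w = if par s w = true then ε * evL X w else evL X w := by
  induction w with
  | nil => rfl
  | cons x w ih =>
    have e : par s (x :: w) = xor (s x) (par s w) := rfl
    rw [evL_cons, evL_cons, ih, e, sgn]
    cases s x <;> cases par s w <;> simp [h.out, h.mm, mul_assoc]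

theorem sim_sgn (h : Ce ε) (s : ℕ → Bool) (w : List ℕ) : Sim ε (evL (sgn ε X s) w) (evL X w) := by
  rw [evL_sgn h]
  split_ifs
  · exact Or.inr rfl
  · exact Or.inl rfl

theorem sq_sgn (h : Ce ε) (s : ℕ → Bool) (w : List ℕ) :
    evL (sgn ε X s) (w ++ w) = evL X (w ++ w) := by
  rw [evL_append, evL_append, (sim_sgn h s w).sq h]

/-- The signs that make the first relators true. -/
def sgs (b : ℕ → Bool) (l : ℕ) : Bool :=
  [false, b 1, xor (b 1) (b 4), b 0, xor (b 0) (b 5), b 2, xor (b 2) (b 6), b 3,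
    xor (b 3) (b 7)].getD l false

theorem par_sgs (b : ℕ → Bool) : ∀ i < 8, par (sgs b) (NL.getD i []) = b i := by
  have : ∀ b0 b1 b2 b3 b4 b5 b6 b7 : Bool, ∀ i < 8,
      par (fun l => [false, b1, xor b1 b4, b0, xor b0 b5, b2, xor b2 b6, b3,
        xor b3 b7].getD l false) (NL.getD i []) = [b0, b1, b2, b3, b4, b5, b6, b7].getD i false := by
    decide +kernel
  intro i hi
  refine (this (b 0) (b 1) (b 2) (b 3) (b 4) (b 5) (b 6) (b 7) i hi).trans ?_
  interval_cases i <;> rfl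

/-- The letters of the coset enumeration. -/
def ext (X : ℕ → Ω) (l : ℕ) : Ω :=
  if l < 9 then X l else if l = 9 then evL X (rep 3 ++ rep 3) else if l = 10 then evL X U3
  else if l = 11 then evL X U4 else 1

theorem evL_ext {w : List ℕ} (h : ∀ l ∈ w, l < 9) : evL (ext X) w = evL X w :=
  evL_congr fun l hl => if_pos (h l hl)

section
variable (h : Ce ε) (hT : ∀ w ∈ TL, Sim ε (evL X w) 1)
include h hT

omit h in
theorem t_let (l : ℕ) (hl : l < 9) : Sim ε (X l * X l) 1 := by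
  have := hT [l, l] (by revert l; decide +kernel)
  rwa [evL_cons, evL_singleton] at this

omit h in
theorem t_rep (k : ℕ) (hk : k < 4) : Sim ε (evL X (rep k ++ rep k)) 1 :=
  hT _ (by revert k; decide +kernel)

theorem t_sq {e : List ℕ × List ℕ × ℕ} (he : e ∈ SR ++ SQ) :
    evL X (e.1 ++ e.1) = evL X (rep e.2.2 ++ rep e.2.2) := by
  have a : ∀ e ∈ SR ++ SQ, e.2.2 < 4 ∧ ∀ l ∈ e.2.1 ++ rep e.2.2, l < 9 := by decide +kernel
  exact sq_eq h (t_let hT) (a e he).2
    (hT _ (List.mem_append_right _ (List.mem_map.mpr ⟨e, he, rfl⟩))) (t_rep hT _ (a e he).1)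

theorem t_root : evL X (rep 0 ++ rep 0) = 1 := by
  have k : ∀ p, (∃ e ∈ SR ++ SQ, e.1 = p ∧ e.2.2 = 0) →
      evL X p * evL X p = evL X (rep 0 ++ rep 0) := by
    rintro _ ⟨e, he, rfl, h0⟩
    rw [← evL_append, t_sq h hT he, h0]
  have c := t_rep hT 0 (by norm_num)
  refine three_sq (U := evL X [1]) (V := evL X [1,3,1,3]) (W := evL X [1,3,1,3,5,3,1,3,1,5]) (c.cen h) (c.sq1 h)
    (k _ (by decide +kernel)) (k _ (by decide +kernel)) (k _ (by decide +kernel)) ?_ ?_ ?_ ?_
  · rw [← evL_append]; exact k _ (by decide +kernel)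
  · rw [← evL_append]; exact k _ (by decide +kernel)
  · rw [← evL_append]; exact k _ (by decide +kernel)
  · rw [← evL_append, ← evL_append]; exact k _ (by decide +kernel)

theorem t_rels (h0 : X 0 = 1) (h1 : evL X (rep 1 ++ rep 1) = 1) (h2 : evL X (rep 2 ++ rep 2) = 1) :
    ∃ s, Good (ext (sgn ε X s)) 3416467015609337987117220096 ∧ Rels (ext (sgn ε X s)) TR := by
  classical
  let b : ℕ → Bool := fun i => decide (evL X (NL.getD i []) = ε * 1)
  have c9 := (sim_sgn h (sgs b) _).trans h (t_rep hT 3 (by norm_num))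
  have c10 := (sim_sgn h (sgs b) _).trans h (hT U3 (by decide +kernel))
  have c11 := (sim_sgn h (sgs b) _).trans h (hT U4 (by decide +kernel))
  have cc : ∀ c ∈ [9, 10, 11], Sim ε (ext (sgn ε X (sgs b)) c) 1 := by
    intro c hc
    simp only [List.mem_cons, List.not_mem_nil, or_false] at hc
    rcases hc with rfl | rfl | rfl
    exacts [c9, c10, c11]
  have sq : ∀ l < 12, ext (sgn ε X (sgs b)) l * ext (sgn ε X (sgs b)) l = 1 := by
    intro l hl
    by_cases a : l < 9
    · rw [ext, if_pos a]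
      have e := sq_sgn (X := X) h (sgs b) [l]
      rw [evL_append, evL_singleton] at e
      rw [e]
      by_cases a0 : l = 0
      · rw [a0, evL_append, evL_singleton, h0, one_mul]
      have : ∀ l < 9, l = 0 ∨ ∃ e ∈ SR ++ SQ, e.1 = [l] ∧ e.2.2 = 0 := by decide +kernel
      obtain ⟨e, he, e1, e2⟩ := (this l a).resolve_left a0
      rw [← e1, t_sq h hT he, e2, t_root h hT]
    · exact (cc l (by simp; omega)).sq1 h
  refine ⟨sgs b, good_of_rels (m := 12) ?_ ?_ (by norm_num) ?_, ?_⟩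
  · exact h0
  · intro l hl
    rw [ext, if_neg (by omega), if_neg (by omega), if_neg (by omega), if_neg (by omega)]
  · intro r hr
    obtain ⟨l, hl, rfl⟩ := List.mem_map.mp hr
    have hl' := List.mem_range.mp hl
    have : ∀ l < 12, invL 3416467015609337987117220096 l = l := by decide +kernel
    rw [this l hl', evL_cons, evL_singleton, sq l hl']
  refine Rels.append (Rels.append (Rels.append ?_ ?_) ?_) ?_
  · intro r hr
    have : ∀ r ∈ NL, r ∈ TL ∧ (∀ l ∈ r, l < 9) ∧ ∃ i < 8, NL.getD i [] = r := by decide +kernel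
    obtain ⟨a1, a2, i, hi, rfl⟩ := this r hr
    rw [evL_ext a2, evL_sgn h, par_sgs b i hi]
    by_cases a : evL X (NL.getD i []) = ε * 1
    · rw [if_pos (decide_eq_true a), a, h.mm]
    · rw [if_neg (by simpa [b] using a)]
      exact (hT _ a1).resolve_right a
  · refine Rels.cons ?_ (Rels.cons ?_ fun _ hr => absurd hr List.not_mem_nil)
    · rw [evL_append, evL_singleton, evL_ext (by decide +kernel)]
      exact c10.sq1 h
    · rw [evL_append, evL_singleton, evL_ext (by decide +kernel)]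
      exact c11.sq1 h
  · intro r hr
    obtain ⟨c, hc, hr⟩ := List.mem_flatMap.mp hr
    obtain ⟨x, hx, rfl⟩ := List.mem_map.mp hr
    have hx' := List.mem_range.mp hx
    rw [evL_cons, evL_cons, evL_cons, evL_singleton, ← (cc c hc).cen h (ext _ x),
      ← mul_assoc (ext _ x), sq x (by omega), one_mul, (cc c hc).sq1 h]
  · intro r hr
    obtain ⟨e, he, rfl⟩ := List.mem_map.mp hr
    have a : ∀ e ∈ SQ, e.2.2 < 4 ∧ ∀ l ∈ e.1 ++ e.1, l < 9 := by decide +kernel
    rw [evL_append, evL_ext (a e he).2, sq_sgn h, t_sq h hT (List.mem_append_right _ he)]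
    have := (a e he).1
    generalize e.2.2 = k at *
    interval_cases k
    · rw [t_root h hT]; exact one_mul _
    · rw [h1]; exact one_mul _
    · rw [h2]; exact one_mul _
    · rw [if_pos rfl, evL_singleton, ← sq_sgn h (sgs b)]
      exact c9.sq1 h

end

end Cfsg.Co.Rc
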