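import Cfsg.Agent.Co.M1
import Cfsg.Agent.Co.A1

/-! The amalgam that the local analysis produces. -/

set_option autoImplicit false

namespace Cfsg.Co.Md

open Cfsg.H6

/-- Words in the letters that normalise the four-group of the letters 1 and 2. -/
def inK (w : List ℕ) : Bool := w.all fun l => decide (1 ≤ l ∧ l < 28 ∧ l ≠ 11 ∧ l ≠ 25)

/-- The letters `1, …, 26` generate the centraliser of `g 1` with the relations of the model;
the letters other than 11 and 25 satisfy the relations of the model. -/
structure Amal {G : Type*} [Group G] (g : ℕ → G) : Prop where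
  g0 : g 0 = 1
  hO : ∀ w, inR 27 w = true → (evL e0 w = 1 ↔ evL g w = 1)
  hC : ∀ c, c ∈ Subgroup.centralizer ({g 1} : Set G) ↔ ∃ w, inR 27 w = true ∧ evL g w = c
  hK : ∀ w, inK w = true → evL e0 w = 1 → evL g w = 1

end Cfsg.Co.Md
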