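import Cfsg.Agent.Co.A3
import Cfsg.Agent.Co.M2
import Cfsg.Agent.Co.TQ.Main

/-! Pairs of elements of the group and of the model that act in the same way on the frames. -/

set_option autoImplicit false
set_option maxRecDepth 100000
set_option linter.unusedSectionVars false

namespace Cfsg.Co.Rc

open Subgroup Cfsg.H6 Cfsg.Co.Md

section Words
variable {Γ : Type*} [Group Γ] {ev : ℕ → Γ}

theorem evL_rev {w : List ℕ} (h : ∀ l ∈ w, ev l * ev l = 1) : evL ev w.reverse = (evL ev w)⁻¹ := by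
  induction w with
  | nil => simp [evL_nil]
  | cons x w ih =>
    rw [List.reverse_cons, evL_append, evL_singleton, evL_cons, mul_inv_rev,
      ih fun l hm => h l (List.mem_cons_of_mem _ hm),
      inv_eq_of_mul_eq_one_right (h x List.mem_cons_self)]

/-- The values of the words in some involutions. -/
def wds (ev : ℕ → Γ) (p : ℕ → Bool) (h : ∀ l, p l = true → ev l * ev l = 1) : Subgroup Γ where
  carrier := {d | ∃ w : List ℕ, w.all p = true ∧ evL ev w = d}
  one_mem' := ⟨[], rfl, rfl⟩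
  mul_mem' := by
    rintro _ _ ⟨u, hu, rfl⟩ ⟨v, hv, rfl⟩
    exact ⟨u ++ v, by rw [List.all_append, hu, hv]; rfl, evL_append _ _ _⟩
  inv_mem' := by
    rintro _ ⟨u, hu, rfl⟩
    exact ⟨u.reverse, by rwa [List.all_reverse],
      evL_rev fun l hl => h l (List.all_eq_true.mp hu l hl)⟩

/-- The letters below `m`. -/
def rg (m x : ℕ) : Bool := Nat.ble 1 x && Nat.blt x m

theorem rg_iff {m x : ℕ} : rg m x = true ↔ 1 ≤ x ∧ x < m := by simp [rg]

theorem inR_iff {m : ℕ} {w : List ℕ} : inR m w = true ↔ ∀ x ∈ w, 1 ≤ x ∧ x < m :=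
  ⟨inR_spec, fun h => List.all_eq_true.mpr fun x hx => rg_iff.mpr (h x hx)⟩

theorem inR_mono {m n : ℕ} {w : List ℕ} (h : inR m w = true) (e : m ≤ n) : inR n w = true :=
  inR_iff.mpr fun x hx => ⟨(inR_spec h x hx).1, (inR_spec h x hx).2.trans_le e⟩

theorem evL_map (ev : ℕ → Γ) (τ : ℕ → ℕ) (w : List ℕ) :
    evL ev (w.map τ) = evL (fun l => ev (τ l)) w := by
  unfold evL
  rw [List.map_map]
  rfl

theorem conj_evL {c : Γ} {K : Subgroup Γ} {w : List ℕ} (h : ∀ l ∈ w, c * ev l * c⁻¹ ∈ K) :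
    c * evL ev w * c⁻¹ ∈ K := by
  have : c * evL ev w * c⁻¹ = _ := map_evL (MulAut.conj c).toMonoidHom ev w
  rw [this]
  exact evL_mem_of_letters (ev := fun l => (MulAut.conj c).toMonoidHom (ev l)) h

theorem inj_of_card {Δ : Type*} [Group Δ] (φ : Γ →* Δ) {S : Subgroup Γ} [Finite S]
    (h : Nat.card S ≤ Nat.card (S.map φ)) {y : Γ} (hy : y ∈ S) (e : φ y = 1) : y = 1 := by
  have := ((φ.subgroupMap_surjective S).bijective_of_nat_card_le h).1
  exact congrArg Subtype.val
    ((injective_iff_map_eq_one (φ.subgroupMap S)).mp this ⟨y, hy⟩ (Subtype.ext e))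

end Words

/-- Two words have the same value in the model. -/
noncomputable def eqw (u v : List ℕ) : Bool := fixB im 28 [b1] (u ++ v.reverse)

theorem e0_rev (w : List ℕ) : evL e0 w.reverse = (evL e0 w)⁻¹ := evL_rev fun l _ => sq_e0 l

theorem eqw_spec {u v : List ℕ} (h : eqw u v = true) : evL e0 u = evL e0 v := by
  have := ora _ h
  rwa [evL_append, e0_rev, mul_inv_eq_one] at this

theorem e0_inv (l : ℕ) : (e0 l)⁻¹ = e0 l := inv_eq_of_mul_eq_one_right (sq_e0 l)

/-- Conjugation in the model. -/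
theorem eqw_conj {y u v : List ℕ} (h : eqw (y ++ u ++ y.reverse) v = true) :
    evL e0 y * evL e0 u * (evL e0 y)⁻¹ = evL e0 v := by
  rw [← eqw_spec h, evL_append, evL_append, e0_rev]

theorem q0_ne : ∀ v < 256, (v = 0 ∨ val (bw v) ≠ val []) ∧ val (1 :: bw v) ≠ val [] := by
  decide +kernel

theorem bw_inR : ∀ v < 256, inR 10 (bw v) = true := by decide +kernel

/-- The conjugates of the frame letters. -/
def CW (l i : ℕ) : List ℕ := (([[[], [], [], [], [], [], [], [], [], []], [[], [], [], [], [], [], [], [], [], []], [[], [], [], [], [], [], [], [], [], []], [[], [], [], [], [], [], [], [], [], []], [[], [], [], [], [], [], [], [], [], []], [[], [], [], [], [], [], [], [], [], []], [[], [], [], [], [], [], [], [], [], []], [[], [], [], [], [], [], [], [], [], []], [[], [], [], [], [], [], [], [], [], []], [[], [], [], [], [], [], [], [], [], []], [[], [1], [2], [1,2,3], [4], [5], [6,7], [7], [8], [9]], [[], [1], [2,3], [3], [4], [5], [6],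 [6,7], [8], [9]], [[], [1], [2], [3], [3,4], [5], [6], [7,8], [8], [9]], [[], [1], [2], [3,4], [4], [5], [6], [7], [7,8], [9]], [[], [1], [2], [3], [4], [4,5], [6], [7], [8,9], [9]], [[], [1], [2], [3], [4,5], [5], [6], [7], [8], [8,9]], [[], [1], [2], [3], [4], [5], [6], [7], [5,8], [4,9]], [[], [1], [2], [3], [1,4,9], [1,5,8], [6], [7], [8], [9]], [[], [1], [2], [3], [1,2,4], [5], [6,8], [7], [8], [9]], [[], [1], [2], [3], [4], [1,2,5], [6,9], [7], [8], [9]], [[], [1], [2], [3], [4], [5], [3,6], [1,2,7], [8], [9]], [[], [1], [2], [3], [4], [5], [4,6], [7], [1,2,8], [9]], [[], [1], [2], [3], [4], [5], [5,6], [7], [8], [1,2,9]], [[], [1], [2], [3], [4], [5], [6], [4,7], [3,8], [9]], [[], [1], [2], [3], [4], [5], [6], [5,7], [8], [3,9]], [[], [1], [1,2,3], [3], [4], [5], [6], [6,7], [8], [9]], [[], [1], [2], [3], [1,4,9], [1,5,8], [3,6], [2,7], [8], [9]]] : List (List (List ℕ))).getD l []).getD i []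

theorem hCW : ∀ l < 27, ∀ i < 10, 10 ≤ l → 1 ≤ i → inR 10 (CW l i) = true ∧
    eqw ([l] ++ [i] ++ [l].reverse) (CW l i) = true ∧ xs (CW l i) = img8 l (x1 i) := by
  decide +kernel

variable {G : Type*} [Group G]

/-- Letters in the product with the model. -/
noncomputable def pr2 (f : ℕ → G) (l : ℕ) : G × Spor.Co1 := (f l, e0 l)

theorem evL_pr2 (f : ℕ → G) (w : List ℕ) : evL (pr2 f) w = (evL f w, evL e0 w) :=
  Prod.ext (map_evL (MonoidHom.fst G Spor.Co1) (pr2 f) w)
    (map_evL (MonoidHom.snd G Spor.Co1) (pr2 f) w)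

variable {z : G} {Q : Subgroup G} {a : ℕ → G} (E : ES z Q) (F : Fr z Q false a)
include E F

theorem fa_sq (l : ℕ) : fa z a l * fa z a l = 1 := by
  unfold fa
  split_ifs with h1 h2
  · exact E.zz
  · simpa using F.sq (l - 2) (by omega)
  · exact one_mul _

/-- The graph of the isomorphism of the extraspecial groups. -/
noncomputable def Qh : Subgroup (G × Spor.Co1) :=
  wds (pr2 (fa z a)) (rg 10) fun l _ => Prod.ext (fa_sq E F l) (sq_e0 l)

theorem mem_Qh {w : List ℕ} (h : inR 10 w = true) : (evL (fa z a) w, evL e0 w) ∈ Qh E F :=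
  ⟨w, h, evL_pr2 _ _⟩

theorem Qh_word {d : G × Spor.Co1} (h : d ∈ Qh E F) :
    ∃ w, inR 10 w = true ∧ d = (evL (fa z a) w, evL e0 w) := by
  obtain ⟨w, h1, rfl⟩ := h
  exact ⟨w, h1, evL_pr2 _ _⟩

theorem Qh_mem {d : G × Spor.Co1} (h : d ∈ Qh E F) : d.1 ∈ Q := by
  obtain ⟨w, -, rfl⟩ := Qh_word E F h
  exact ev_mem E F w

theorem nfw [Finite G] {q : G} (hq : q ∈ Q) : ∃ v < 256, q = evL (fa z a) (bw v) ∨
    q = evL (fa z a) (1 :: bw v) := ⟨_, co_lt a q, nf E F hq⟩

theorem exists_Qh [Finite G] {q : G} (hq : q ∈ Q) : ∃ q0, (q, q0) ∈ Qh E F := by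
  obtain ⟨v, hv, rfl | rfl⟩ := nfw E F hq
  · exact ⟨_, mem_Qh E F (bw_inR v hv)⟩
  · exact ⟨_, mem_Qh E F (w := 1 :: bw v) (bw_inR v hv)⟩

theorem fa_rels : Rels (fa z a) QR := by
  intro r hr
  obtain ⟨i, hi, hr⟩ := List.mem_flatMap.mp hr
  have hi' := List.mem_range.mp hi
  have e : ∀ i < 8, fa z a (i + 2) = a i := fun i hi => by
    unfold fa
    rw [if_neg (by omega), if_pos (by omega)]
    rfl
  have s : ∀ i < 8, a i * a i = 1 := fun i hi => by simpa using F.sq i hi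
  have e1 : fa z a 1 = z := rfl
  rcases List.mem_cons.mp hr with rfl | hr
  · simp only [evL_cons, evL_nil, e i hi', e1, mul_one]
    rw [← mul_assoc (a i), E.qz _ (F.mem i hi'), mul_assoc, E.zzm, s i hi']
  obtain ⟨j, hj, rfl⟩ := List.mem_map.mp hr
  have hj' := List.mem_range.mp hj
  have c := F.cm i hi' j hj'
  unfold pr at c
  split_ifs with h
  · simp only [evL_cons, evL_nil, e i hi', e j hj', e1, mul_one]
    rw [if_pos h] at c
    rw [← mul_assoc (a j), c, E.qz _ (F.mem j hj'), ← mul_assoc (a i), ← mul_assoc (a i),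
      E.qz _ (F.mem i hi'), mul_assoc z, ← mul_assoc (a i), s i hi', one_mul, mul_assoc z,
      ← mul_assoc (a j), E.qz _ (F.mem j hj'), mul_assoc z, E.zzm, s j hj']
  · simp only [evL_cons, evL_nil, e i hi', e j hj', mul_one]
    rw [if_neg h] at c
    rw [← mul_assoc (a j), c, mul_assoc (a i), s j hj', mul_one, s i hi']

theorem Qh_card : Nat.card (Qh E F) ≤ 512 := by
  let ev : ℕ → G × Spor.Co1 := fun l => if l < 10 then pr2 (fa z a) l else 1
  have c : ∀ w : List ℕ, (∀ l ∈ w, l < 10) → evL ev w = evL (pr2 (fa z a)) w := fun w h =>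
    evL_congr fun l hl => if_pos (h l hl)
  have hg : Good ev 42649378395939397566720 := by
    refine good_of_rels (m := 10) (Prod.ext rfl e0_zero) (fun l hl => if_neg (by omega))
      (by norm_num) fun r hr => ?_
    obtain ⟨l, hl, rfl⟩ := List.mem_map.mp hr
    have hl' := List.mem_range.mp hl
    have : ∀ l < 10, invL 42649378395939397566720 l = l := by decide +kernel
    rw [this l hl', c _ (by simpa using hl'), evL_cons, evL_singleton]
    exact Prod.ext (fa_sq E F l) (sq_e0 l)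
  have hr : Rels ev QR := fun r hr => by
    have : ∀ r ∈ QR, (∀ l ∈ r, l < 10) ∧ eqw r [] = true := by decide +kernel
    rw [c r (this r hr).1, evL_pr2, fa_rels E F r hr, eqw_spec (this r hr).2]
    rfl
  refine ((UB.bot.cover (TQ.cover hg hr)).mono ?_).2
  rintro _ ⟨w, hw, rfl⟩
  rw [← c w fun l hl => (inR_spec hw l hl).2]
  refine evL_mem_of_letters fun l hl => ?_
  have : ∀ l < 10, 1 ≤ l → [l] ∈ TQ.X := by decide +kernel
  rw [← evL_singleton ev l]
  exact evL_mem_gen _ (this l (inR_spec hw l hl).2 (inR_spec hw l hl).1)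

variable [Finite G]

theorem Qh_fst {c0 : Spor.Co1} (h : (1, c0) ∈ Qh E F) : c0 = 1 := by
  have e : (Qh E F).map (MonoidHom.fst _ _) = Q := by
    refine le_antisymm ?_ fun q hq => ?_
    · rintro _ ⟨d, hd, rfl⟩
      exact Qh_mem E F hd
    · obtain ⟨q0, h⟩ := exists_Qh E F hq
      exact ⟨_, h, rfl⟩
  exact congrArg Prod.snd (inj_of_card (MonoidHom.fst _ _)
    (by rw [e, E.card]; exact Qh_card E F) h rfl)

theorem Qh_snd {q : G} (h : (q, 1) ∈ Qh E F) : q = 1 := by
  have k : ∀ w, inR 10 w = true → q = evL (fa z a) w → val w = val [] := fun w hw e => by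
    have := mul_mem (inv_mem h) (mem_Qh E F hw)
    rw [← e, Prod.inv_mk, Prod.mk_mul_mk, inv_mul_cancel, inv_one, one_mul] at this
    exact (val_eq (inR_mono hw (by norm_num)) rfl).mp (Qh_fst E F this)
  obtain ⟨v, hv, e | e⟩ := nfw E F (Qh_mem E F h)
  · rcases (q0_ne v hv).1 with rfl | h0
    · exact e
    · exact absurd (k _ (bw_inR v hv) e) h0
  · exact absurd (k (1 :: bw v) (bw_inR v hv) e) (q0_ne v hv).2

theorem Qh_eq {p q : G} {c0 : Spor.Co1} (h : (p, c0) ∈ Qh E F) (k : (q, c0) ∈ Qh E F) : p = q := by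
  have := mul_mem h (inv_mem k)
  rw [Prod.inv_mk, Prod.mk_mul_mk, mul_inv_cancel] at this
  exact mul_inv_eq_one.mp (Qh_snd E F this)

theorem fa_eq {u v : List ℕ} (hu : inR 10 u = true) (hv : inR 10 v = true)
    (h : evL e0 u = evL e0 v) : evL (fa z a) u = evL (fa z a) v :=
  Qh_eq E F (mem_Qh E F hu) (h ▸ mem_Qh E F hv)

/-- The pairs that act in the same way on the frames. -/
noncomputable def NN : Subgroup (G × Spor.Co1) :=
  normalizer (Qh E F : Set (G × Spor.Co1)) ⊓ (centralizer {z}).prod ⊤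

theorem NN_cen {d : G × Spor.Co1} (h : d ∈ NN E F) : d.1 * z = z * d.1 := mem_cen.mp h.2.1

theorem NN_nrm {d q : G × Spor.Co1} (h : d ∈ NN E F) (hq : q ∈ Qh E F) :
    d * q * d⁻¹ ∈ Qh E F := (mem_normalizer_iff.mp h.1 q).mp hq

theorem Qh_le : Qh E F ≤ NN E F := fun _ h =>
  ⟨le_normalizer h, mem_cen.mpr (E.qz _ (Qh_mem E F h)), trivial⟩

theorem mem_NN {c : G} {c0 : Spor.Co1} (hc : c * z = z * c)
    (h : ∀ i < 10, 1 ≤ i → ∃ w, inR 10 w = true ∧ c * fa z a i * c⁻¹ = evL (fa z a) w ∧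
      c0 * e0 i * c0⁻¹ = evL e0 w) : (c, c0) ∈ NN E F := by
  refine ⟨mem_normalizer_fintype ?_, mem_cen.mpr hc, trivial⟩
  rintro _ ⟨u, hu, rfl⟩
  refine conj_evL fun l hl => ?_
  obtain ⟨w, h1, h2, h3⟩ := h l (inR_spec hu l hl).2 (inR_spec hu l hl).1
  have := mem_Qh E F h1
  rwa [← h2, ← h3] at this

theorem NN_conj {d : G × Spor.Co1} (hd : d ∈ NN E F) {u v : List ℕ} (hu : inR 10 u = true)
    (hv : inR 10 v = true) (h : d.2 * evL e0 u * d.2⁻¹ = evL e0 v) :
    d.1 * evL (fa z a) u * d.1⁻¹ = evL (fa z a) v :=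
  Qh_eq E F (NN_nrm E F hd (mem_Qh E F hu)) (h ▸ mem_Qh E F hv)

omit E F [Finite G] in
theorem fa_a {i : ℕ} (hi : i < 8) : fa z a (i + 2) = a i := by
  unfold fa
  rw [if_neg (by omega), if_pos (by omega)]
  rfl

theorem NN_K {c : G} (h : (c, 1) ∈ NN E F) : c = 1 ∨ c = z := by
  refine cen_a E F (NN_cen E F h) fun j hj => ?_
  have hw : inR 10 [j + 2] = true := inR_iff.mpr (by simp; omega)
  have := NN_conj E F h hw hw (by simp)
  rwa [evL_singleton, fa_a hj] at this

theorem NN_eq {c d : G} {c0 : Spor.Co1} (h : (c, c0) ∈ NN E F) (k : (d, c0) ∈ NN E F) :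
    c = d ∨ c = z * d := by
  have := mul_mem h (inv_mem k)
  rw [Prod.inv_mk, Prod.mk_mul_mk, mul_inv_cancel] at this
  exact (NN_K E F this).imp mul_inv_eq_one.mp mul_inv_eq_iff_eq_mul.mp

theorem z_NN : (z, (1 : Spor.Co1)) ∈ NN E F :=
  mem_NN E F rfl fun i hi h1 => ⟨[i], inR_iff.mpr (by simp; omega), by
    rw [evL_singleton, ← E.qz _ (fa_mem E F i), mul_inv_cancel_right], by simp [evL_singleton]⟩

theorem rho_co {c : centralizer ({z} : Set G)} {l : ℕ} (hl : l < 27) (h : rho E F c = M8 l)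
    {q : G} (hq : q ∈ Q) : co a (c * q * (c : G)⁻¹) = img8 l (co a q) := by
  rw [co_conj E F (mem_cen.mp c.2) hq, ← rho_val E F c ⟨_, co_lt a q⟩, h, M8_apply hl]
  exact Nat.mod_eq_of_lt (inv8 l hl ⟨_, co_lt a q⟩).2

theorem rho_CW {c : centralizer ({z} : Set G)} {l : ℕ} (hl : l < 27) (h10 : 10 ≤ l)
    (h : rho E F c = M8 l) {j : ℕ} (hj : j < 8) :
    c * a j * (c : G)⁻¹ = evL (fa z a) (CW l (j + 2)) ∨
      c * a j * (c : G)⁻¹ = z * evL (fa z a) (CW l (j + 2)) := by
  refine eq_of_co E F (E.nrm _ (mem_cen.mp c.2) _ (F.mem j hj)) (ev_mem E F _) ?_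
  rw [rho_co E F hl h (F.mem j hj), co_ev E F, (hCW l hl (j + 2) (by omega) h10 (by omega)).2.2,
    ← co_fa E F, fa_a hj]

theorem mem_NN_CW {c : G} (hc : c * z = z * c) {l : ℕ} (hl : l < 27) (h10 : 10 ≤ l)
    (h : ∀ j < 8, c * a j * c⁻¹ = evL (fa z a) (CW l (j + 2))) : (c, e0 l) ∈ NN E F := by
  refine mem_NN E F hc fun i hi h1 => ?_
  obtain ⟨k1, k2, -⟩ := hCW l hl i hi h10 h1
  refine ⟨_, k1, ?_, by simpa [evL_singleton] using eqw_conj k2⟩
  by_cases e : i = 1
  · have : ∀ l < 27, 10 ≤ l → CW l 1 = [1] := by decide +kernel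
    rw [e, this l hl h10, evL_singleton]
    exact mul_inv_eq_iff_eq_mul.mpr hc
  · obtain ⟨j, rfl⟩ : ∃ j, i = j + 2 := ⟨i - 2, by omega⟩
    rw [fa_a (by omega), h j (by omega)]

theorem exists_rho {w : List ℕ} (hw : letChk RT [w] = true) :
    ∃ c, rho E F c = evL M8 w :=
  (range_eq E F).ge (mem_of_letChk hw w List.mem_cons_self)

theorem exists_lift {l : ℕ} (h10 : 10 ≤ l) (hl : l < 18) : ∃ c, (c, e0 l) ∈ NN E F := by
  obtain ⟨c, hc⟩ := exists_rho E F (w := [l]) (by interval_cases l <;> rfl)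
  rw [evL_singleton] at hc
  obtain ⟨p, hp, h⟩ := adj E F (mem_cen.mp c.2) fun j hj => rho_CW E F (by omega) h10 hc hj
  refine ⟨_, mem_NN_CW E F ?_ (by omega) h10 h⟩
  rw [mul_assoc, E.qz p hp, ← mul_assoc, mem_cen.mp c.2, mul_assoc]

theorem NN_rho {c : centralizer ({z} : Set G)} {l : ℕ} (hl : l < 27) (h : (c.1, e0 l) ∈ NN E F) :
    rho E F c = M8 l := by
  by_cases h10 : 10 ≤ l
  · refine ext_basis (rho_le E F ⟨c, rfl⟩) (M8_mem l) fun j hj => Fin.ext ?_
    obtain ⟨k1, k2, k3⟩ := hCW l hl (j + 2) (by omega) h10 (by omega)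
    have hw : inR 10 [j + 2] = true := inR_iff.mpr (by simp; omega)
    have e := NN_conj E F h hw k1 (by simpa [evL_singleton] using eqw_conj k2)
    rw [evL_singleton, fa_a hj] at e
    have e2 : ((fv (2 ^ j) : Fin 256) : ℕ) = co a (a j) := by
      rw [co_a E F hj]; interval_cases j <;> rfl
    rw [rho_val, M8_apply hl, e2, ← co_conj E F (mem_cen.mp c.2) (F.mem j hj), e, co_ev E F, k3,
      ← co_fa E F, fa_a hj]
    exact (Nat.mod_eq_of_lt (inv8 l hl ⟨_, co_lt a _⟩).2).symm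
  · have e1 : ∀ l < 10, eq8 [l + 1] [] = true ∨ l = 9 := by decide +kernel
    have e2 : M8 l = 1 := by
      cases l with
      | zero => exact ext_basis (M8_mem 0) (one_mem _) (by decide +kernel)
      | succ l => simpa [evL_singleton, evL_nil] using
          eq8_spec ((e1 l (by omega)).resolve_right (by omega))
    have e3 : (fa z a l, e0 l) ∈ Qh E F := by
      by_cases h0 : l = 0
      · rw [h0, e0_zero]; exact one_mem _
      · simpa [evL_singleton] using mem_Qh E F (w := [l]) (inR_iff.mpr (by simp; omega))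
    rw [e2, rho_eq_one]
    rcases NN_eq E F h (Qh_le E F e3) with e | e <;> rw [e]
    · exact fa_mem E F l
    · exact mul_mem E.zQ (fa_mem E F l)

end Cfsg.Co.Rc
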