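import Cfsg.Agent.Co.A5
import Cfsg.Agent.Co.T1.Main
import Cfsg.Agent.Co.T2.Main
import Cfsg.Agent.Co.T3.Main

/-! The splitting of the central extension; the centraliser is that of the model. -/

set_option autoImplicit false
set_option maxRecDepth 100000
set_option linter.unusedSectionVars false

namespace Cfsg.Co.Rc

open Subgroup Cfsg.H6 Cfsg.Co.Md

/-- The root letters in their natural order. -/
def sA : List (List ℕ) := [[], [10], [11], [12], [13], [14], [15], [16], [17]]

/-- The root letters after the graph automorphism. -/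
def sB : List (List ℕ) := [[], [10], [11], [12], [13], [16], [17], [14], [15]]

/-- The words of a list have values in the extraspecial group of the model. -/
def Wit (σ : List (List ℕ)) : Prop :=
  ∀ w ∈ TL, ∃ v, inR 10 v = true ∧ evL e0 (subst σ w) = evL e0 v

theorem wit_of {σ WL : List (List ℕ)} (h : ∀ i < 92, inR 10 (WL.getD i []) = true ∧
    eqw (subst σ (TL.getD i [])) (WL.getD i []) = true) : Wit σ := by
  intro w hw
  have : ∀ w ∈ TL, ∃ i < 92, TL.getD i [] = w := by decide +kernel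
  obtain ⟨i, hi, rfl⟩ := this w hw
  exact ⟨_, (h i hi).1, eqw_spec (h i hi).2⟩

theorem witA : Wit sA := wit_of (WL := [[], [], [], [], [], [], [], [], [], [], [1,4], [], [1], [], [], [], [], [], [], [], [1], [], [1,3], [], [], [], [], [], [], [2], [1,2], [], [], [], [], [], [], [], [], [], [], [], [], [], [], [], [], [], [], [], [], [], [], [], [], [], [], [], [], [], [], [], [], [], [], [1], [], [], [], [1], [1], [], [1], [], [1], [], [2], [9], [], [1], [4,5], [4,5], [1,4,5], [1,4,9], [], [], [4,9], [1], [1], [4], [9], []]) (by decide +kernel)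

theorem witB : Wit sB := wit_of (WL := [[], [], [], [], [], [], [], [], [], [], [1,4], [1], [], [], [], [], [], [], [], [1], [], [1,3], [], [], [], [], [], [2], [1,2], [], [], [], [2], [], [], [], [1], [], [], [], [], [], [1], [], [1], [], [], [1], [1], [1], [1], [1,2], [1], [1], [], [1], [2], [9], [], [1], [], [], [], [1], [], [], [], [], [], [], [], [], [], [], [], [], [], [], [], [], [1,4], [4], [1], [1,4], [], [1,5], [4], [1,5], [1,9], [1,9], [9], [9]]) (by decide +kernel)

/-- The letters as words in the first seventeen. -/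
def DW : List (List ℕ) := [[], [1], [2], [3], [4], [5], [6], [7], [8], [9], [10], [11], [12], [13], [14], [15], [16], [17], [13,12,10,12,13], [15,14,13,12,10,12,13,14,15], [13,17,12,16,15,14,13,12,10,12,13,14,15,16,12,17,13,1,2], [17,16,15,14,13,12,10,12,13,14,15,16,17,2], [17,16,13,12,10,12,13,16,17,2], [17,16,15,14,10,11,13,12,10,12,13,11,10,14,15,16,17,1,3], [17,16,10,11,13,12,10,12,13,11,10,16,17,3], [10,11,10,11,10,6], [16,13,17,12,16,11,13,10,12,11,10,14,11,12,10,13,11,16,12,17,13,16,1,2,3]]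

theorem hDW : ∀ l < 27, inR 18 (DW.getD l []) = true ∧ (l = 0 ∨ eqw [l] (DW.getD l []) = true) ∧
    (l < 18 → l = 0 ∨ DW.getD l [] = [l]) := by decide +kernel

theorem e0_DW {l : ℕ} (hl : l < 27) : evS e0 DW l = e0 l := by
  rcases (hDW l hl).2.1 with rfl | h
  · exact e0_zero.symm
  · exact (eqw_spec h).symm.trans (evL_singleton _ _)

theorem M8_small {l : ℕ} (h : l < 10) : M8 l = 1 :=
  ext_basis (M8_mem l) (one_mem _) fun i hi => by
    rw [M8_apply (by omega)]
    revert i l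
    decide +kernel

theorem nthW_eq' (Ws : List (List ℕ)) (i : ℕ) : nthW Ws i = Ws.getD i [] := by
  induction Ws generalizing i with
  | nil => rfl
  | cons w Ws ih => cases i with
    | zero => rfl
    | succ j => exact ih j

theorem mem_subst {σ : List (List ℕ)} {P : ℕ → Prop} (h : ∀ u ∈ σ, ∀ l ∈ u, P l) (w : List ℕ) :
    ∀ l ∈ subst σ w, P l := by
  intro l hl
  obtain ⟨x, -, hx⟩ := List.mem_flatMap.mp hl
  rw [← nthW_eq'] at hx
  rcases nthW_mem σ x with e | e
  · rw [e] at hx; exact absurd hx List.not_mem_nil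
  · exact h _ e l hx

variable {G : Type*} [Group G] [Finite G] {z : G} {Q : Subgroup G} {a : ℕ → G}
  (E : ES z Q) (F : Fr z Q false a)

instance instNormalQh : ((Qh E F).subgroupOf (NN E F)).Normal :=
  normal_subgroupOf_of_le_normalizer inf_le_left

/-- The central extension of the orthogonal group. -/
abbrev Om : Type _ := NN E F ⧸ (Qh E F).subgroupOf (NN E F)

/-- The projection. -/
noncomputable def mkO : NN E F →* Om E F := QuotientGroup.mk' _

theorem mkO_eq_one {d : NN E F} : mkO E F d = 1 ↔ d.1 ∈ Qh E F := QuotientGroup.eq_one_iff d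

/-- The central element. -/
noncomputable def eh : Om E F := mkO E F ⟨(z, 1), z_NN E F⟩

theorem ce : Ce (eh E F) := by
  refine ⟨fun x => ?_, ?_⟩
  · obtain ⟨d, rfl⟩ := QuotientGroup.mk'_surjective _ x
    change mkO E F d * _ = _ * mkO E F d
    rw [eh, ← map_mul, ← map_mul]
    exact congrArg _ (Subtype.ext (Prod.ext (NN_cen E F d.2) (by simp)))
  · rw [eh, ← map_mul, ← map_one (mkO E F)]
    exact congrArg _ (Subtype.ext (Prod.ext E.zz (by simp)))

theorem sim_of {d d' : NN E F} {q : G × Spor.Co1} (hq : q ∈ Qh E F) (h : d.1.2 = d'.1.2 * q.2) :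
    Sim (eh E F) (mkO E F d) (mkO E F d') := by
  have e : mkO E F d' = mkO E F (d' * ⟨q, Qh_le E F hq⟩) := by
    rw [map_mul, (mkO_eq_one E F (d := ⟨q, _⟩)).mpr hq, mul_one]
  have k : (d'.1.1 * q.1, d.1.2) ∈ NN E F := by
    rw [h]; exact mul_mem d'.2 (Qh_le E F hq)
  rw [e]
  rcases NN_eq E F d.2 k with e | e
  · exact Or.inl (congrArg _ (Subtype.ext (Prod.ext e h)))
  · refine Or.inr ?_
    rw [eh, ← map_mul]
    exact congrArg _ (Subtype.ext (Prod.ext e (by simpa using h)))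

/-- The first component. -/
noncomputable def toC : NN E F →* centralizer ({z} : Set G) :=
  ((MonoidHom.fst _ _).comp (NN E F).subtype).codRestrict _ fun d => d.2.2.1

/-- The action on vectors. -/
noncomputable def rhoO : Om E F →* Equiv.Perm (Fin 256) :=
  QuotientGroup.lift _ ((rho E F).comp (toC E F)) fun _ h => (rho_eq_one E F).mpr (Qh_mem E F h)

theorem rhoO_mk (d : NN E F) : rhoO E F (mkO E F d) = rho E F (toC E F d) := rfl

theorem rhoO_sim {x y : Om E F} (h : Sim (eh E F) x y) : rhoO E F x = rhoO E F y := by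
  rcases h with rfl | rfl
  · rfl
  · rw [map_mul, eh, rhoO_mk, (rho_eq_one E F).mpr E.zQ, one_mul]

/-- The lifts of `c0` to the extension are involutions. -/
def Dl (c0 : Spor.Co1) : Prop := ∃ c, (c, c0) ∈ NN E F ∧ (c, c0) * (c, c0) ∈ Qh E F

theorem Dl_iff (d : NN E F) : Dl E F d.1.2 ↔ mkO E F d * mkO E F d = 1 := by
  constructor
  · rintro ⟨c, h1, h2⟩
    rw [(sim_of E F (d := d) (d' := ⟨_, h1⟩) (one_mem _) (mul_one _).symm).sq (ce E F), ← map_mul]
    exact (mkO_eq_one E F).mpr h2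
  · intro h
    rw [← map_mul] at h
    exact ⟨d.1.1, d.2, (mkO_eq_one E F).mp h⟩

theorem Dl.inv {c0 : Spor.Co1} (h : Dl E F c0) : Dl E F c0⁻¹ := by
  obtain ⟨c, h1, h2⟩ := h
  refine ⟨c⁻¹, inv_mem h1, ?_⟩
  have := inv_mem h2
  rwa [mul_inv_rev] at this

theorem Dl.mul {c0 : Spor.Co1} (h : Dl E F c0) {w : List ℕ} (hw : inR 10 w = true) :
    Dl E F (c0 * evL e0 w) := by
  obtain ⟨c, h1, h2⟩ := h
  have k := mem_Qh E F hw
  refine (Dl_iff E F ⟨_, mul_mem h1 (Qh_le E F k)⟩).mpr ?_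
  rw [(sim_of E F (d' := ⟨_, h1⟩) k rfl).sq (ce E F), ← map_mul]
  exact (mkO_eq_one E F).mpr h2

theorem evL_NN {g : ℕ → G} {w : List ℕ} (h : ∀ l ∈ w, (g l, e0 l) ∈ NN E F) :
    (evL g w, evL e0 w) ∈ NN E F := by
  rw [← evL_pr2]
  exact evL_mem_of_letters h

theorem rho_evL {g : ℕ → G} {w : List ℕ} (h : ∀ l ∈ w, l < 27 ∧ (g l, e0 l) ∈ NN E F)
    (c : centralizer ({z} : Set G)) (hc : c.1 = evL g w) : rho E F c = evL M8 w := by
  induction w generalizing c with
  | nil => exact (congrArg _ (Subtype.ext hc)).trans (map_one _)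
  | cons x w ih =>
    have h1 := h x List.mem_cons_self
    have h2 := fun l hl => h l (List.mem_cons_of_mem x hl)
    have e : c = ⟨g x, h1.2.2.1⟩ * ⟨evL g w, (evL_NN E F fun l hl => (h2 l hl).2).2.1⟩ :=
      Subtype.ext (hc.trans (evL_cons _ _ _))
    rw [e, map_mul, evL_cons, ih h2 ⟨evL g w, _⟩ rfl, NN_rho E F h1.1 h1.2]

/-- Lifts of the first letters. -/
structure Lf (g : ℕ → G) : Prop where
  fa : ∀ l < 10, g l = fa z a l
  nn : ∀ l < 18, (g l, e0 l) ∈ NN E F

theorem fa_NN {l : ℕ} (h : l < 10) : (fa z a l, e0 l) ∈ Qh E F := by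
  by_cases h0 : l = 0
  · rw [h0, e0_zero]; exact one_mem _
  · simpa [evL_singleton] using mem_Qh E F (w := [l]) (inR_iff.mpr (by simp; omega))

theorem exists_Lf : ∃ g, Lf E F g := by
  have : ∀ l, ∃ c, (l < 10 → c = fa z a l) ∧ (l < 18 → (c, e0 l) ∈ NN E F) := fun l => by
    by_cases h : l < 10
    · exact ⟨_, fun _ => rfl, fun _ => Qh_le E F (fa_NN E F h)⟩
    by_cases h' : l < 18
    · obtain ⟨c, hc⟩ := exists_lift E F (by omega) h'
      exact ⟨c, fun e => absurd e h, fun _ => hc⟩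
    · exact ⟨1, fun e => absurd e h, fun e => absurd e h'⟩
  choose g h1 h2 using this
  exact ⟨g, h1, h2⟩

variable {E F} {g : ℕ → G}

/-- The letters in the extension. -/
noncomputable def Lf.X (h : Lf E F g) (l : ℕ) : Om E F :=
  if hl : l < 18 then mkO E F ⟨_, h.nn l hl⟩ else 1

theorem Lf.ev (h : Lf E F g) {w : List ℕ} (hw : ∀ l ∈ w, l < 18) :
    evL h.X w = mkO E F ⟨(evL g w, evL e0 w), evL_NN E F fun l hl => h.nn l (hw l hl)⟩ := by
  induction w with
  | nil => exact (map_one (mkO E F)).symm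
  | cons x w ih =>
    rw [evL_cons, ih fun l hl => hw l (List.mem_cons_of_mem _ hl), Lf.X,
      dif_pos (hw x List.mem_cons_self), ← map_mul]
    rfl

theorem Lf.rho (h : Lf E F g) {w : List ℕ} (hw : ∀ l ∈ w, l < 18) :
    rhoO E F (evL h.X w) = evL M8 w := by
  rw [h.ev hw, rhoO_mk]
  exact rho_evL E F (fun l hl => ⟨(hw l hl).trans (by norm_num), h.nn l (hw l hl)⟩) _ rfl

theorem Lf.sim (h : Lf E F g) {w v : List ℕ} (hw : ∀ l ∈ w, l < 18) (hv : inR 10 v = true)
    (e : evL e0 w = evL e0 v) : Sim (eh E F) (evL h.X w) 1 := by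
  rw [h.ev hw, ← map_one (mkO E F)]
  exact sim_of E F (mem_Qh E F hv) (e.trans (one_mul _).symm)

theorem Lf.dl (h : Lf E F g) {w : List ℕ} (hw : ∀ l ∈ w, l < 18) :
    Dl E F (evL e0 w) ↔ evL h.X (w ++ w) = 1 := by
  rw [evL_append, h.ev hw, ← Dl_iff]

theorem Lf.tl (h : Lf E F g) {σ : List (List ℕ)} (hσ : ∀ u ∈ σ, ∀ l ∈ u, l < 18) (hW : Wit σ) :
    ∀ w ∈ TL, Sim (eh E F) (evL (evS h.X σ) w) 1 := fun w hw => by
  obtain ⟨v, h1, h2⟩ := hW w hw
  rw [evL_subst]
  exact h.sim (mem_subst hσ w) h1 h2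

theorem Lf.split (h : Lf E F g) {σ : List (List ℕ)} (hσ : ∀ u ∈ σ, ∀ l ∈ u, l < 18)
    (h0 : σ.getD 0 [] = []) (hW : Wit σ) (hR : ∀ w ∈ RT, ∃ l < 9, 1 ≤ l ∧ σ.getD l [] = w)
    (h1 : Dl E F (evL e0 (subst σ (rep 1)))) (h2 : Dl E F (evL e0 (subst σ (rep 2)))) :
    ∃ s, sgn (eh E F) (evS h.X σ) s 0 = 1 ∧ ∀ w, (∀ l ∈ w, l < 9) → evL M8 (subst σ w) = 1 →
      evL (sgn (eh E F) (evS h.X σ) s) w = 1 := by
  have d : ∀ w, Dl E F (evL e0 (subst σ w)) → evL (evS h.X σ) (w ++ w) = 1 := fun w k => by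
    rw [evL_append, evL_subst, ← evL_append]
    exact (h.dl (mem_subst hσ w)).mp k
  obtain ⟨s, hg, hr⟩ := t_rels (ce E F) (h.tl hσ hW) (by rw [evS, h0, evL_nil]) (d _ h1) (d _ h2)
  have u1 := UB.bot.cover (T1.cover hg hr)
  have u2 := (u1.cover (T2.cover hg hr)).mono (gen_mono _ (Ws := T3.Sub) (by decide))
  have u3 := u2.cover (T3.cover hg hr)
  have k : ∀ w, (∀ l ∈ w, l < 9) → rhoO E F (evL (sgn (eh E F) (evS h.X σ) s) w) =
      evL M8 (subst σ w) := fun w _ => by
    rw [rhoO_sim E F (sim_sgn (ce E F) s w), evL_subst, h.rho (mem_subst hσ w)]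
  have m : ∀ w, (∀ l ∈ w, l < 9) → evL (sgn (eh E F) (evS h.X σ) s) w ∈
      gen (ext (sgn (eh E F) (evS h.X σ) s)) T3.X := fun w hw => by
    rw [← evL_ext hw]
    refine evL_mem_of_letters fun l hl => ?_
    have : ∀ l < 9, l = 0 ∨ [l] ∈ T3.X := by decide
    rcases this l (hw l hl) with rfl | e
    · rw [hg.zero]; exact one_mem _
    · rw [← evL_singleton (ext _) l]; exact evL_mem_gen _ e
  refine ⟨s, hg.zero, fun w hw e => inj_of_card (rhoO E F) ?_ (m w hw) ((k w hw).trans e)⟩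
  refine (u3.2.trans lb8).trans (card_le_of_le (gen_le fun w hw => ?_))
  obtain ⟨l, hl, -, rfl⟩ := hR w hw
  refine ⟨_, m [l] (by simpa using hl), (k [l] (by simpa using hl)).trans ?_⟩
  simp [subst]

variable (E F)

theorem dl34 (k : Dl E F (evL e0 [10, 20])) : Dl E F (evL e0 [14, 16]) := by
  obtain ⟨g, h⟩ := exists_Lf E F
  have hT := h.tl (σ := sA) (by decide) witA
  have k1 := k.mul E F (w := [1,2]) rfl
  rw [← evL_append, eqw_spec (v := subst sA [1,4,8,3,7,6,5,4,3,1,3,4,5,6,7,3,8,4]) (by decide +kernel),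
    h.dl (by decide)] at k1
  have k2 := sq_eq (ce E F) (p := [1,4,8,3,7,6,5,4,3,1,3,4,5,6,7,3,8,4]) (u := [3,1,4,2,5,3,6,4,5,3]) (r := rep 1) (t_let hT) (by decide)
    (by rw [evL_subst]; exact h.sim (v := [4]) (by decide) rfl (eqw_spec (by decide +kernel)))
    (t_rep hT 1 (by norm_num))
  rw [evL_subst, evL_subst] at k2
  exact (h.dl (by decide)).mpr (k2.symm.trans k1)

theorem dl13 (k : Dl E F (evL e0 [14, 16])) (k' : Dl E F (evL e0 [10, 16])) :
    Dl E F (evL e0 [10, 14]) := by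
  obtain ⟨g, h⟩ := exists_Lf E F
  have k1 := k.inv
  rw [← e0_rev] at k1
  obtain ⟨s, -, hs⟩ := h.split (σ := sB) (by decide) rfl witB (by decide) k1 k'
  have := hs ([1, 7] ++ [1, 7]) (by decide) (eq8_spec (w := []) (by decide +kernel))
  rw [sq_sgn (ce E F), evL_subst] at this
  exact (h.dl (by decide)).mpr this

/-- The letters generate the centraliser with the relations of the model. -/
structure Gr (g : ℕ → G) : Prop where
  fa : ∀ l < 10, g l = fa z a l
  nn : ∀ l < 27, (g l, e0 l) ∈ NN E F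
  hO : ∀ w, inR 27 w = true → (evL e0 w = 1 ↔ evL g w = 1)
  hC : ∀ c, c ∈ centralizer ({z} : Set G) ↔ ∃ w, inR 27 w = true ∧ evL g w = c

theorem exists_Gr (k : Dl E F (evL e0 [14, 16])) (k' : Dl E F (evL e0 [10, 14])) :
    ∃ g, Gr E F g := by
  obtain ⟨g, h⟩ := exists_Lf E F
  obtain ⟨s, s0, hs⟩ := h.split (σ := sA) (by decide) rfl witA (by decide) k k'
  let g' : ℕ → G := fun l => if l < 10 then g l else if s (l - 9) = true then z * g l else g l
  have h' : Lf E F g' := by
    refine ⟨fun l hl => (if_pos hl).trans (h.fa l hl), fun l hl => ?_⟩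
    simp only [g']
    split_ifs
    · exact h.nn l hl
    · simpa using mul_mem (z_NN E F) (h.nn l hl)
    · exact h.nn l hl
  have hX : ∀ l < 18, h'.X l = sgn (eh E F) (evS h.X sA) s (l - 9) := fun l hl => by
    by_cases e : l < 10
    · rw [show l - 9 = 0 by omega, s0, Lf.X, dif_pos hl, mkO_eq_one]
      change (g' l, e0 l) ∈ _
      rw [h'.fa l e]
      exact fa_NN E F e
    · have e1 : ∀ l < 18, ¬ l < 10 → sA.getD (l - 9) [] = [l] := by decide
      rw [sgn, evS, e1 l hl e, evL_singleton, Lf.X, Lf.X, dif_pos hl, dif_pos hl, eh, ← map_mul,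
        ← apply_ite (mkO E F)]
      refine congrArg _ (Subtype.ext ?_)
      simp only [g', if_neg e]
      split_ifs <;> simp
  have hM : ∀ l < 18, evS M8 sA (l - 9) = M8 l := fun l hl => by
    by_cases e : l < 10
    · rw [show l - 9 = 0 by omega, M8_small e]; rfl
    · have e1 : ∀ l < 18, ¬ l < 10 → sA.getD (l - 9) [] = [l] := by decide
      rw [evS, e1 l hl e, evL_singleton]
  have key : ∀ w, (∀ l ∈ w, l < 18) → evL g' w ∈ Q → (evL g' w, evL e0 w) ∈ Qh E F := by
    intro w hw hq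
    have n := evL_NN E F fun l hl => h'.nn l (hw l hl)
    refine (mkO_eq_one E F (d := ⟨_, n⟩)).mp ?_
    rw [← h'.ev hw, evL_congr fun l hl => hX l (hw l hl), ← evL_map _ (· - 9)]
    refine hs _ (fun l hl => ?_) ?_
    · obtain ⟨x, hx, rfl⟩ := List.mem_map.mp hl
      have := hw x hx
      omega
    · rw [← evL_subst, evL_map, evL_congr fun l hl => hM l (hw l hl), ← h'.rho hw, h'.ev hw,
        rhoO_mk]
      exact (rho_eq_one E F).mpr hq
  have hD : ∀ u ∈ DW, ∀ l ∈ u, l < 18 := by decide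
  have e0D : ∀ w, inR 27 w = true → evL e0 (subst DW w) = evL e0 w := fun w hw => by
    rw [← evL_subst]
    exact evL_congr fun l hl => e0_DW (inR_spec hw l hl).2
  have hfa : ∀ l < 10, evS g' DW l = fa z a l := fun l hl => by
    rcases (hDW l (by omega)).2.2 (by omega) with rfl | e
    · rfl
    · rw [evS, e, evL_singleton, h'.fa l hl]
  have hnn : ∀ l < 27, (evS g' DW l, e0 l) ∈ NN E F := fun l hl => by
    rw [← e0_DW hl]
    exact evL_NN E F fun x hx => h'.nn x (inR_spec (hDW l hl).1 x hx).2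
  refine ⟨evS g' DW, hfa, hnn, fun w hw => ?_, fun c => ⟨fun hc => ?_, ?_⟩⟩
  · rw [evL_subst, ← e0D w hw]
    have hw' := mem_subst hD w
    constructor
    · intro e
      have n := evL_NN E F fun l hl => h'.nn l (hw' l hl)
      rw [e] at n
      have := key _ hw' ((NN_K E F n).elim (fun e => e ▸ one_mem _) fun e => e ▸ E.zQ)
      rw [e] at this
      exact Qh_snd E F this
    · intro e
      have := key _ hw' (e ▸ one_mem _)
      rw [e] at this
      exact Qh_fst E F this
  · have sq : ∀ l, rg 27 l = true → M8 l * M8 l = 1 := fun l hl => by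
      rw [M8, dif_pos (rg_iff.mp hl).2]
      exact Equiv.ext fun v => (inv8 l (rg_iff.mp hl).2 v).1
    have m : rho E F ⟨c, hc⟩ ∈ wds M8 (rg 27) sq := by
      refine gen_le (K := wds M8 (rg 27) sq) (Ws := RT) (fun w hw => ⟨w, ?_, rfl⟩)
        ((range_eq E F).le ⟨_, rfl⟩)
      revert w
      decide
    obtain ⟨w, hw, e⟩ := m
    have n := evL_NN E F fun l hl => hnn l (inR_spec hw l hl).2
    rw [← rho_evL E F (fun l hl => ⟨(inR_spec hw l hl).2, hnn l (inR_spec hw l hl).2⟩)
      ⟨_, n.2.1⟩ rfl, eq_comm, ← mul_inv_eq_one, ← map_inv, ← map_mul, rho_eq_one] at e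
    obtain ⟨q0, hq⟩ := exists_Qh E F e
    obtain ⟨v, hv, e2⟩ := Qh_word E F hq
    refine ⟨v ++ w, ?_, ?_⟩
    · rw [inR, List.all_append, Bool.and_eq_true]
      exact ⟨inR_mono hv (by norm_num), hw⟩
    · rw [evL_append, evL_congr fun l hl => hfa l (inR_spec hv l hl).2]
      exact (mul_inv_eq_iff_eq_mul.mp (congrArg Prod.fst e2)).symm
  · rintro ⟨w, hw, rfl⟩
    exact (evL_NN E F fun l hl => hnn l (inR_spec hw l hl).2).2.1

/-- The exchange of two indices. -/
def sp (i : ℕ) : ℕ := if i = 3 then 7 else if i = 7 then 3 else i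

/-- The exchange of two letters. -/
def sl (l : ℕ) : ℕ := if l = 5 then 9 else if l = 9 then 5 else l

omit [Finite G] in
include F in
theorem Fr.swap : Fr z Q false fun i => a (sp i) := by
  have h : ∀ i < 8, sp i < 8 := by decide
  have k : ∀ i < 8, ∀ j < 8, sp j = pr (sp i) ↔ j = pr i := by decide
  refine ⟨fun i hi => F.mem _ (h i hi), fun i hi => by simpa using F.sq _ (h i hi),
    fun i hi j hj => ?_⟩
  rw [F.cm _ (h i hi) _ (h j hj)]
  exact if_congr (k i hi j hj) rfl rfl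

omit [Finite G] in
theorem fa_swap (w : List ℕ) : evL (fa z fun i => a (sp i)) w = evL (fa z a) (w.map sl) := by
  rw [evL_map]
  refine evL_congr fun l _ => ?_
  by_cases h5 : l = 5
  · rw [h5]; rfl
  by_cases h9 : l = 9
  · rw [h9]; rfl
  unfold sl fa sp
  rw [if_neg h5, if_neg h9]
  beta_reduce
  split_ifs <;> first | rfl | omega

/-- The conjugates of the frame letters by a product of two root letters. -/
def CS : List (List ℕ) := [[], [1], [2], [1,2,3], [4], [4,5], [6,7], [7], [8,9], [9]]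

theorem dl_swap (k : ¬ Dl E F (evL e0 [10, 16])) : Dl E F.swap (evL e0 [10, 14]) := by
  obtain ⟨g, h⟩ := exists_Lf E F
  have n := evL_NN E F (w := [10,16]) fun l hl => h.nn l (by revert l; decide)
  have t : ∀ i < 10, 1 ≤ i → inR 10 (CS.getD i []) = true ∧ inR 10 ([i].map sl) = true ∧
      inR 10 ((CS.getD i []).map sl) = true ∧
      eqw ([10, 14] ++ [i] ++ [10, 14].reverse) (CS.getD i []) = true ∧
      eqw ([10,16] ++ [i].map sl ++ [10,16].reverse) ((CS.getD i []).map sl) = true := by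
    decide +kernel
  refine ⟨evL g [10,16], mem_NN E F.swap (NN_cen E F n) fun i hi h1 => ?_, ?_⟩
  · obtain ⟨t1, t2, t3, t4, t5⟩ := t i hi h1
    refine ⟨_, t1, ?_, by simpa only [evL_singleton] using eqw_conj t4⟩
    rw [← evL_singleton (fa z _) i, fa_swap, fa_swap]
    exact NN_conj E F n t2 t3 (eqw_conj t5)
  have n2 := mul_mem n n
  have q := mem_Qh E F (w := [1]) rfl
  rw [← eqw_spec (u := [10,16] ++ [10,16]) (by decide +kernel), evL_append] at q
  rcases NN_eq E F n2 (Qh_le E F q) with e | e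
  · refine absurd ?_ k
    have := Dl.mul E F ⟨_, n, by rw [Prod.mk_mul_mk, e]; exact q⟩ (w := []) rfl
    rwa [← evL_append, eqw_spec (v := [10, 16]) (by decide +kernel)] at this
  · have q2 := mem_Qh E F.swap (w := []) rfl
    rw [← eqw_spec (u := [10, 14] ++ [10, 14]) (by decide +kernel), evL_append, fa_swap,
      fa_eq E F (v := 1 :: [1]) rfl rfl (eqw_spec (by decide +kernel))] at q2
    rw [Prod.mk_mul_mk, e]
    exact q2

theorem pin {x : G} (hx : x ∈ Q) (h1 : x ≠ 1) (h2 : x ≠ z) (h3 : x * x = 1)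
    (h : ∀ (a : ℕ → G) (F : Fr z Q false a), a 0 = x → Dl E F (evL e0 [10, 20])) :
    ∃ (a : ℕ → G) (F : Fr z Q false a) (g : ℕ → G), a 0 = x ∧ Gr E F g := by
  obtain ⟨m, a, F, h0⟩ := E.exists_fr hx h1 h2 h3
  obtain rfl := plus E F
  by_cases k : Dl E F (evL e0 [10, 16])
  · have k1 := dl34 E F (h a F h0)
    obtain ⟨g, hg⟩ := exists_Gr E F k1 (dl13 E F k1 k)
    exact ⟨a, F, g, h0, hg⟩
  · obtain ⟨g, hg⟩ := exists_Gr E F.swap (dl34 E F.swap (h _ _ h0)) (dl_swap E F k)
    exact ⟨_, F.swap, g, h0, hg⟩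

end Cfsg.Co.Rc
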