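import Cfsg.Agent.Co.A6

/-! Two conjugate involutions, each in the extraspecial group of the other. -/

set_option autoImplicit false
set_option maxRecDepth 100000
set_option linter.unusedSectionVars false

namespace Cfsg.Co.Rc

open Subgroup Cfsg.H6 Cfsg.Co.Md

theorem OG_fix {σ : Equiv.Perm (Fin 256)} (h : σ ∈ OG false)
    (e : ∀ j < 8, j ≠ 4 → σ (fv (2 ^ j)) = fv (2 ^ j)) : σ = 1 := by
  refine ext_basis h (one_mem _) fun i hi => ?_
  by_cases h4 : i = 4
  · have : ∀ v : Fin 256, qf false v = qf false (fv (2 ^ 4)) →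
        (∀ j < 8, j ≠ 4 → qf false (xo v (fv (2 ^ j))) = qf false (xo (fv (2 ^ 4)) (fv (2 ^ j)))) →
        v = fv (2 ^ 4) := by decide +kernel
    rw [h4]
    exact this _ (h.2 _) fun j hj k => by rw [← h.2 (xo (fv (2 ^ 4)) _), h.1, e j hj k]
  · exact e i hi h4

theorem fv_pow {j : ℕ} (hj : j < 8) : ((fv (2 ^ j) : Fin 256) : ℕ) = 2 ^ j := by
  interval_cases j <;> rfl

/-- The letters of the unipotent radical. -/
def sx (i : ℕ) : ℕ := [10, 18, 19, 20, 21, 22].getD i 0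

/-- The basis vectors moved by these letters. -/
def jx (i : ℕ) : ℕ := [1, 2, 3, 5, 6, 7].getD i 0

/-- The words of the unipotent radical. -/
def swb (k : ℕ) : List ℕ := ((List.range 6).filter k.testBit).map sx

theorem hswb : ∀ k < 64, inR 27 (swb k) = true ∧ trF img8 (swb k) 1 = 1 ∧
    ∀ i < 6, trF img8 (swb k) (2 ^ jx i ^^^ (k.testBit i).toNat) = 2 ^ jx i := by decide +kernel

/-- Words that move a singular vector to one that is not orthogonal to it. -/
def IW : List (List ℕ) := [[], [], [13,15,17,13], [13,15,17,13], [15,17], [15,17], [15,17], [15,17], [14,17], [14,17], [13,17], [13,17], [14,17], [14,17], [13,17], [13,17], [], [], [], [], [], [], [], [], [], [], [], [], [], [], [], [], [12,14,16,12], [12,14,16,12], [], [], [15,17], [15,17], [], [], [12,14], [12,14], [], [], [12,14], [12,14], [], [], [], [], [], [], [], [], [], [], [], [], [], [], [], [], [], [], [14,16], [14,16], [14,16], [14,16], [], [], [], [], [14,16], [14,16],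 [13,17], [13,17], [], [], [], [], [], [], [], [], [], [], [], [], [], [], [], [], [], [], [], [], [14,16], [14,16], [], [], [], [], [14,15], [14,15], [12,14], [12,14], [], [], [], [], [12,14], [12,14], [], [], [], [], [], [], [], [], [], [], [], [], [], [], [], [], [15,16], [15,16], [13,15], [13,15], [15,16], [15,16], [13,15], [13,15], [], [], [], [], [], [], [], [], [], [], [], [], [], [], [], [], [], [], [], [], [], [], [], [], [12,16], [12,16], [], [], [12,16], [12,16], [], [], [], [], [12,13], [12,13], [], [], [12,13], [12,13], [], [], [], [], [], [], [], [], [], [], [], [], [], [], [], [], [14,16], [14,16], [13,15], [13,15], [], [], [], [], [], [], [], [], [12,13], [12,13], [12,13], [12,13], [], [], [], [], [], [], [], [], [], [], [], [], [], [], [], [], [12,16], [12,16], [], [], [], [], [12,16], [12,16], [], [], [12,13], [12,13], [12,13], [12,13], [], [], [], [], [], [], [], [], [], [], [], [], [], [], [], [], [], []]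

theorem hIW : ∀ v < 256, qf false v = false → v.testBit 4 = false → v = 0 ∨ v = 1 ∨
    (letChk RT [nthW IW v] = true ∧ inR 27 (nthW IW v) = true ∧ trF img8 (nthW IW v) 1 = 1 ∧
      qf false (v ^^^ trF img8 (nthW IW v) v) = true) := by decide +kernel

/-- Words that centralise a letter and add a basis vector to another one. -/
def FW (i j : ℕ) : List ℕ × ℕ := (([[([], 0), ([], 0), ([13], 1), ([15], 2), ([], 0), ([13], 6), ([15], 7), ([14], 6)], [([], 0), ([12], 2), ([], 0), ([15], 2), ([], 0), ([13,15,13,12], 7), ([12], 5), ([17], 2)], [([], 0), ([12], 2), ([13], 1), ([], 0), ([], 0), ([13], 6), ([12], 5), ([14], 6)], [([], 0), ([12], 2), ([14], 3), ([15], 2), ([], 0), ([], 0), ([12], 5), ([14], 6)], [([], 0), ([12,14,12,13], 3), ([13], 1), ([16], 6), ([], 0), ([13], 6), ([], 0), ([14], 6)], [([], 0), ([12], 2), ([13], 1), ([15], 2), ([], 0), ([13], 6), ([12], 5), ([], 0)]] : List (List (List ℕ × ℕ))).getD i []).getD j ([], 0)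

theorem hFW : ∀ i < 6, ∀ j < 8, j = 0 ∨ j = 4 ∨ j = jx i ∨
    (letChk RT [(FW i j).1] = true ∧ inR 27 (FW i j).1 = true ∧ trF img8 (FW i j).1 1 = 1 ∧
      eq8 ((FW i j).1 ++ [sx i]) ([sx i] ++ (FW i j).1) = true ∧ (FW i j).2 < 8 ∧ (FW i j).2 ≠ 4 ∧
      trF img8 (FW i j).1 (2 ^ (FW i j).2) = 2 ^ (FW i j).2 ^^^ 2 ^ j) := by decide +kernel

theorem hsx : ∀ i < 6, 10 ≤ sx i ∧ sx i < 27 ∧ jx i < 8 ∧ jx i ≠ 4 ∧ jx i ≠ 0 ∧
    (∀ j < 8, j ≠ 4 → CW (sx i) (j + 2) = if j = jx i then [1, 2, j + 2] else [j + 2]) ∧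
    (∀ k < 6, jx k = jx i → k = i) ∧ swb (2 ^ i) = [sx i] ∧ 2 ^ i < 64 := by decide +kernel

variable {G : Type*} [Group G]

/-- The four-group of `z` and `y`. -/
def InV (z y d : G) : Prop := d = 1 ∨ d = z ∨ d = y ∨ d = z * y

theorem InV.symm {z y d : G} (h : InV z y d) (e : z * y = y * z) : InV y z d := by
  rcases h with h | h | h | h
  exacts [Or.inl h, Or.inr (Or.inr (Or.inl h)), Or.inr (Or.inl h), Or.inr (Or.inr (Or.inr (e ▸ h)))]

theorem InV.comm {z y d x : G} (h : InV z y d) (h1 : x * z = z * x) (h2 : x * y = y * x) :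
    x * d = d * x := by
  rcases h with rfl | rfl | rfl | rfl
  · simp
  · exact h1
  · exact h2
  · rw [← mul_assoc, h1, mul_assoc, h2, mul_assoc]

theorem Sim.mul' {y b c d e : G} (hy : y * y = 1) (hb : c * y = y * c) (k : Sim y b c)
    (l : Sim y d e) : Sim y (b * d) (c * e) := by
  rcases k with rfl | rfl <;> rcases l with rfl | rfl
  · exact Or.inl rfl
  · exact Or.inr (by rw [← mul_assoc, hb, mul_assoc])
  · exact Or.inr (mul_assoc _ _ _)
  · exact Or.inl (by rw [mul_assoc, ← mul_assoc c, hb, mul_assoc, ← mul_assoc, hy, one_mul])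

theorem card_ker_range {A B : Type*} [Group A] [Group B] (φ : A →* B) :
    Nat.card A = Nat.card φ.ker * Nat.card φ.range := by
  rw [← φ.ker.card_mul_index, index_ker]

variable [Finite G] {z : G} {Q : Subgroup G} {a : ℕ → G} (E : ES z Q) (F : Fr z Q false a)
include E F

theorem siegel {c : G} (hc : c * z = z * c)
    (h : ∀ j < 8, j ≠ 4 → Sim z (c * a j * c⁻¹) (a j)) : c ∈ Q := by
  refine (rho_eq_one E F (c := ⟨c, mem_cen.mpr hc⟩)).mp
    (OG_fix (rho_le E F ⟨_, rfl⟩) fun j hj h4 => Fin.ext ?_)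
  rw [rho_val, fv_pow hj, ← co_a E F hj, ← co_conj E F hc (F.mem j hj)]
  rcases h j hj h4 with e | e <;> rw [e]
  exact co_zm E F (F.mem j hj)

theorem inV_of_co {d : G} (hd : d ∈ Q) (h : co a d = 0 ∨ co a d = 1) : InV z (a 0) d := by
  rcases h with h | h
  · exact (eq_of_co_zero E F hd h).imp id Or.inl
  · exact Or.inr (Or.inr (eq_of_co E F hd (F.mem 0 (by norm_num))
      (h.trans (co_a E F (by norm_num : 0 < 8)).symm)))

theorem cenV {d : G} (hd : d * z = z * d) (h : ∀ j < 8, j ≠ 4 → d * a j = a j * d) :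
    InV z (a 0) d := by
  have hq := siegel E F hd fun j hj h4 => Or.inl (mul_inv_eq_iff_eq_mul.mpr (h j hj h4))
  refine inV_of_co E F hq ?_
  have : ∀ v < 256, (∀ i < 8, i ≠ 0 → v.testBit i ≠ true) → v = 0 ∨ v = 1 := by decide +kernel
  refine this _ (co_lt a d) fun i hi h0 e => (co_bit a d hi).mp e (h _ (pr_lt i) ?_).symm
  unfold pr
  omega

theorem cm0 {j : ℕ} (hj : j < 8) (h4 : j ≠ 4) : a j * a 0 = a 0 * a j := by
  rw [F.cm 0 (by norm_num) j hj, if_neg (show j ≠ pr 0 from h4)]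

theorem cm4 : a 4 * a 0 = z * (a 0 * a 4) := by
  rw [F.cm 0 (by norm_num) 4 (by norm_num), if_pos (show 4 = pr 0 from rfl)]

theorem exists_X {w : List ℕ} (h1 : letChk RT [w] = true) (h2 : inR 27 w = true)
    (h3 : trF img8 w 1 = 1) : ∃ c : centralizer ({z} : Set G), c * a 0 = a 0 * c ∧
      rho E F c = (evL M8 w)⁻¹ ∧ ∀ q ∈ Q, co a (c * q * (c : G)⁻¹) = trF img8 w (co a q) := by
  have k : ∀ c : centralizer ({z} : Set G), rho E F c = (evL M8 w)⁻¹ →
      ∀ q ∈ Q, co a (c * q * (c : G)⁻¹) = trF img8 w (co a q) := fun c hc q hq => by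
    rw [co_conj E F (mem_cen.mp c.2) hq, ← rho_val E F c ⟨_, co_lt a q⟩, hc, evM_inv h2]
  obtain ⟨c, hc⟩ := exists_rho E F h1
  have hc' : rho E F c⁻¹ = (evL M8 w)⁻¹ := by rw [map_inv, hc]
  generalize c⁻¹ = d at hc'
  have m0 := F.mem 0 (by norm_num)
  have m4 := F.mem 4 (by norm_num)
  have e := eq_of_co E F (E.nrm _ (mem_cen.mp d.2) _ m0) m0
    (by rw [k d hc' _ m0, co_a E F (by norm_num : 0 < 8)]; exact h3)
  rcases e with e | e
  · exact ⟨d, mul_inv_eq_iff_eq_mul.mp e, hc', k d hc'⟩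
  · have hd : rho E F (d * ⟨a 4, mem_cen.mpr (E.qz _ m4)⟩) = (evL M8 w)⁻¹ := by
      rw [map_mul, hc', (rho_eq_one E F).mpr m4, mul_one]
    refine ⟨_, ?_, hd, k _ hd⟩
    change d.1 * a 4 * a 0 = a 0 * (d.1 * a 4)
    rw [mul_assoc, cm4 E F, ← mul_assoc, mem_cen.mp d.2, mul_assoc, ← mul_assoc d.1,
      mul_inv_eq_iff_eq_mul.mp e, mul_assoc z, mul_assoc z, E.zzm, mul_assoc]

theorem card_X : 512 * 174182400 ∣
    270 * Nat.card (centralizer ({z} : Set G) ⊓ centralizer {a 0} : Subgroup G) := by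
  set C := centralizer ({z} : Set G)
  set S := (fixS (rho E F) [1]).map C.subtype with hS
  have h1 : Nat.card S * 135 = 512 * 174182400 := by
    rw [hS, card_subtype, ← index_fix E F, card_mul_index, E.cardC]
  have m0 := F.mem 0 (by norm_num)
  have k : ∀ s : C, s ∈ fixS (rho E F) [1] ↔ co a (s * a 0 * (s : G)⁻¹) = co a (a 0) := fun s => by
    rw [co_conj E F (mem_cen.mp s.2) m0, co_a E F (by norm_num : 0 < 8), pow_zero,
      ← show ((1 : Fin 256) : ℕ) = 1 from rfl, ← rho_val E F, Fin.val_inj]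
    exact ⟨fun h => h 1 List.mem_cons_self, fun h b hb => by rwa [List.mem_singleton.mp hb]⟩
  have h2 : S ⊓ centralizer {a 0} = C ⊓ centralizer {a 0} := by
    refine le_antisymm (inf_le_inf_right _ (map_subtype_le _)) fun x hx => ⟨⟨⟨x, hx.1⟩, ?_, rfl⟩, hx.2⟩
    exact (k _).mpr (by rw [mem_cen.mp hx.2, mul_inv_cancel_right])
  have h3 := card_le_two (S := S) (K := centralizer {a 0}) (by
    rintro _ ⟨s, hs, rfl⟩ _ ⟨t, ht, rfl⟩ h h'
    have e : ∀ s : C, s ∈ fixS (rho E F) [1] → s.1 ∉ centralizer {a 0} →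
        s.1 * a 0 = z * (a 0 * s.1) := fun s hs h => by
      rcases eq_of_co E F (E.nrm _ (mem_cen.mp s.2) _ m0) m0 ((k s).mp hs) with e | e
      · exact absurd (mem_cen.mpr (mul_inv_eq_iff_eq_mul.mp e)) h
      · rw [mul_inv_eq_iff_eq_mul.mp e, mul_assoc]
    exact mem_cen.mpr (E.anti (mem_cen.mp s.2) (e s hs h) (e t ht h')))
  obtain ⟨m, hm⟩ := card_dvd_of_le (inf_le_left : S ⊓ centralizer {a 0} ≤ S)
  rw [← h2, ← h1, hm]
  have h4 : 0 < Nat.card (S ⊓ centralizer {a 0} : Subgroup G) := Nat.card_pos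
  have h5 : 0 < Nat.card S := Nat.card_pos
  have h6 : m ≤ 2 := by
    rw [hm, mul_comm 2] at h3
    exact Nat.le_of_mul_le_mul_left h3 h4
  have h7 : m ≠ 0 := by rintro rfl; omega
  interval_cases m
  · exact absurd rfl h7
  · exact ⟨2, by ring⟩
  · exact ⟨1, by ring⟩

variable {Q' : Subgroup G} (E' : ES (a 0) Q')
include E'

theorem ne0 : a 0 ≠ z := fun e => by
  have := co_a E F (by norm_num : 0 < 8)
  rw [e, co_z E F] at this
  exact absurd this (by norm_num)

theorem card_N : 256 ≤ Nat.card (Q' ⊓ centralizer {z} : Subgroup G) := by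
  set C := centralizer ({a 0} : Set G)
  have hQ : Q' ≤ C := fun q hq => mem_cen.mpr (E'.qz q hq)
  have : (Q'.subgroupOf C).Normal := ⟨fun q hq c => E'.nrm _ (mem_cen.mp c.2) _ hq⟩
  have h1 : Nat.card (C ⧸ Q'.subgroupOf C) = 174182400 := by
    have := card_eq_card_quotient_mul_card_subgroup (Q'.subgroupOf C)
    rw [E'.cardC, Nat.card_congr (subgroupOfEquivOfLe hQ).toEquiv, E'.card] at this
    omega
  let φ := (QuotientGroup.mk' (Q'.subgroupOf C)).comp
    (inclusion (inf_le_right : centralizer ({z} : Set G) ⊓ C ≤ C))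
  have h2 : φ.ker = (Q' ⊓ centralizer {z}).subgroupOf (centralizer ({z} : Set G) ⊓ C) := by
    ext x
    exact (QuotientGroup.eq_one_iff _).trans ⟨fun h => ⟨h, x.2.1⟩, fun h => h.1⟩
  have h3 := card_ker_range φ
  rw [h2, Nat.card_congr (subgroupOfEquivOfLe
    (le_inf inf_le_right (inf_le_left.trans hQ))).toEquiv] at h3
  have h4 := card_X E F
  obtain ⟨m, hm⟩ := card_subgroup_dvd_card φ.range
  rw [h3, ← h1, hm, ← mul_assoc, ← mul_assoc, mul_right_comm 512] at h4
  have h5 := (Dvd.intro _ rfl).trans (Nat.dvd_of_mul_dvd_mul_right Nat.card_pos h4)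
  have h6 : 0 < Nat.card (Q' ⊓ centralizer {z} : Subgroup G) := Nat.card_pos
  omega

theorem sq_I {p : G} (h : p ∈ Q) (h' : p ∈ Q') : qf false (co a p) = false := by
  have h1 := sq_co E F h
  by_contra e
  rw [if_pos (by simpa using e)] at h1
  rcases E'.sq p h' with k | k
  · exact E.z1 (h1.symm.trans k)
  · exact ne0 E F E' (k.symm.trans h1)

theorem inV_I {p : G} (h : p ∈ Q) (h' : p ∈ Q') : InV z (a 0) p := by
  refine inV_of_co E F h ?_
  have h4 : (co a p).testBit 4 = false := by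
    by_contra e
    exact (co_bit a p (by norm_num : 4 < 8)).mp (by simpa using e) (E'.qz p h').symm
  rcases hIW _ (co_lt a p) (sq_I E F E' h h') h4 with e | e | ⟨h1, h2, h3, h5⟩
  · exact Or.inl e
  · exact Or.inr e
  obtain ⟨c, c1, -, c2⟩ := exists_X E F h1 h2 h3
  have m := E.nrm _ (mem_cen.mp c.2) p h
  have := sq_I E F E' (mul_mem h m) (mul_mem h' (E'.nrm _ c1 p h'))
  rw [co_mul E F h m, c2 p h, h5] at this
  exact absurd this (by decide)

theorem comm_V {n q : G} (hn : n ∈ Q') (hz : n * z = z * n) (hq : q ∈ Q) (h0 : q * a 0 = a 0 * q) :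
    InV z (a 0) (n * q * n⁻¹ * q⁻¹) := by
  refine inV_I E F E' (mul_mem (E.nrm n hz q hq) (inv_mem hq)) ?_
  rw [mul_assoc n, mul_assoc n]
  exact mul_mem hn (E'.nrm q h0 _ (inv_mem hn))

theorem co_V {v : G} (h : InV z (a 0) v) : v ∈ Q ∧ (co a v = 0 ∨ co a v = 1) := by
  have m0 := F.mem 0 (by norm_num)
  rcases h with rfl | rfl | rfl | rfl
  · exact ⟨one_mem _, Or.inl co_one⟩
  · exact ⟨E.zQ, Or.inl (co_z E F)⟩
  · exact ⟨m0, Or.inr (co_a E F (by norm_num))⟩
  · exact ⟨mul_mem E.zQ m0, Or.inr ((co_zm E F m0).trans (co_a E F (by norm_num)))⟩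

theorem rho_N {n : centralizer ({z} : Set G)} (hn : n.1 ∈ Q') :
    ∃ k < 64, rho E F n = evL M8 (swb k) := by
  have hv : ∀ j < 8, (rho E F n (fv (2 ^ j)) : ℕ) = co a (n * a j * (n : G)⁻¹) := fun j hj => by
    rw [rho_val, fv_pow hj, co_conj E F (mem_cen.mp n.2) (F.mem j hj), co_a E F hj]
  let k := Nat.ofBits (n := 6) fun i => decide (co a (n * a (jx i) * (n : G)⁻¹) ≠ 2 ^ jx i)
  have hk : k < 64 := Nat.ofBits_lt_two_pow _
  obtain ⟨h1, h2, h3⟩ := hswb k hk
  refine ⟨k, hk, (inv_mul_eq_one.mp (OG_fix (mul_mem (inv_mem (evM_mem _))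
    (rho_le E F ⟨n, rfl⟩)) fun j hj h4 => Fin.ext ?_)).symm⟩
  rw [Equiv.Perm.mul_apply, evM_inv h1, hv j hj, fv_pow hj]
  by_cases h0 : j = 0
  · rw [h0, E'.qz _ hn, mul_inv_cancel_right, co_a E F (by norm_num)]
    exact h2
  have : ∀ j < 8, j ≠ 4 → j ≠ 0 → ∃ i < 6, jx i = j := by decide
  obtain ⟨i, hi, rfl⟩ := this j hj h4 h0
  refine Eq.trans (congrArg _ ?_) (h3 i hi)
  rw [Nat.testBit_ofBits_lt _ _ hi]
  obtain ⟨v1, v2⟩ := co_V E F E' (comm_V E F E' hn (mem_cen.mp n.2) (F.mem _ hj) (cm0 E F hj h4))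
  have e : co a (n * a (jx i) * (n : G)⁻¹) =
      2 ^ jx i ^^^ co a (n * a (jx i) * (n : G)⁻¹ * (a (jx i))⁻¹) := by
    rw [Nat.xor_comm, ← co_a E F hj, ← co_mul E F v1 (F.mem _ hj), inv_mul_cancel_right]
  rcases v2 with v2 | v2 <;> rw [v2] at e <;> simp only [e]
  · simp
  · have : ∀ j < 8, 2 ^ j ^^^ 1 ≠ 2 ^ j := by decide
    rw [decide_eq_true (this _ hj)]
    rfl

theorem big_N : z ∈ Q' ∧ ∀ k < 64, ∃ n : centralizer ({z} : Set G), n.1 ∈ Q' ∧
    rho E F n = evL M8 (swb k) := by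
  let φ := (rho E F).comp (inclusion (inf_le_right : Q' ⊓ centralizer {z} ≤ centralizer {z}))
  have h1 := card_ker_range φ
  have h2 : φ.ker = (Q ⊓ Q').subgroupOf (Q' ⊓ centralizer {z}) := by
    ext x
    exact (rho_eq_one E F).trans ⟨fun h => ⟨h, x.2.1⟩, fun h => h.1⟩
  rw [h2, Nat.card_congr (subgroupOfEquivOfLe (le_inf inf_le_right
    fun q hq => mem_cen.mpr (E.qz q hq.1))).toEquiv] at h1
  have h3 := card_N E F E'
  have hs : (φ.range : Set _) ⊆ (fun k => evL M8 (swb k)) '' ↑(Finset.range 64) := by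
    rintro _ ⟨n, rfl⟩
    obtain ⟨k, hk, e⟩ := rho_N E F E' (n := ⟨n, n.2.2⟩) n.2.1
    exact ⟨k, by simpa using hk, e.symm⟩
  have h4 : ((fun k => evL M8 (swb k)) '' ↑(Finset.range 64)).ncard ≤ 64 :=
    (Set.ncard_image_le (Finset.finite_toSet _)).trans (by simp)
  have h5 : Nat.card φ.range ≤ 64 := (Set.ncard_le_ncard hs).trans h4
  have h6 : Nat.card (Q ⊓ Q' : Subgroup G) ≤ 4 := by
    refine (Set.ncard_le_ncard (t := {1, z, a 0, z * a 0}) fun p hp => inV_I E F E' hp.1 hp.2).trans ?_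
    exact (Set.ncard_insert_le _ _).trans (Nat.succ_le_succ ((Set.ncard_insert_le _ _).trans
      (Nat.succ_le_succ ((Set.ncard_insert_le _ _).trans (by simp)))))
  constructor
  · by_contra hz
    have h7 : Nat.card (Q ⊓ Q' : Subgroup G) ≤ 2 := by
      refine (Set.ncard_le_ncard (t := {1, a 0}) fun p hp => ?_).trans
        ((Set.ncard_insert_le _ _).trans (by simp))
      rcases inV_I E F E' hp.1 hp.2 with e | e | e | e
      · exact Or.inl e
      · exact absurd (e ▸ hp.2) hz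
      · exact Or.inr e
      · exact absurd ((Q'.mul_mem_cancel_right E'.zQ).mp (e ▸ hp.2)) hz
    nlinarith
  · intro k hk
    have h8 : 64 ≤ Nat.card φ.range := by nlinarith
    obtain ⟨n, hn⟩ := (Set.eq_of_subset_of_ncard_le hs (h4.trans h8)).ge ⟨k, by simpa using hk, rfl⟩
    exact ⟨_, n.2.1, hn⟩

theorem fix_six {i : ℕ} (hi : i < 6) {c : centralizer ({z} : Set G)} (hc : c.1 ∈ Q')
    (h : rho E F c = M8 (sx i)) {j : ℕ} (hj : j < 8) (h4 : j ≠ 4) (hx : j ≠ jx i) :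
    c * a j * (c : G)⁻¹ = a j := by
  rcases hFW i hi j hj with rfl | e | e | ⟨h1, h2, h3, h5, h6, h7, h8⟩
  · exact mul_inv_eq_iff_eq_mul.mpr (E'.qz _ hc)
  · exact absurd e h4
  · exact absurd e hx
  generalize (FW i j).2 = r at *
  obtain ⟨x, x1, x2, x3⟩ := exists_X E F h1 h2 h3
  have xz := mem_cen.mp x.2
  have cz := mem_cen.mp c.2
  have mr := F.mem r h6
  have mj := F.mem j hj
  have v1 : InV z (a 0) (x * c * (x : G)⁻¹ * (c : G)⁻¹) := by
    refine inV_I E F E' ((rho_eq_one E F (c := x * c * x⁻¹ * c⁻¹)).mp ?_)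
      (mul_mem (E'.nrm _ x1 _ hc) (inv_mem hc))
    have := eq8_spec h5
    rw [evL_append, evL_append, evL_singleton] at this
    rw [map_mul, map_mul, map_mul, map_inv, map_inv, x2, h, inv_inv, mul_assoc _ (M8 _), ← this]
    group
  have v2 := comm_V E F E' hc cz mr (cm0 E F h6 h7)
  have m1 := E.nrm _ xz _ mr
  have m2 : x * a r * (x : G)⁻¹ ∈ centralizer {a 0} :=
    mul_mem (mul_mem (mem_cen.mpr x1) (mem_cen.mpr (cm0 E F h6 h7))) (inv_mem (mem_cen.mpr x1))
  have m3 : c * (x * a r * (x : G)⁻¹) * (c : G)⁻¹ ∈ centralizer {a 0} :=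
    mul_mem (mul_mem (mem_cen.mpr (E'.qz _ hc)) m2) (inv_mem (mem_cen.mpr (E'.qz _ hc)))
  have e1 := v1.comm (E.qz _ (E.nrm _ cz _ m1)) (mem_cen.mp m3)
  have e2 := v2.comm xz x1
  generalize hf : c * a r * (c : G)⁻¹ * (a r)⁻¹ = f at e2
  have e3 : c * (x * a r * (x : G)⁻¹) * (c : G)⁻¹ = f * (x * a r * (x : G)⁻¹) := by
    rw [← mul_assoc f, ← mul_assoc f, ← e2, ← hf]
    refine mul_right_cancel (b := x * c * (x : G)⁻¹ * (c : G)⁻¹) ?_
    rw [e1]
    group
  have e4 : c * (a r * a j) * (c : G)⁻¹ = f * (a r * a j) := by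
    rcases eq_of_co E F m1 (mul_mem mr mj)
      (by rw [x3 _ mr, co_mul E F mr mj, co_a E F h6, co_a E F hj, h8]) with e | e <;> rw [e] at e3
    · exact e3
    · refine mul_left_cancel (a := z) ?_
      rw [← mul_assoc z f, ← hf, ← (v2.comm rfl (E.qz _ (F.mem 0 (by norm_num))).symm).symm, hf,
        mul_assoc f, ← e3, ← mul_assoc (c : G) z, cz]
      group
  rw [← hf] at e4
  refine mul_left_cancel (a := c * a r * (c : G)⁻¹) ?_
  calc _ = c * (a r * a j) * (c : G)⁻¹ := by group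
    _ = _ := by rw [e4]; group

theorem mem_swb {k l : ℕ} (h : l ∈ swb k) : ∃ i < 6, sx i = l := by
  obtain ⟨i, hi, rfl⟩ := List.mem_map.mp h
  exact ⟨i, List.mem_range.mp (List.mem_filter.mp hi).1, rfl⟩

theorem word_N {g : ℕ → centralizer ({z} : Set G)}
    (hg : ∀ i < 6, (g (sx i)).1 ∈ Q' ∧ rho E F (g (sx i)) = M8 (sx i)) {n : G} (hn : n ∈ Q')
    (hz : n * z = z * n) : ∃ k v, InV z (a 0) v ∧ n = v * evL (fun l => (g l).1) (swb k) := by
  obtain ⟨k, -, hk⟩ := rho_N E F E' (n := ⟨n, mem_cen.mpr hz⟩) hn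
  have e : (evL g (swb k)).1 = evL (fun l => (g l).1) (swb k) :=
    map_evL (centralizer ({z} : Set G)).subtype g _
  refine ⟨k, _, inV_I E F E' ?_ (mul_mem hn (inv_mem (evL_mem_of_letters fun l hl => ?_))),
    (inv_mul_cancel_right _ _).symm⟩
  · rw [← e]
    refine (rho_eq_one E F (c := ⟨n, mem_cen.mpr hz⟩ * (evL g (swb k))⁻¹)).mp ?_
    rw [map_mul, map_inv, hk, map_evL, mul_inv_eq_one]
    refine evL_congr fun l hl => ?_
    obtain ⟨i, hi, rfl⟩ := mem_swb E F E' hl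
    exact (hg i hi).2.symm
  · obtain ⟨i, hi, rfl⟩ := mem_swb E F E' hl
    exact (hg i hi).1

theorem exists_fr' : ∃ a', Fr (a 0) Q' false a' ∧ a' 0 = z := by
  obtain ⟨m, a', F', h⟩ := E'.exists_fr (big_N E F E').1 E.z1 (ne0 E F E').symm E.zz
  obtain rfl := plus E' F'
  exact ⟨a', F', h⟩

theorem move_six {i : ℕ} (hi : i < 6) {c : centralizer ({z} : Set G)} (hc : c.1 ∈ Q')
    (h : rho E F c = M8 (sx i)) : c * a (jx i) * (c : G)⁻¹ = z * (a 0 * a (jx i)) := by
  obtain ⟨s1, s2, s3, s4, s5, s6, s7, -, -⟩ := hsx i hi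
  have e := rho_CW E F s2 s1 h s3
  rw [s6 _ s3 s4, if_pos rfl, evL_cons, evL_cons, evL_singleton, fa_a s3,
    fa_a (i := 0) (by norm_num)] at e
  refine e.resolve_right fun e => ?_
  rw [show fa z a 1 = z from rfl, E.zzm] at e
  have : ∀ l, ∃ n : centralizer ({z} : Set G), (l = sx i → n = c) ∧
      ∀ k < 6, l = sx k → n.1 ∈ Q' ∧ rho E F n = M8 l := fun l => by
    by_cases h1 : l = sx i
    · exact ⟨c, fun _ => rfl, fun _ _ _ => ⟨hc, h1 ▸ h⟩⟩
    by_cases h2 : ∃ k < 6, l = sx k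
    · obtain ⟨k, hk, rfl⟩ := h2
      obtain ⟨n, n1, n2⟩ := (big_N E F E').2 _ (hsx k hk).2.2.2.2.2.2.2.2
      rw [(hsx k hk).2.2.2.2.2.2.2.1, evL_singleton] at n2
      exact ⟨n, fun e => absurd e h1, fun _ _ _ => ⟨n1, n2⟩⟩
    · exact ⟨1, fun e => absurd e h1, fun k hk e => absurd ⟨k, hk, e⟩ h2⟩
  choose g g1 g2 using this
  have p0 := cm0 E F s3 s4
  have pz := E.qz _ (F.mem _ s3)
  have k : ∀ w : List ℕ, (∀ l ∈ w, ∃ k < 6, sx k = l) → evL (fun l => (g l).1) w ∈ Q' ∧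
      Sim (a 0) (a (jx i) * evL (fun l => (g l).1) w * (a (jx i))⁻¹) (evL (fun l => (g l).1) w) := by
    intro w hw
    induction w with
    | nil => exact ⟨one_mem _, Or.inl (by simp [evL_nil])⟩
    | cons x w ih =>
      obtain ⟨h1, h2⟩ := ih fun l hl => hw l (List.mem_cons_of_mem _ hl)
      obtain ⟨k, hk, rfl⟩ := hw x List.mem_cons_self
      obtain ⟨h3, h4⟩ := g2 _ k hk rfl
      rw [evL_cons, ← conj_mul]
      refine ⟨mul_mem h3 h1, Sim.mul' E'.zz (E'.qz _ h3) ?_ h2⟩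
      by_cases hk' : k = i
      · rw [hk', g1 _ rfl]
        refine Or.inr ?_
        rw [← mul_inv_eq_iff_eq_mul, ← mul_left_cancel_iff (a := a 0), ← mul_assoc, ← mul_assoc,
          ← mul_assoc, ← e, E'.zz]
        group
      · refine Or.inl (mul_inv_eq_iff_eq_mul.mpr (mul_inv_eq_iff_eq_mul.mp
          (fix_six E F E' hk h3 h4 s3 s4 fun e => hk' (s7 k hk e.symm))).symm)
  obtain ⟨a', F', h0⟩ := exists_fr' E F E'
  have hp := siegel E' F' p0 fun j hj h4 => by
    obtain ⟨k', v, hv, e⟩ := word_N E F E' (fun k hk => g2 _ k hk rfl) (F'.mem j hj)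
      (h0 ▸ cm0 E' F' hj h4)
    rw [e, ← conj_mul]
    exact Sim.mul' E'.zz (hv.comm (E.qz _ (F.mem 0 (by norm_num))) rfl).symm
      (Or.inl (mul_inv_eq_iff_eq_mul.mpr (hv.comm pz p0))) (k _ fun l => mem_swb E F E').2
  have := (co_V E F E' (inV_I E F E' (F.mem _ s3) hp)).2
  rw [co_a E F s3] at this
  revert this
  generalize jx i = j at *
  interval_cases j <;> simp_all

theorem exists_six {i : ℕ} (hi : i < 6) : ∃ c ∈ Q', (c, e0 (sx i)) ∈ NN E F := by
  obtain ⟨s1, s2, s3, s4, s5, s6, s7, s8, s9⟩ := hsx i hi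
  obtain ⟨c, hc, h⟩ := (big_N E F E').2 _ s9
  rw [s8, evL_singleton] at h
  have k : ∀ j < 8, j ≠ 4 → c * a j * (c : G)⁻¹ = evL (fa z a) (CW (sx i) (j + 2)) := by
    intro j hj h4
    rw [s6 j hj h4]
    split_ifs with e
    · rw [e, move_six E F E' hi hc h, evL_cons, evL_cons, evL_singleton, fa_a s3,
        fa_a (i := 0) (by norm_num)]
      rfl
    · rw [evL_singleton, fa_a hj, fix_six E F E' hi hc h hj h4 e]
  have cz := mem_cen.mp c.2
  rcases rho_CW E F s2 s1 h (j := 4) (by norm_num) with e | e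
  · refine ⟨c, hc, mem_NN_CW E F cz s2 s1 fun j hj => ?_⟩
    by_cases h4 : j = 4
    · rw [h4, e]
    · exact k j hj h4
  · refine ⟨c * a 0, mul_mem hc E'.zQ, mem_NN_CW E F ?_ s2 s1 fun j hj => ?_⟩
    · rw [mul_assoc, E.qz _ (F.mem 0 (by norm_num)), ← mul_assoc, cz, mul_assoc]
    by_cases h4 : j = 4
    · rw [h4, ← E.zzm (evL _ _), ← e, mul_assoc _ (a 0), E.flip (cm4 E F), ← mul_assoc c.1, cz]
      group
    · rw [← k j hj h4, mul_assoc _ (a 0), ← cm0 E F hj h4]
      group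

theorem dl_six : Dl E F (evL e0 [10, 20]) := by
  obtain ⟨c, c1, c2⟩ := exists_six E F E' (i := 0) (by norm_num)
  obtain ⟨d, d1, d2⟩ := exists_six E F E' (i := 3) (by norm_num)
  have n : (c * d, evL e0 [10, 20]) ∈ NN E F := by
    rw [evL_cons, evL_singleton]
    exact mul_mem c2 d2
  have q := mem_Qh E F (w := [2]) rfl
  rw [← eqw_spec (u := [10, 20] ++ [10, 20]) (by decide +kernel), evL_append, evL_singleton,
    fa_a (i := 0) (by norm_num)] at q
  refine ⟨_, n, ?_⟩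
  rcases NN_eq E F (mul_mem n n) (Qh_le E F q) with e | e
  · rw [Prod.mk_mul_mk, show c * d * (c * d) = a 0 from e]
    exact q
  · rcases E'.sq _ (mul_mem c1 d1) with k | k
    · refine absurd ?_ (ne0 E F E')
      rw [← E.zzm (a 0), ← show c * d * (c * d) = z * a 0 from e, k, mul_one]
    · exact absurd (e.symm.trans k) (E.ne _)

end Cfsg.Co.Rc
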