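import Cfsg.Agent.Co.B1

/-! The normaliser of the four-group; the amalgam. -/

set_option autoImplicit false
set_option maxRecDepth 100000
set_option linter.unusedSectionVars false

namespace Cfsg.Co.Rc

open Subgroup Cfsg.H6 Cfsg.Co.Md

/-- The letters that centralise the four-group. -/
def pX (l : ℕ) : Bool := rg 27 l && !(l == 6) && !(l == 11) && !(l == 25)

theorem pX_lt {l : ℕ} (h : pX l = true) : 1 ≤ l ∧ l < 27 := by
  simp only [pX, Bool.and_eq_true] at h
  exact rg_iff.mp h.1.1.1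

theorem pX_inR {w : List ℕ} (h : w.all pX = true) : inR 27 w = true :=
  inR_iff.mpr fun x hx => pX_lt (List.all_eq_true.mp h x hx)

/-- Conjugates under the last letter. -/
def TX : List (List ℕ) := [[], [1,2], [2], [20,1,3], [21,4], [22,1,5], [], [10,7], [18,8], [19,9], [10], [], [12,19], [13,19], [14,10,19], [15,10], [16,20,21,1], [17,20,1,2], [18], [19], [20,2], [21], [22,2], [12,14,12,16,12,14,12,16,20,21,22,1,4], [12,16,12,16,21,1,2], [], [17,20,3]]

/-- Conjugates under the sixth letter. -/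
def SY : List (List ℕ) := [[], [1], [1,2], [3], [4], [5], [], [7], [8], [9], [10,7], [], [12], [13], [14], [15], [16], [17], [18,8], [19,9], [20,3], [21,4], [22,5], [12,14,12,16,12,14,12,16,1,4], [12,16,12,16,1], [], [17,20]]

/-- Square roots. -/
def SQX : List (List ℕ) := [[], [3,7], [7,26], [4,12], [3,13], [4,15], [], [8,13], [7,12], [8,14], [13,18], [], [14,12,14,15], [14,15,13,15], [12,14,12,13], [12,13,15,13], [13,24], [4,10,12,13,17,13,10,4], [10,12], [14,18], [18,23], [13,20], [16,18], [14,20,24], [15,23], [], [13,12,13,21,26,12,13]]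

theorem hTX : ∀ l < 27, pX l = true → (nthW TX l).all pX = true ∧ (nthW SY l).all pX = true ∧
    (nthW SQX l).all pX = true ∧ eqw ([27] ++ [l] ++ [27].reverse) (nthW TX l) = true ∧
    eqw ([6] ++ [l] ++ [6].reverse) (nthW SY l) = true ∧
    eqw (nthW SQX l ++ nthW SQX l) [l] = true ∧ eqw [l, 1] [1, l] = true ∧
    eqw [l, 2] [2, l] = true := by decide +kernel

/-- The partner of a letter of the unipotent radical. -/
def px (i : ℕ) : ℕ := sx ((i + 3) % 6)

theorem hpx : ∀ i < 6, pX (sx i) = true ∧ pX (px i) = true ∧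
    (nthW TX (sx i) = [sx i] ∨ nthW TX (sx i) = [sx i, 2]) ∧ ∀ j < 6,
    eqw ([px i] ++ [sx j] ++ [px i].reverse) (if j = i then [2, sx j] else [sx j]) = true := by
  decide +kernel

/-- Representatives of the symmetric group of degree three. -/
def RP (k : ℕ) : List ℕ := [[], [6], [27], [6, 27], [27, 6], [6, 27, 6]].getD k []

theorem hRP : ∀ k < 6, inR 28 (RP k) = true ∧ (k = 0 ∨ val (RP k ++ [1]) ≠ val ([1] ++ RP k) ∨
    val (RP k ++ [2]) ≠ val ([2] ++ RP k)) := by decide +kernel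

theorem sym3 {Γ : Type*} [Group Γ] {ev : ℕ → Γ} (hs : ev 6 * ev 6 = 1) (ht : ev 27 * ev 27 = 1)
    (h : ev 27 * ev 6 * (ev 27 * ev 6) * (ev 27 * ev 6) = 1) {l : ℕ} (hl : l = 6 ∨ l = 27) {k : ℕ}
    (hk : k < 6) : ∃ k' < 6, ev l * evL ev (RP k) = evL ev (RP k') := by
  have s : ∀ x, ev 6 * (ev 6 * x) = x := fun x => by rw [← mul_assoc, hs, one_mul]
  have t : ∀ x, ev 27 * (ev 27 * x) = x := fun x => by rw [← mul_assoc, ht, one_mul]
  have b : ev 27 * (ev 6 * (ev 27 * (ev 6 * 1))) = ev 6 * (ev 27 * 1) := by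
    refine mul_left_cancel (a := ev 27 * ev 6) ?_
    rw [mul_assoc (ev 27) (ev 6) (ev 6 * _), s, t]
    simpa only [mul_one, mul_assoc] using h
  have b' : ev 27 * (ev 6 * (ev 27 * 1)) = ev 6 * (ev 27 * (ev 6 * 1)) := by
    refine mul_right_cancel (b := ev 6) ?_
    simp only [mul_one, mul_assoc] at b ⊢
    rw [b, hs, mul_one]
  rcases hl with rfl | rfl <;> interval_cases k
  · exact ⟨1, by norm_num, rfl⟩
  · exact ⟨0, by norm_num, s _⟩
  · exact ⟨3, by norm_num, rfl⟩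
  · exact ⟨2, by norm_num, s _⟩
  · exact ⟨5, by norm_num, rfl⟩
  · exact ⟨4, by norm_num, s _⟩
  · exact ⟨2, by norm_num, rfl⟩
  · exact ⟨4, by norm_num, rfl⟩
  · exact ⟨0, by norm_num, t _⟩
  · exact ⟨5, by norm_num, b'⟩
  · exact ⟨1, by norm_num, t _⟩
  · exact ⟨3, by norm_num, b⟩

variable {G : Type*} [Group G] [Finite G] {z : G} {Q : Subgroup G} {a : ℕ → G} {E : ES z Q}
  {F : Fr z Q false a} {g : ℕ → G} (H : Gr E F g)
include H

theorem Gr.sq {l : ℕ} (hl : rg 27 l = true) : g l * g l = 1 := by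
  have := (H.hO [l, l] (by simp [inR, ← rg.eq_1, hl])).mp (by simpa [evL_cons, evL_nil] using sq_e0 l)
  simpa [evL_cons, evL_nil] using this

theorem Gr.rev {w : List ℕ} (hw : inR 27 w = true) : evL g w.reverse = (evL g w)⁻¹ :=
  evL_rev fun l hl => H.sq (List.all_eq_true.mp hw l hl)

theorem Gr.eq {u v : List ℕ} (hu : inR 27 u = true) (hv : inR 27 v = true) :
    evL e0 u = evL e0 v ↔ evL g u = evL g v := by
  have := H.hO (u ++ v.reverse) (by
    rw [inR, List.all_append, List.all_reverse, Bool.and_eq_true]; exact ⟨hu, hv⟩)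
  rwa [evL_append, evL_append, e0_rev, H.rev hv, mul_inv_eq_one, mul_inv_eq_one] at this

theorem Gr.g1 : g 1 = z := H.fa 1 (by norm_num)

theorem Gr.ga {j : ℕ} (hj : j < 8) : g (j + 2) = a j := (H.fa _ (by omega)).trans (fa_a hj)

theorem Gr.g2 : g 2 = a 0 := H.ga (j := 0) (by norm_num)

/-- The graph of the centraliser. -/
noncomputable def Gr.C : Subgroup (G × Spor.Co1) :=
  wds (pr2 g) (rg 27) fun l hl => Prod.ext (H.sq hl) (sq_e0 l)

/-- The graph of the centraliser of the four-group. -/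
noncomputable def Gr.X : Subgroup (G × Spor.Co1) :=
  wds (pr2 g) pX fun l hl => Prod.ext (H.sq (rg_iff.mpr (pX_lt hl))) (sq_e0 l)

theorem Gr.X_le : H.X ≤ H.C := fun _ ⟨w, hw, e⟩ => ⟨w, pX_inR hw, e⟩

theorem Gr.mem_X {w : List ℕ} (hw : w.all pX = true) : (evL g w, evL e0 w) ∈ H.X :=
  ⟨w, hw, evL_pr2 _ _⟩

theorem Gr.let_X {l : ℕ} (hl : pX l = true) : (g l, e0 l) ∈ H.X := by
  simpa [evL_singleton] using H.mem_X (w := [l]) (by simpa using hl)

theorem Gr.C_eq {d e : G × Spor.Co1} (hd : d ∈ H.C) (he : e ∈ H.C) : d.2 = e.2 ↔ d.1 = e.1 := by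
  obtain ⟨u, hu, rfl⟩ := hd
  obtain ⟨v, hv, rfl⟩ := he
  rw [evL_pr2, evL_pr2]
  exact H.eq hu hv

theorem Gr.X_cen {d : G × Spor.Co1} (hd : d ∈ H.X) :
    d * (z, e0 1) = (z, e0 1) * d ∧ d * (a 0, e0 2) = (a 0, e0 2) * d := by
  obtain ⟨u, hu, rfl⟩ := hd
  have k : ∀ i, i = 1 ∨ i = 2 → evL (pr2 g) u ∈ centralizer {pr2 g i} := fun i hi =>
    evL_mem_of_letters fun l hl => by
      have h := List.all_eq_true.mp hu l hl
      have h1 := pX_lt h
      obtain ⟨-, -, -, -, -, -, t1, t2⟩ := hTX l h1.2 h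
      have e : evL e0 [l, i] = evL e0 [i, l] := by
        rcases hi with rfl | rfl
        exacts [eqw_spec t1, eqw_spec t2]
      have e' := (H.eq (inR_iff.mpr (by simp; omega)) (inR_iff.mpr (by simp; omega))).mp e
      simp only [evL_cons, evL_nil, mul_one] at e e'
      exact mem_cen.mpr (Prod.ext e' e)
  have k1 := mem_cen.mp (k 1 (Or.inl rfl))
  have k2 := mem_cen.mp (k 2 (Or.inr rfl))
  rw [pr2, H.g1] at k1
  rw [pr2, H.g2] at k2
  exact ⟨k1, k2⟩

theorem Gr.s_nrm {d : G × Spor.Co1} (hd : d ∈ H.X) : pr2 g 6 * d * (pr2 g 6)⁻¹ ∈ H.X := by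
  obtain ⟨u, hu, rfl⟩ := hd
  refine conj_evL fun l hl => ?_
  have h := List.all_eq_true.mp hu l hl
  have h1 := pX_lt h
  obtain ⟨-, t1, -, -, t2, -⟩ := hTX l h1.2 h
  have e := (H.eq (inR_iff.mpr (by simp; omega)) (pX_inR t1)).mp (eqw_spec t2)
  have := H.mem_X t1
  rw [← e, ← eqw_conj t2, evL_append, evL_append, H.rev rfl] at this
  simp only [evL_singleton] at this
  exact this

variable {Q' : Subgroup G} (E' : ES (a 0) Q')
include E'

theorem Gr.six {i : ℕ} (hi : i < 6) : g (sx i) ∈ Q' := by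
  obtain ⟨c, c1, c2⟩ := exists_six E F E' hi
  rcases NN_eq E F (H.nn _ (hsx i hi).2.1) c2 with e | e <;> rw [e]
  · exact c1
  · exact mul_mem (big_N E F E').1 c1

theorem Gr.exists_t : ∃ t ∈ Q', t * t = 1 ∧ t * z * t⁻¹ = z * a 0 ∧
    ∀ i < 6, t * g (sx i) * t⁻¹ = evL g (nthW TX (sx i)) := by
  have zQ := (big_N E F E').1
  have yz := E.qz _ (F.mem 0 (by norm_num))
  have sim : ∀ t ∈ Q', ∀ i < 6, Sim (a 0) (t * g (sx i) * t⁻¹) (evL g (nthW TX (sx i))) := by
    intro t ht i hi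
    have m := H.six E' hi
    have h1 : Sim (a 0) (t * g (sx i) * t⁻¹) (g (sx i)) :=
      (E'.comm _ m _ ht).imp mul_inv_eq_iff_eq_mul.mpr fun e => by
        rw [e, mul_assoc, mul_inv_cancel_right]
    rcases (hpx i hi).2.2.1 with e | e <;> rw [e]
    · rwa [evL_singleton]
    · rw [evL_cons, evL_singleton, H.g2, E'.qz _ m]
      exact (h1.imp (fun e => by rw [e, E'.zzm]) id).symm
  have step : ∀ n ≤ 6, ∃ t ∈ Q', t * z * t⁻¹ = z * a 0 ∧
      ∀ i < n, t * g (sx i) * t⁻¹ = evL g (nthW TX (sx i)) := by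
    intro n
    induction n with
    | zero =>
      obtain ⟨a', F', h0⟩ := exists_fr' E F E'
      refine fun _ => ⟨a' 4, F'.mem 4 (by norm_num), ?_, fun i hi => absurd hi (by omega)⟩
      have := cm4 E' F'
      rw [h0] at this
      rw [this, ← mul_assoc, mul_inv_cancel_right, yz]
    | succ n ih =>
      intro hn
      obtain ⟨t, t1, t2, t3⟩ := ih (by omega)
      rcases sim t t1 n hn with e | e
      · refine ⟨t, t1, t2, fun i hi => ?_⟩
        by_cases h : i = n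
        · rw [h, e]
        · exact t3 i (by omega)
      obtain ⟨-, p1, -, p2⟩ := hpx n hn
      have p3 := pX_lt p1
      have k : ∀ j < 6, g (px n) * g (sx j) * (g (px n))⁻¹ =
          evL g (if j = n then [2, sx j] else [sx j]) := fun j hj => by
        have s := hsx j hj
        have := (H.eq (inR_iff.mpr (by simp; omega))
          (inR_iff.mpr (by split_ifs <;> simp <;> omega))).mp (eqw_spec (p2 j hj))
        rwa [evL_append, evL_append, H.rev (inR_iff.mpr (by simp; omega)), evL_singleton,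
          evL_singleton] at this
      have c : ∀ x, t * g (px n) * x * (t * g (px n))⁻¹ = t * (g (px n) * x * (g (px n))⁻¹) * t⁻¹ :=
        fun x => by group
      refine ⟨t * g (px n), mul_mem t1 (H.six E' (Nat.mod_lt _ (by norm_num))), ?_, fun i hi => ?_⟩
      · rw [c, NN_cen E F (H.nn _ p3.2), mul_inv_cancel_right, t2]
      · rw [c, k i (by omega)]
        split_ifs with h
        · rw [h, evL_cons, evL_singleton, H.g2, ← mul_assoc t, E'.qz t t1, mul_assoc (a 0),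
            mul_assoc (a 0), e, E'.zzm]
        · rw [evL_singleton, t3 i (by omega)]
  obtain ⟨t, t1, t2, t3⟩ := step 6 le_rfl
  rcases E'.sq t t1 with e | e
  · exact ⟨t, t1, e, t2, t3⟩
  refine ⟨t * z, mul_mem t1 zQ, ?_, ?_, fun i hi => ?_⟩
  · calc t * z * (t * z) = t * z * t⁻¹ * (t * t) * z := by group
      _ = 1 := by rw [t2, e, mul_assoc z, E'.zz, mul_one, E.zz]
  · rw [← t2]; group
  · rw [← t3 i hi, mul_assoc t, ← NN_cen E F (H.nn _ (hsx i hi).2.1)]
    group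

section
variable {t : G} (t1 : t ∈ Q') (t2 : t * z * t⁻¹ = z * a 0)
  (t3 : ∀ i < 6, t * g (sx i) * t⁻¹ = evL g (nthW TX (sx i)))
include t1 t2 t3

theorem Gr.t_N {d : G × Spor.Co1} (hd : d ∈ H.C ⊓ Q'.prod ⊤) :
    (t, e0 27) * d * (t, e0 27)⁻¹ ∈ H.C ⊓ Q'.prod ⊤ := by
  refine ⟨?_, E'.nrm t (E'.qz t t1) _ hd.2.1, trivial⟩
  let g' : ℕ → centralizer ({z} : Set G) := fun l => if h : l < 27 then ⟨g l, (H.nn l h).2.1⟩ else 1
  have dz : d.1 ∈ centralizer {z} := by
    obtain ⟨u, hu, rfl⟩ := hd.1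
    rw [evL_pr2]
    exact (H.hC _).mpr ⟨u, hu, rfl⟩
  obtain ⟨k, v, hv, e⟩ := word_N E F E' (g := g') (fun i hi => by
    have s := (hsx i hi).2.1
    simp only [g', dif_pos s]
    exact ⟨H.six E' hi, NN_rho E F s (H.nn _ s)⟩) hd.2.1 (mem_cen.mp dz)
  have hk : ∀ l ∈ swb k, ∃ i < 6, sx i = l := fun l => mem_swb E F E'
  rw [evL_congr (ev' := g) fun l hl => by
    obtain ⟨i, hi, rfl⟩ := hk l hl
    simp only [g', dif_pos (hsx i hi).2.1]] at e
  obtain ⟨u, hu, rfl⟩ : ∃ u : List ℕ, (∀ l ∈ u, l = 1 ∨ l = 2) ∧ v = evL g u := by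
    rcases hv with rfl | rfl | rfl | rfl
    · exact ⟨[], by simp, rfl⟩
    · exact ⟨[1], by simp, by rw [evL_singleton, H.g1]⟩
    · exact ⟨[2], by simp, by rw [evL_singleton, H.g2]⟩
    · exact ⟨[1, 2], by simp, by rw [evL_cons, evL_singleton, H.g1, H.g2]⟩
  have hl : ∀ l ∈ u ++ swb k, pX l = true ∧ t * g l * t⁻¹ = evL g (nthW TX l) := fun l hl => by
    rcases List.mem_append.mp hl with h | h
    · rcases hu l h with rfl | rfl
      · exact ⟨rfl, by
          rw [show nthW TX 1 = [1, 2] from rfl, evL_cons, evL_singleton, H.g1, H.g2, t2]⟩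
      · exact ⟨rfl, by
          rw [show nthW TX 2 = [2] from rfl, evL_singleton, H.g2, E'.qz t t1, mul_inv_cancel_right]⟩
    · obtain ⟨i, hi, rfl⟩ := hk l h
      exact ⟨(hpx i hi).1, t3 i hi⟩
  have m := H.X_le (H.mem_X (w := u ++ swb k) (List.all_eq_true.mpr fun l h => (hl l h).1))
  have e1 : d.1 = evL g (u ++ swb k) := by rw [evL_append, ← e]
  have e2 : d = evL (pr2 g) (u ++ swb k) := by
    rw [evL_pr2]
    exact Prod.ext e1 ((H.C_eq hd.1 m).mpr e1)
  rw [e2]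
  refine conj_evL fun l h => ?_
  obtain ⟨h1, h2⟩ := hl l h
  obtain ⟨s1, -, -, s2, -⟩ := hTX l (pX_lt h1).2 h1
  have := H.X_le (H.mem_X s1)
  rw [← h2, ← eqw_conj s2] at this
  simp only [evL_singleton] at this
  exact this

theorem Gr.t_V {l : ℕ} (hl : pX l = true) : ∃ v, InV z (a 0) v ∧ ∃ γ ∈ H.X,
    (t, e0 27) * pr2 g l * (t, e0 27)⁻¹ = (v, 1) * γ := by
  obtain ⟨s1, -, -, s2, -⟩ := hTX l (pX_lt hl).2 hl
  have m := H.mem_X s1
  have nX : ∀ γ ∈ H.X, ∀ d ∈ H.C ⊓ Q'.prod ⊤, γ * d * γ⁻¹ ∈ H.C ⊓ Q'.prod ⊤ := fun γ h d hd =>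
    ⟨H.C.mul_mem (H.C.mul_mem (H.X_le h) hd.1) (H.C.inv_mem (H.X_le h)),
      E'.nrm _ (congrArg Prod.fst (H.X_cen h).2) _ hd.2.1, trivial⟩
  have nT : ∀ d ∈ H.C ⊓ Q'.prod ⊤, (t, e0 27)⁻¹ * d * (t, e0 27) ∈ H.C ⊓ Q'.prod ⊤ := fun d hd =>
    (mem_normalizer_iff''.mp (mem_normalizer_fintype fun n hn => H.t_N E' t1 t2 t3 hn) d).mp hd
  set D := (t, e0 27) * pr2 g l * (t, e0 27)⁻¹ * (evL g (nthW TX l), evL e0 (nthW TX l))⁻¹ with hD
  have D2 : D.2 = 1 := by
    have := eqw_conj s2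
    rw [evL_singleton, evL_singleton] at this
    exact mul_inv_eq_one.mpr this
  have k : ∀ n ∈ Q', n * z = z * n → D.1 * n = n * D.1 := fun n hn hz => by
    obtain ⟨w, hw, rfl⟩ := (H.hC n).mp (mem_cen.mpr hz)
    have m1 : (evL g w, evL e0 w) ∈ H.C ⊓ Q'.prod ⊤ := ⟨⟨w, hw, evL_pr2 _ _⟩, hn, trivial⟩
    have m2 := H.t_N E' t1 t2 t3 (nX _ (H.let_X hl) _ (nT _ (nX _ (inv_mem m) _ m1)))
    have e : D * (evL g w, evL e0 w) * D⁻¹ ∈ H.C := by
      convert (mem_inf.mp m2).1 using 1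
      rw [hD, pr2]
      group
    refine mul_inv_eq_iff_eq_mul.mp ((H.C_eq e m1.1).mp ?_)
    rw [Prod.snd_mul, Prod.snd_mul, Prod.snd_inv, D2]
    simp
  obtain ⟨a', F', h0⟩ := exists_fr' E F E'
  have yz := E.qz _ (F.mem 0 (by norm_num))
  have hv := cenV E' F' (k _ E'.zQ yz) fun j hj h4 => k _ (F'.mem j hj) (h0 ▸ cm0 E' F' hj h4)
  rw [h0] at hv
  refine ⟨D.1, hv.symm yz, _, m, ?_⟩
  rw [← D2]
  exact (inv_mul_cancel_right _ _).symm

theorem Gr.t_nrm {d : G × Spor.Co1} (hd : d ∈ H.X) : (t, e0 27) * d * (t, e0 27)⁻¹ ∈ H.X := by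
  have yz := E.qz _ (F.mem 0 (by norm_num))
  have c : ∀ v, InV z (a 0) v → ∀ γ ∈ H.X, γ * (v, 1) = (v, 1) * γ := fun v hv γ h =>
    Prod.ext (hv.comm (congrArg Prod.fst (H.X_cen h).1) (congrArg Prod.fst (H.X_cen h).2)) (by simp)
  have k : ∀ w : List ℕ, w.all pX = true → ∃ v, (∀ γ ∈ H.X, γ * (v, 1) = (v, 1) * γ) ∧
      v ∈ closure {z, a 0} ∧ ∃ γ ∈ H.X,
      (t, e0 27) * evL (pr2 g) w * (t, e0 27)⁻¹ = (v, 1) * γ := by
    intro w hw
    induction w with
    | nil => exact ⟨1, fun γ _ => by simp [← Prod.one_eq_mk], one_mem _, 1, one_mem _,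
        by simp [evL_nil, ← Prod.one_eq_mk]⟩
    | cons x w ih =>
      rw [List.all_cons, Bool.and_eq_true] at hw
      obtain ⟨v, v1, v2, γ, h1, h2⟩ := ih hw.2
      obtain ⟨u, u1, δ, h3, h4⟩ := H.t_V E' t1 t2 t3 hw.1
      have e : ((u * v, 1) : G × Spor.Co1) = (u, 1) * (v, 1) := by simp
      refine ⟨u * v, fun γ h => ?_, mul_mem ?_ v2, δ * γ, mul_mem h3 h1, ?_⟩
      · rw [e, ← mul_assoc, c u u1 γ h, mul_assoc, v1 γ h, mul_assoc]
      · rcases u1 with rfl | rfl | rfl | rfl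
        · exact one_mem _
        · exact subset_closure (by simp)
        · exact subset_closure (by simp)
        · exact mul_mem (subset_closure (by simp)) (subset_closure (by simp))
      · rw [evL_cons, ← conj_mul, h2, h4, e, mul_assoc, ← mul_assoc δ, v1 δ h3]
        group
  have sq : ∀ v ∈ closure {z, a 0}, v * v = 1 := fun v hv => by
    have : InV z (a 0) v := by
      induction hv using closure_induction_left with
      | one => exact Or.inl rfl
      | mul_left x hx y _ ih =>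
        rcases hx with rfl | rfl <;> rcases ih with rfl | rfl | rfl | rfl <;>
          simp [InV, E.zz, E'.zz, E.zzm, yz, ← mul_assoc]
        simp [mul_assoc, E'.zz]
      | inv_mul_cancel x hx y _ ih =>
        rcases hx with rfl | rfl <;> rcases ih with rfl | rfl | rfl | rfl <;>
          simp [InV, E.zz, E'.zz, E.zzm, yz, ← mul_assoc, E.zinv, E'.zinv]
        simp [mul_assoc, E'.zz]
    rcases this with rfl | rfl | rfl | rfl
    · exact one_mul _
    · exact E.zz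
    · exact E'.zz
    · rw [mul_assoc, ← mul_assoc (a 0), yz, mul_assoc, E.zzm, E'.zz]
  obtain ⟨u, hu, rfl⟩ := hd
  refine conj_evL fun l hl => ?_
  have h := List.all_eq_true.mp hu l hl
  have h1 := pX_lt h
  obtain ⟨-, -, s1, -, -, s2, -⟩ := hTX l h1.2 h
  have e : pr2 g l = evL (pr2 g) (nthW SQX l) * evL (pr2 g) (nthW SQX l) := by
    rw [← evL_append, evL_pr2, eqw_spec s2, (H.eq (by
      rw [inR, List.all_append, Bool.and_eq_true]; exact ⟨pX_inR s1, pX_inR s1⟩)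
      (inR_iff.mpr (by simp; omega))).mp (eqw_spec s2), evL_singleton, evL_singleton]
    rfl
  obtain ⟨v, v1, v2, γ, h2, h3⟩ := k _ s1
  rw [e, ← conj_mul, h3, mul_assoc, ← mul_assoc γ, v1 γ h2, mul_assoc, ← mul_assoc,
    Prod.mk_mul_mk v, sq v v2, one_mul, ← Prod.one_eq_mk, one_mul]
  exact mul_mem h2 h2

theorem Gr.cube : t * a 4 * (t * a 4) * (t * a 4) = 1 := by
  have yz := E.qz _ (F.mem 0 (by norm_num))
  have e0c : e0 27 * e0 6 * (e0 27 * e0 6) * (e0 27 * e0 6) = 1 := by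
    have := eqw_spec (u := [27, 6, 27, 6, 27, 6]) (v := []) (by decide +kernel)
    simpa [evL_cons, evL_nil, mul_assoc] using this
  have n : ∀ d ∈ H.X, (t * a 4, e0 27 * e0 6) * d * (t * a 4, e0 27 * e0 6)⁻¹ ∈ H.X := fun d hd => by
    have := H.t_nrm E' t1 t2 t3 (H.s_nrm hd)
    rw [pr2, H.ga (j := 4) (by norm_num)] at this
    convert this using 1
    rw [← Prod.mk_mul_mk]
    group
  generalize hr : t * a 4 = r at n
  have k : ∀ l, pX l = true → r * r * r * g l = g l * (r * r * r) := fun l hl => by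
    have m := n _ (n _ (n _ (H.let_X hl)))
    have e : ∀ {Γ : Type _} [Group Γ] (r x : Γ), r * (r * (r * x * r⁻¹) * r⁻¹) * r⁻¹ =
        r * r * r * x * (r * r * r)⁻¹ := fun r x => by group
    rw [e] at m
    exact mul_inv_eq_iff_eq_mul.mp ((H.C_eq (H.X_le m) (H.X_le (H.let_X hl))).mp (by
      simp only [Prod.snd_mul, Prod.snd_inv, e0c, one_mul, inv_one, mul_one]))
  have hv := cenV E F (d := r * r * r) (H.g1 ▸ k 1 rfl) fun j hj h4 =>
    H.ga hj ▸ k (j + 2) (by interval_cases j <;> first | rfl | exact absurd rfl h4)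
  have r1 : r * z * r⁻¹ = z * a 0 := by
    rw [← hr, mul_assoc t, E.qz _ (F.mem 4 (by norm_num)), ← t2]; group
  have r2 : r * a 0 * r⁻¹ = z := by
    calc r * a 0 * r⁻¹ = t * z * t⁻¹ * (t * a 0 * t⁻¹) := by
          rw [← hr, mul_assoc t, cm4 E F]; group
      _ = z := by rw [t2, E'.qz t t1, mul_inv_cancel_right, mul_assoc, E'.zz, mul_one]
  have c : r * (r * r * r) * r⁻¹ = r * r * r := by group
  rcases hv with e | e | e | e
  · exact e
  · rw [e, r1] at c
    exact absurd (mul_eq_left.mp c) E'.z1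
  · rw [e, r2] at c
    exact absurd c.symm (ne0 E F E')
  · rw [e, ← conj_mul, r1, r2, mul_assoc, yz, E.zzm] at c
    exact absurd c.symm (E.ne _)

end

theorem Gr.amal : ∃ g', g' 1 = z ∧ Amal g' := by
  obtain ⟨t, t1, t0, t2, t3⟩ := H.exists_t E'
  let g' : ℕ → G := fun l => if l = 27 then t else g l
  have c : ∀ w, inR 27 w = true → evL g' w = evL g w := fun w hw =>
    evL_congr fun l hl => if_neg (inR_spec hw l hl).2.ne
  have p6 : pr2 g' 6 = pr2 g 6 := rfl
  have p27 : pr2 g' 27 = (t, e0 27) := rfl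
  have key : ∀ w, inK w = true → ∃ γ ∈ H.X, ∃ k < 6,
      evL (pr2 g') w = γ * evL (pr2 g') (RP k) := by
    intro w hw
    induction w with
    | nil => exact ⟨1, one_mem _, 0, by norm_num, (one_mul _).symm⟩
    | cons x w ih =>
      rw [inK, List.all_cons, Bool.and_eq_true, decide_eq_true_eq] at hw
      obtain ⟨γ, h1, k, hk, e⟩ := ih hw.2
      rw [evL_cons, e]
      by_cases hx : x = 6 ∨ x = 27
      · obtain ⟨k', hk', e'⟩ := sym3 (ev := pr2 g') (Prod.ext (H.sq rfl) (sq_e0 6))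
          (Prod.ext t0 (sq_e0 27)) (Prod.ext (by
            have := H.cube E' t1 t2 t3
            rwa [← H.ga (j := 4) (by norm_num)] at this) (by
            simpa [evL_cons, evL_nil, mul_assoc, pr2] using
              eqw_spec (u := [27, 6, 27, 6, 27, 6]) (v := []) (by decide +kernel))) hx hk
        refine ⟨pr2 g' x * γ * (pr2 g' x)⁻¹, ?_, k', hk', by rw [← e']; group⟩
        rcases hx with rfl | rfl
        · exact H.s_nrm h1
        · exact H.t_nrm E' t1 t2 t3 h1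
      · have hp : pX x = true := by
          simp only [pX, Bool.and_eq_true, rg_iff, Bool.not_eq_true', beq_eq_false_iff_ne]
          omega
        refine ⟨_, mul_mem (H.let_X hp) h1, k, hk, ?_⟩
        rw [← mul_assoc, pr2, show g' x = g x from if_neg (by omega)]
  refine ⟨g', H.g1, H.fa 0 (by norm_num), fun w hw => by rw [c w hw, H.hO w hw], fun x => ?_,
    fun w hw e => ?_⟩
  · rw [show g' 1 = z from H.g1, H.hC]
    exact exists_congr fun w => and_congr_right fun hw => by rw [c w hw]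
  obtain ⟨γ, h1, k, hk, e1⟩ := key w hw
  rw [evL_pr2, evL_pr2, e] at e1
  have e2 : evL e0 (RP k) = γ.2⁻¹ := eq_inv_of_mul_eq_one_right (congrArg Prod.snd e1).symm
  have cc := H.X_cen (inv_mem h1)
  obtain ⟨r1, r2⟩ := hRP k hk
  have ap : ∀ i, i = 1 ∨ i = 2 → γ.2⁻¹ * e0 i = e0 i * γ.2⁻¹ →
      val (RP k ++ [i]) = val ([i] ++ RP k) := fun i hi h => by
    have hi' : inR 28 [i] = true := inR_iff.mpr (by simp; omega)
    refine (val_eq ?_ ?_).mp (by rw [evL_append, evL_append, evL_singleton, e2, h])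
    · rw [inR, List.all_append, Bool.and_eq_true]; exact ⟨r1, hi'⟩
    · rw [inR, List.all_append, Bool.and_eq_true]; exact ⟨hi', r1⟩
  rcases r2 with rfl | r2 | r2
  · have e3 : (evL g' w, (1 : Spor.Co1)) = γ := e1.trans (mul_one _)
    rw [← e3] at h1
    exact (H.C_eq (H.X_le h1) (one_mem _)).mp rfl
  · exact absurd (ap 1 (Or.inl rfl) (congrArg Prod.snd cc.1)) r2
  · exact absurd (ap 2 (Or.inr rfl) (congrArg Prod.snd cc.2)) r2

omit H E'

theorem ES.conj (E : ES z Q) (c : G) : ES (c * z * c⁻¹) (Q.map (MulAut.conj c).toMonoidHom) := by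
  have m : ∀ q, q ∈ Q.map (MulAut.conj c).toMonoidHom ↔ ∃ p ∈ Q, c * p * c⁻¹ = q := fun _ => Iff.rfl
  have inj : ∀ {x y : G}, c * x * c⁻¹ = c * y * c⁻¹ ↔ x = y := by simp
  have sur : ∀ x : G, ∃ y, x = c * y * c⁻¹ := fun x => ⟨c⁻¹ * x * c, by group⟩
  refine ⟨by simpa using E.z1, by rw [conj_mul, E.zz]; simp, ⟨z, E.zQ, rfl⟩, ?_, ?_, ?_, ?_, ?_, ?_, ?_⟩
  · intro q hq
    obtain ⟨p, hp, rfl⟩ := (m q).mp hq
    rw [conj_mul, conj_mul, E.qz p hp]
  · intro x hx q hq
    obtain ⟨p, hp, rfl⟩ := (m q).mp hq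
    obtain ⟨x, rfl⟩ := sur x
    rw [conj_mul, conj_mul, inj] at hx
    exact (m _).mpr ⟨_, E.nrm x hx p hp, by group⟩
  · intro x hx h
    obtain ⟨x, rfl⟩ := sur x
    rw [conj_mul, conj_mul, inj] at hx
    refine (E.cen x hx fun q hq => ?_).imp (fun e => by simp [e]) fun e => by rw [e]
    have := h _ ((m _).mpr ⟨q, hq, rfl⟩)
    rwa [conj_mul, conj_mul, inj] at this
  · intro p hp q hq
    obtain ⟨p', hp', rfl⟩ := (m p).mp hp
    obtain ⟨q', hq', rfl⟩ := (m q).mp hq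
    simp only [conj_mul, inj]
    exact E.comm p' hp' q' hq'
  · intro q hq
    obtain ⟨p, hp, rfl⟩ := (m q).mp hq
    rw [conj_mul, inj]
    exact (E.sq p hp).imp (fun e => by simp [e]) id
  · rw [card_map_of_injective (MulAut.conj c).injective, E.card]
  · rw [← E.cardC, ← card_map_of_injective (f := (MulAut.conj c).toMonoidHom)
      (K := centralizer {z}) (MulAut.conj c).injective]
    congr 2
    ext x
    obtain ⟨x, rfl⟩ := sur x
    rw [mem_cen, conj_mul, conj_mul, inj, ← mem_cen]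
    exact (mem_map_iff_mem (f := (MulAut.conj c).toMonoidHom) (MulAut.conj c).injective).symm

theorem ES.amal (E : ES z Q) {c : G} (h1 : c * z * c⁻¹ ∈ Q) (h2 : c * z * c⁻¹ ≠ z) :
    ∃ g : ℕ → G, g 1 = z ∧ Amal g := by
  have E' := E.conj c
  obtain ⟨a, F, g, h0, H⟩ := pin E h1 E'.z1 h2 E'.zz fun a F h0 => dl_six E F (h0 ▸ E')
  exact H.amal (h0 ▸ E')

end Cfsg.Co.Rc
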