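import Cfsg.Agent.Co.A1
import Cfsg.Agent.L0.Class2
import Cfsg.Agent.H2.SylTab
import Cfsg.Agent.H3.Orth5

/-! The structure of the centraliser from the hypotheses of the recognition theorems. -/

set_option autoImplicit false
set_option maxRecDepth 100000

namespace Cfsg.Co.Rc

open Subgroup

theorem card_omega : Nat.card (Cfsg.Omega (ZMod 2) (Cfsg.quadFormPlus 4 (ZMod 2))) = 174182400 := by
  have hc : Nat.card (Cfsg.isometryGroup (ZMod 2) (Cfsg.quadFormPlus 4 (ZMod 2))) = 348364800 := by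
    rw [← H3.coe_QPlus, H2.card_isom_eq_chainCard _ H2.QPlus_nondeg
      [.inl 0, .inr 0, .inl 1, .inr 1, .inl 2, .inr 2, .inl 3, .inr 3]
      (by decide) (by rintro (i | i) <;> fin_cases i <;> simp), H3.coe_QPlus]
    decide +kernel
  have hi := H3.index_commutator_even (Q := H3.QPlus 4 (ZMod 2))
    (H2.nondegenerate_of_ofQuad H2.QPlus_nondeg)
    (Or.inr (by simp)) (by simp)
  have := (commutator (Cfsg.isometryGroup (ZMod 2) (Cfsg.quadFormPlus 4 (ZMod 2)))).card_mul_index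
  rw [hc, show (commutator (Cfsg.isometryGroup (ZMod 2) (Cfsg.quadFormPlus 4 (ZMod 2)))).index = 2
    from hi] at this
  change Nat.card (commutator _) = _
  omega

variable {G : Type*} [Group G] [Finite G]

theorem es_of {z : G} (hz : orderOf z = 2) (Q : Subgroup (centralizer ({z} : Set G))) [hn : Q.Normal]
    (h2 : centralizer (Q : Set (centralizer ({z} : Set G))) ≤ Q) (hQ : IsExtraspecial 2 Q)
    (hc : Nat.card Q = 2 ^ 9)
    (e : (centralizer ({z} : Set G)) ⧸ Q ≃* Cfsg.Omega (ZMod 2) (Cfsg.quadFormPlus 4 (ZMod 2))) :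
    ES z (Q.map (centralizer ({z} : Set G)).subtype) := by
  have z1 : z ≠ 1 := by rintro rfl; simp at hz
  have zz : z * z = 1 := by rw [← pow_two, ← hz, pow_orderOf_eq_one]
  let z0 : centralizer ({z} : Set G) := ⟨z, mem_cen.mpr rfl⟩
  have hzc : ∀ g, g * z0 = z0 * g := fun g => Subtype.ext (mem_cen.mp g.2)
  have zQ : z0 ∈ Q := h2 fun q _ => hzc q
  obtain ⟨z', h1, h2', h3⟩ := L0.es_two_center hQ
  have hz' : z' = ⟨z0, zQ⟩ := by
    rcases (h3 ⟨z0, zQ⟩).mp (mem_center_iff.mpr fun g => Subtype.ext (hzc g)) with h | h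
    · exact absurd (congrArg (fun x : Q => x.1.1) h) z1
    · exact h.symm
  subst hz'
  have key : ∀ x : Q, x ∈ center Q → x.1.1 = 1 ∨ x.1.1 = z := fun x hx =>
    ((h3 x).mp hx).imp (congrArg fun x : Q => x.1.1) (congrArg fun x : Q => x.1.1)
  refine ⟨z1, zz, ⟨z0, zQ, rfl⟩, ?_, ?_, ?_, ?_, ?_, ?_, ?_⟩
  · rintro _ ⟨q, -, rfl⟩
    exact mem_cen.mp q.2
  · rintro c hc _ ⟨q, hq, rfl⟩
    exact ⟨_, hn.conj_mem q hq ⟨c, mem_cen.mpr hc⟩, rfl⟩
  · intro c hc h
    have hgQ : (⟨c, mem_cen.mpr hc⟩ : centralizer ({z} : Set G)) ∈ Q :=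
      h2 fun q hq => Subtype.ext (h _ ⟨q, hq, rfl⟩).symm
    exact key ⟨_, hgQ⟩ (mem_center_iff.mpr fun q =>
      Subtype.ext (Subtype.ext (h _ ⟨q, q.2, rfl⟩).symm))
  · rintro _ ⟨p, hp, rfl⟩ _ ⟨q, hq, rfl⟩
    have := key _ (L0.comm_mem_center (L0.es_le hQ) ⟨q, hq⟩ ⟨p, hp⟩)
    simp only [commutatorElement_def, coe_mul, coe_inv] at this
    change q.1 * p.1 = p.1 * q.1 ∨ q.1 * p.1 = z * (p.1 * q.1)
    rcases this with h | h
    · left
      calc q.1 * p.1 = (q.1 * p.1 * q.1⁻¹ * p.1⁻¹) * (p.1 * q.1) := by group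
        _ = p.1 * q.1 := by rw [h, one_mul]
    · right
      calc q.1 * p.1 = (q.1 * p.1 * q.1⁻¹ * p.1⁻¹) * (p.1 * q.1) := by group
        _ = z * (p.1 * q.1) := by rw [h]
  · rintro _ ⟨q, hq, rfl⟩
    have : Fact (Nat.Prime 2) := ⟨Nat.prime_two⟩
    have := key _ (L0.es_pow_mem hQ ⟨q, hq⟩)
    simpa [pow_two] using this
  · rw [card_subtype, hc]; rfl
  · rw [card_eq_card_quotient_mul_card_subgroup Q, Nat.card_congr e.toEquiv, card_omega, hc]
    rfl

end Cfsg.Co.Rc
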