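import Cfsg.Agent.Co.E4
import Cfsg.Agent.H6.DCE5

/-! General lemmas: labelled actions, graphs of homomorphisms, rewriting of words. -/

set_option autoImplicit false

namespace Cfsg.Co

open Cfsg.H6 Subgroup

section Lab

variable {G : Type*} [Group G] {Ω : Type*} {ψ : G →* Equiv.Perm Ω} {ev : ℕ → G} {f : ℕ → Ω}
  {tab : ℕ → ℕ → ℕ} {n m : ℕ}

/-- An invariant set of labelled points gives an action on the labels. -/
theorem isAct_of_lab (h : Lab ψ ev f tab n m) (hS : ∀ g, ∀ p < n, ∃ q < n, ψ g (f p) = f q) :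
    ∃ φ : G →* Equiv.Perm ℕ, IsAct φ ev tab n m := by
  classical
  choose! r hr1 hr2 using hS
  have hm : ∀ a b, ∀ p < n, r (a * b) p = r a (r b p) := fun a b p hp =>
    h.inj _ (hr1 _ _ hp) _ (hr1 _ _ (hr1 _ _ hp)) (by
      rw [← hr2 _ _ hp, ← hr2 _ _ (hr1 _ _ hp), ← hr2 _ _ hp, map_mul, Equiv.Perm.mul_apply])
  have h1 : ∀ p < n, r 1 p = p := fun p hp =>
    h.inj _ (hr1 _ _ hp) _ hp (by rw [← hr2 _ _ hp, map_one, Equiv.Perm.one_apply])
  let s : G → ℕ → ℕ := fun g p => if p < n then r g p else p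
  have sm : ∀ a b p, s (a * b) p = s a (s b p) := fun a b p => by
    by_cases hp : p < n
    · simp only [s, if_pos hp, if_pos (hr1 _ _ hp), hm _ _ _ hp]
    · simp only [s, if_neg hp]
  have s1 : ∀ p, s 1 p = p := fun p => by
    by_cases hp : p < n
    · simp only [s, if_pos hp, h1 _ hp]
    · simp only [s, if_neg hp]
  let φ : G →* Equiv.Perm ℕ := MonoidHom.mk' (fun g => ⟨s g, s g⁻¹,
    fun p => by rw [← sm, inv_mul_cancel, s1], fun p => by rw [← sm, mul_inv_cancel, s1]⟩)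
    fun a b => Equiv.ext fun p => sm a b p
  refine ⟨φ, fun x h1 h2 p hp => ⟨?_, (h.act x h1 h2 p hp).2⟩⟩
  show s (ev x)⁻¹ p = _
  simp only [s, if_pos hp]
  refine h.inj _ (hr1 _ _ hp) _ (h.act x h1 h2 p hp).2 ?_
  rw [← hr2 _ _ hp, map_inv, (h.act x h1 h2 p hp).1]

theorem isAct_of_gen (h : Lab ψ ev f tab n m) {X : List (List ℕ)} (hX : gen ev X = ⊤)
    (hc : X.all (inR m) = true) : ∃ φ : G →* Equiv.Perm ℕ, IsAct φ ev tab n m := by
  refine isAct_of_lab h fun g p hp => ?_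
  have := gen_preserves (φ := ψ) (ev := ev) (S := f '' {p | p < n}) ((Set.finite_lt_nat n).image f)
    (Ws := X) ?_ g⁻¹ (hX ▸ mem_top _) _ ⟨p, hp, rfl⟩
  · rw [map_inv, inv_inv] at this
    obtain ⟨q, hq, e⟩ := this
    exact ⟨q, hq, e.symm⟩
  · rintro w hw _ ⟨p, hp, rfl⟩
    have := h.tr (List.all_eq_true.mp hc w hw) hp
    exact ⟨_, this.2, this.1.symm⟩

end Lab

section Graph

variable {A B : Type*} [Group A] [Group B]

/-- A subgroup of a product that is the graph of a homomorphism. -/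
theorem exists_hom_of_graph (Γ : Subgroup (A × B)) (h1 : ∀ b, ∃ a, (a, b) ∈ Γ)
    (h2 : ∀ a, (a, 1) ∈ Γ → a = 1) : ∃ θ : B →* A, ∀ a b, (a, b) ∈ Γ → θ b = a := by
  choose t ht using h1
  have hu : ∀ a b, (a, b) ∈ Γ → t b = a := fun a b h =>
    mul_inv_eq_one.mp (h2 _ (by simpa using Γ.mul_mem (ht b) (Γ.inv_mem h)))
  exact ⟨MonoidHom.mk' t fun a b => hu _ _ (Γ.mul_mem (ht a) (ht b)), hu⟩

/-- The first components over the identity. -/
def kerL (Γ : Subgroup (A × B)) : Subgroup A := Γ.comap (MonoidHom.inl A B)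

theorem mem_kerL {Γ : Subgroup (A × B)} {a : A} : a ∈ kerL Γ ↔ (a, 1) ∈ Γ := Iff.rfl

theorem card_graph (Γ : Subgroup (A × B)) :
    Nat.card Γ = Nat.card (kerL Γ) * Nat.card (Γ.map (MonoidHom.snd A B)) := by
  rw [← relIndex_ker, ← card_mul_index ((MonoidHom.snd A B).ker.subgroupOf Γ)]
  congr 1
  refine Nat.card_congr ⟨fun x => ⟨x.1.1.1, ?_⟩, fun a => ⟨⟨(a.1, 1), a.2⟩, rfl⟩, fun x => ?_,
    fun a => rfl⟩
  · have h : x.1.1.2 = 1 := x.2
    rw [mem_kerL, ← h]
    exact x.1.2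
  · have h : x.1.1.2 = 1 := x.2
    exact Subtype.ext (Subtype.ext (Prod.ext rfl h.symm))

theorem map_snd_top {Γ : Subgroup (A × B)} (h : Γ.map (MonoidHom.snd A B) = ⊤) (b : B) :
    ∃ a, (a, b) ∈ Γ := by
  obtain ⟨x, hx, rfl⟩ := (h ▸ mem_top b : b ∈ Γ.map (MonoidHom.snd A B))
  exact ⟨x.1, hx⟩

theorem evL_prod (a : ℕ → A) (b : ℕ → B) (w : List ℕ) :
    evL (fun l => (a l, b l)) w = (evL a w, evL b w) :=
  Prod.ext (map_evL (MonoidHom.fst A B) _ w) (map_evL (MonoidHom.snd A B) _ w)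

end Graph

section Words

variable {G : Type*} [Group G] {ev : ℕ → G}

theorem evL_rev (h : ∀ l, ev l * ev l = 1) (w : List ℕ) : evL ev w.reverse = (evL ev w)⁻¹ := by
  induction w with
  | nil => simp [evL]
  | cons x w ih =>
    rw [List.reverse_cons, evL_append, ih, evL_singleton, evL_cons, mul_inv_rev,
      inv_eq_of_mul_eq_one_right (h x)]

theorem eq_of_rev (h : ∀ l, ev l * ev l = 1) {u v : List ℕ} (e : evL ev (u ++ v.reverse) = 1) :
    evL ev u = evL ev v := by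
  rwa [evL_append, evL_rev h, mul_inv_eq_one] at e

/-- The one-letter words. -/
def lets (L : List ℕ) : List (List ℕ) := L.map fun l => [l]

theorem mem_lets {L : List ℕ} {l : ℕ} (h : l ∈ L) : ev l ∈ gen ev (lets L) :=
  evL_singleton ev l ▸ evL_mem_gen ev (List.mem_map_of_mem h)

theorem lets_le {L : List ℕ} {K : Subgroup G} (h : ∀ l ∈ L, ev l ∈ K) : gen ev (lets L) ≤ K :=
  gen_le fun w hw => by
    obtain ⟨l, hl, rfl⟩ := List.mem_map.mp hw
    exact evL_singleton ev l ▸ h l hl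

theorem word_mem {L w : List ℕ} (h : w.all L.elem = true) : evL ev w ∈ gen ev (lets L) :=
  evL_mem_of_letters fun x hx =>
    mem_lets (List.mem_of_elem_eq_true (List.all_eq_true.mp h x hx))

theorem exists_word (h : ∀ l, ev l * ev l = 1) {L : List ℕ} {y : G} (hy : y ∈ gen ev (lets L)) :
    ∃ w, (∀ x ∈ w, x ∈ L) ∧ evL ev w = y := by
  let K : Subgroup G :=
    { carrier := {y | ∃ w, (∀ x ∈ w, x ∈ L) ∧ evL ev w = y}
      one_mem' := ⟨[], by simp, rfl⟩
      mul_mem' := by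
        rintro _ _ ⟨u, hu, rfl⟩ ⟨v, hv, rfl⟩
        exact ⟨u ++ v, fun x hx => (List.mem_append.mp hx).elim (hu x) (hv x), evL_append _ _ _⟩
      inv_mem' := by
        rintro _ ⟨u, hu, rfl⟩
        exact ⟨u.reverse, fun x hx => hu x (List.mem_reverse.mp hx), evL_rev h u⟩ }
  exact lets_le (K := K) (fun l hl => ⟨[l], by simpa using hl, evL_singleton _ _⟩) hy

/-- Rewriting of subwords until the word is empty. -/
def rwChk (ok : List ℕ → Bool) : List (ℕ × ℕ × List ℕ) → List ℕ → Bool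
  | [], W => W == []
  | s :: S, W => ok ((W.drop s.1).take s.2.1 ++ s.2.2.reverse) &&
      rwChk ok S (W.take s.1 ++ s.2.2 ++ (W.drop s.1).drop s.2.1)

theorem rw_sound (h : ∀ l, ev l * ev l = 1) {ok : List ℕ → Bool}
    (ho : ∀ w, ok w = true → evL ev w = 1) :
    ∀ (S : List (ℕ × ℕ × List ℕ)) (W : List ℕ), rwChk ok S W = true → evL ev W = 1
  | [], W, e => by rw [show W = [] by simpa [rwChk] using e]; rfl
  | s :: S, W, e => by
    rw [rwChk, Bool.and_eq_true] at e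
    have h1 := rw_sound h ho S _ e.2
    rw [evL_append, evL_append, ← eq_of_rev h (ho _ e.1), mul_assoc, ← evL_append,
      List.take_append_drop, ← evL_append, List.take_append_drop] at h1
    exact h1

theorem mem_norm_of_invol {t : G} (ht : t * t = 1) {L : List ℕ}
    (h : ∀ l ∈ L, t * ev l * t ∈ gen ev (lets L)) : t ∈ normalizer (gen ev (lets L) : Set G) := by
  have hi : t⁻¹ = t := inv_eq_of_mul_eq_one_right ht
  have h1 : ∀ y ∈ gen ev (lets L), t * y * t⁻¹ ∈ gen ev (lets L) := fun y hy =>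
    lets_le (K := (gen ev (lets L)).comap (MulAut.conj t).toMonoidHom)
      (fun l hl => by simpa [hi] using h l hl) hy
  refine mem_normalizer_iff.mpr fun y => ⟨h1 y, fun hy => ?_⟩
  have := h1 _ hy
  rwa [hi, ← mul_assoc, ← mul_assoc, ht, one_mul, mul_assoc, ht, mul_one] at this

end Words

/-- A four-group of automorphisms without fixed points. -/
theorem eq_bot_of_four {G : Type*} [Group G] [Finite G] (N : Subgroup G) [N.Normal] {a b : G}
    (ha : a * a = 1) (hb : b * b = 1)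
    (h : ∀ x, x = a ∨ x = b ∨ x = a * b → ∀ y ∈ N, x * y * x⁻¹ = y → y = 1) : N = ⊥ := by
  have key : ∀ x, x = a ∨ x = b ∨ x = a * b → x * x = 1 → ∀ y : N, x * y * x⁻¹ = y⁻¹ := by
    intro x hx h2 y
    have h3 : MonoidHom.FixedPointFree (MulAut.conjNormal x : MulAut N) := fun y e =>
      Subtype.ext (h x hx y y.2 (congrArg Subtype.val e))
    have h4 := h3.coe_eq_inv_of_involutive fun y => by
      rw [← MulAut.mul_apply, ← map_mul, h2, map_one, MulAut.one_apply]
    exact congrArg Subtype.val (congrFun h4 y)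
  rw [eq_bot_iff]
  intro y hy
  refine h (a * b) (by simp) y hy ?_
  have h1 := key b (by simp) hb ⟨y, hy⟩
  have h2 := key a (by simp) ha ⟨y, hy⟩⁻¹
  simp only [coe_inv, inv_inv] at h1 h2
  rw [← h1] at h2
  calc a * b * y * (a * b)⁻¹ = a * (b * y * b⁻¹) * a⁻¹ := by group
    _ = _ := h2

end Cfsg.Co
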