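import Cfsg.Agent.Co.C1

set_option autoImplicit false

namespace Cfsg.Co

open Cfsg.H6 Subgroup

variable {G : Type*} [Group G] {ev : ℕ → G}

/-- Each letter is a word in letters that are known already. -/
def growChk (ok : List ℕ → Bool) : List ℕ → List (ℕ × List ℕ) → Bool
  | _, [] => true
  | L, s :: S => s.2.all L.elem && ok ([s.1] ++ s.2.reverse) && growChk ok (s.1 :: L) S

theorem grow_sound (h : ∀ l, ev l * ev l = 1) {ok : List ℕ → Bool}
    (ho : ∀ w, ok w = true → evL ev w = 1) {K : Subgroup G} :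
    ∀ (S : List (ℕ × List ℕ)) (L : List ℕ), (∀ l ∈ L, ev l ∈ K) → growChk ok L S = true →
      ∀ s ∈ S, ev s.1 ∈ K
  | [], _, _, _ => by simp
  | s :: S, L, hL, e => by
    rw [growChk, Bool.and_eq_true, Bool.and_eq_true] at e
    have h1 : ev s.1 ∈ K := by
      rw [← evL_singleton ev, eq_of_rev h (ho _ e.1.2)]
      exact lets_le hL (word_mem e.1.1)
    exact List.forall_mem_cons.mpr
      ⟨h1, grow_sound h ho S _ (List.forall_mem_cons.mpr ⟨h1, hL⟩) e.2⟩

end Cfsg.Co
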