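import Cfsg.Agent.Co.C2
import Cfsg.Agent.Co.CT.Main

/-! The amalgam inside `G × Co₁`: the normal subgroup of sign changes and the last relator. -/

set_option autoImplicit false

namespace Cfsg.Co.Md

open Cfsg.H4.Golay Cfsg.H6 Cfsg.H6.Leech Cfsg.H2 Subgroup

variable {G : Type*} [Group G] {g : ℕ → G}

/-- The projection to `Co₁`. -/
noncomputable def pr1 : Co0 →* Spor.Co1 := QuotientGroup.mk' _

theorem pr1_eq_one {x : Co0} : pr1 x = 1 ↔ x = 1 ∨ x = neg :=
  (QuotientGroup.eq_one_iff x).trans mem_center_iff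

theorem pr1_eq {x y : Co0} (h : pr1 x = pr1 y) : x = y ∨ x = neg * y := by
  rw [← mul_inv_eq_one, ← map_inv, ← map_mul, pr1_eq_one] at h
  exact h.imp mul_inv_eq_one.mp mul_inv_eq_iff_eq_mul.mp

theorem pr1_surj : Function.Surjective pr1 := QuotientGroup.mk'_surjective _

/-- The sign changes in `Co₁`. -/
noncomputable def e1 (c : golayCode) : Spor.Co1 := pr1 (ep c)

/-- The permutations in `Co₁`. -/
noncomputable def io : M24 →* Spor.Co1 := pr1.comp toCo0

theorem e1_add (c d : golayCode) : e1 (c + d) = e1 c * e1 d := by rw [e1, ep_add, map_mul]; rfl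

theorem e1_zero : e1 0 = 1 := pr1_eq_one.mpr (Or.inl eps_zero)

theorem e1_one : e1 one = 1 := pr1_eq_one.mpr (Or.inr neg_eq.symm)

theorem e1_sq (c : golayCode) : e1 c * e1 c = 1 := by rw [← e1_add, two_code, e1_zero]

theorem e1_eq {c d : golayCode} (h : e1 c = e1 d) : c.1 = d.1 ∨ c.1 = 1 + d.1 :=
  (pr1_eq h).imp eps_inj fun e => eps_inj (e.trans (neg_mul_eps d.2))

theorem io_conj (π : M24) (c : golayCode) : io π * e1 c * (io π)⁻¹ = e1 (ac π⁻¹ c) := by
  have := congrArg pr1 (conj_eps π c.2)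
  rwa [map_mul, map_mul, map_inv] at this

theorem pl_one {l : ℕ} (h : l < 28) (e : ∀ i < 24, tb (ta l) i = i) : pl l = 1 :=
  (CM.rep_pl h).eq Rep.one e

theorem e0_E {l : ℕ} (h : l ∈ EL) : e0 l = e1 ⟨_, em_mem l⟩ := by
  obtain ⟨a, b, c, d, e⟩ := EL_ok l h
  rw [e0, l0_mon a (by omega) c d, pl_one (by omega) e, map_one, mul_one]
  rfl

theorem e0_M {l : ℕ} (h : l ∈ 25 :: ML) : e0 l = io (pl l) := by
  obtain ⟨a, b, c, d, e⟩ := ML_ok l h
  rw [e0, l0_mon a b c d, eps_congr _ (d := 0) (by rw [e, wd_zero]), eps_zero, one_mul]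
  rfl

theorem evL_M {w : List ℕ} (h : ∀ x ∈ w, x ∈ ML) : evL e0 w = io (evL pl w) := by
  rw [map_evL]
  exact evL_congr fun x hx => e0_M (List.mem_cons_of_mem _ (h x hx))

theorem evL_E {w : List ℕ} (h : ∀ x ∈ w, x ∈ EL) :
    ∃ c : golayCode, c.1 = wd (xorL w) ∧ evL e0 w = e1 c := by
  induction w with
  | nil => exact ⟨0, wd_zero.symm, e1_zero.symm⟩
  | cons x w ih =>
    obtain ⟨c, h1, h2⟩ := ih fun y hy => h y (List.mem_cons_of_mem _ hy)
    refine ⟨⟨_, em_mem x⟩ + c, ?_, by rw [evL_cons, h2, e0_E (h x List.mem_cons_self), e1_add]⟩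
    rw [Submodule.coe_add, h1, ← wd_xor]
    rfl

theorem rep_apl {w : List ℕ} (h : inR 28 w = true) : Rep (evL pl w) (apl w) := by
  have h' := inR_spec h
  clear h
  induction w with
  | nil => exact Rep.one
  | cons x w ih =>
    rw [evL_cons]
    exact (CM.rep_pl (h' x List.mem_cons_self).2).mul
      (ih fun y hy => h' y (List.mem_cons_of_mem _ hy))

/-- The letters in the product. -/
noncomputable def eh (g : ℕ → G) (l : ℕ) : G × Spor.Co1 := (if l < 28 then g l else 1, e0 l)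

theorem eh_snd (w : List ℕ) : (evL (eh g) w).2 = evL e0 w :=
  map_evL (MonoidHom.snd G Spor.Co1) (eh g) w

theorem eh_fst {w : List ℕ} (h : ∀ x ∈ w, x < 28) : (evL (eh g) w).1 = evL g w :=
  (map_evL (MonoidHom.fst G Spor.Co1) (eh g) w).trans (evL_congr fun x hx => if_pos (h x hx))

/-- The centraliser. -/
noncomputable def OD (g : ℕ → G) : Subgroup (G × Spor.Co1) := gen (eh g) (lets (List.range' 1 26))

/-- The sign changes. -/
noncomputable def ED (g : ℕ → G) : Subgroup (G × Spor.Co1) := gen (eh g) (lets EL)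

theorem inR_of_range {w : List ℕ} (h : ∀ x ∈ w, x ∈ List.range' 1 26) : inR 27 w = true := by
  unfold inR
  rw [List.all_eq_true]
  intro x hx
  have := List.mem_range'_1.mp (h x hx)
  simp only [Bool.and_eq_true, Nat.ble_eq, Nat.blt_eq]
  omega

theorem mem_OD {w : List ℕ} (h : inR 27 w = true) : evL (eh g) w ∈ OD g :=
  evL_mem_of_letters fun x hx => mem_lets (List.mem_range'_1.mpr (by
    have := inR_spec h x hx
    omega))

theorem ED_le : ED g ≤ OD g := lets_le fun l hl => mem_lets (List.mem_range'_1.mpr (by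
  have := EL_ok l hl
  omega))

theorem ED_all (c : golayCode) : ∃ a, (a, e1 c) ∈ ED g := by
  obtain ⟨c, hc⟩ := c
  have hc' := hc
  rw [code_eq] at hc'
  induction hc' using Submodule.span_induction with
  | mem x hx =>
    obtain ⟨b, hb, rfl⟩ := hx
    obtain ⟨w, -, h1, h2⟩ := basis_ok b hb
    obtain ⟨c, h3, h4⟩ := evL_E (w := w) fun x hx =>
      List.mem_of_elem_eq_true (List.all_eq_true.mp h1 x hx)
    refine ⟨(evL (eh g) w).1, ?_⟩
    have : e1 ⟨wd b, hc⟩ = (evL (eh g) w).2 := by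
      rw [eh_snd, h4]
      rcases h2 with e | e
      · exact congrArg e1 (Subtype.ext (by rw [h3, e]))
      · rw [show c = one + ⟨wd b, hc⟩ from Subtype.ext (by rw [h3, e, wd_xor, ← one_eq]; rfl),
          e1_add, e1_one, one_mul]
    rw [this]
    exact word_mem h1
  | zero => exact ⟨1, by rw [show e1 ⟨0, hc⟩ = 1 from e1_zero]; exact one_mem _⟩
  | add x y hx hy i1 i2 =>
    rw [← code_eq] at hx hy
    obtain ⟨a, ha⟩ := i1 hx
    obtain ⟨b, hb⟩ := i2 hy
    exact ⟨a * b, by
      rw [show e1 ⟨x + y, hc⟩ = _ from e1_add ⟨x, hx⟩ ⟨y, hy⟩]; exact mul_mem ha hb⟩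
  | smul s x hx i1 =>
    rw [← code_eq] at hx
    have : s = 0 ∨ s = 1 := (by decide : ∀ s : ZMod 2, s = 0 ∨ s = 1) s
    rcases this with rfl | rfl
    · exact ⟨1, by
        rw [show e1 ⟨(0 : ZMod 2) • x, hc⟩ = 1 from
          (congrArg e1 (Subtype.ext (zero_smul _ _))).trans e1_zero]; exact one_mem _⟩
    · obtain ⟨a, ha⟩ := i1 hx
      exact ⟨a, by rwa [show (⟨(1 : ZMod 2) • x, hc⟩ : golayCode) = ⟨x, hx⟩ from
        Subtype.ext (one_smul _ _)]⟩

namespace Amal

variable (h : Amal g)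
include h

theorem ok (w : List ℕ) (e : okW w = true) : evL (eh g) w = 1 := by
  unfold okW at e
  rw [Bool.and_eq_true, Bool.or_eq_true] at e
  have h1 := ora w e.2
  have h2 : inR 28 w = true := by
    have := e.2
    unfold fixB at this
    rw [Bool.and_eq_true] at this
    exact this.1
  refine Prod.ext ?_ ((eh_snd w).trans h1)
  rw [eh_fst fun x hx => (inR_spec h2 x hx).2]
  exact e.1.elim (fun a => (h.hO w a).mp h1) fun a => h.hK w a h1

theorem sq (l : ℕ) : eh g l * eh g l = 1 := by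
  by_cases a : 1 ≤ l ∧ l < 28
  · have : ∀ l < 28, l = 0 ∨ okW [l, l] = true := by decide +kernel
    simpa [evL_cons, evL_nil] using h.ok _ ((this l a.2).resolve_left (by omega))
  · refine Prod.ext ?_ (sq_e0 l)
    show (if l < 28 then g l else 1) * (if l < 28 then g l else 1) = 1
    split_ifs with b
    · rw [show l = 0 by omega, h.g0, one_mul]
    · exact one_mul 1

theorem eq {u v : List ℕ} (e : okW (u ++ v.reverse) = true) : evL (eh g) u = evL (eh g) v :=
  eq_of_rev h.sq (h.ok _ e)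

theorem O_iff {y : G × Spor.Co1} (hy : y ∈ OD g) : y.1 = 1 ↔ y.2 = 1 := by
  obtain ⟨w, hw, rfl⟩ := exists_word h.sq hy
  have h1 := inR_of_range hw
  rw [eh_snd, eh_fst fun x hx => (inR_spec h1 x hx).2.trans (by norm_num)]
  exact (h.hO w h1).symm

theorem O_fst {x y : G × Spor.Co1} (hx : x ∈ OD g) (hy : y ∈ OD g) (e : x.1 = y.1) : x = y :=
  Prod.ext e (mul_inv_eq_one.mp ((h.O_iff (mul_mem hx (inv_mem hy))).mp (mul_inv_eq_one.mpr e)))

theorem O_snd {x y : G × Spor.Co1} (hx : x ∈ OD g) (hy : y ∈ OD g) (e : x.2 = y.2) : x = y :=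
  Prod.ext (mul_inv_eq_one.mp ((h.O_iff (mul_mem hx (inv_mem hy))).mpr (mul_inv_eq_one.mpr e))) e

theorem O_cen {c : G} (hc : c * g 1 = g 1 * c) : ∃ x, (c, x) ∈ OD g := by
  obtain ⟨w, hw, rfl⟩ := (h.hC c).mp (mem_centralizer_singleton_iff.mpr hc)
  refine ⟨(evL (eh g) w).2, ?_⟩
  rw [← eh_fst fun x hx => (inR_spec hw x hx).2.trans (by norm_num)]
  exact mem_OD hw

theorem ED_snd {y : G × Spor.Co1} (hy : y ∈ ED g) : ∃ c, y.2 = e1 c := by
  obtain ⟨w, hw, rfl⟩ := exists_word h.sq hy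
  obtain ⟨c, -, e⟩ := evL_E hw
  exact ⟨c, (eh_snd w).trans e⟩

theorem norm {l : ℕ} (hl : l ∈ ML) : eh g l ∈ normalizer (ED g : Set (G × Spor.Co1)) := by
  refine mem_norm_of_invol (h.sq l) fun k hk => ?_
  obtain ⟨e, he, rfl, rfl⟩ := tab_all l hl k hk
  have := List.all_eq_true.mp tab_ok e he
  rw [Bool.and_eq_true] at this
  have h1 := h.eq this.2
  rw [evL_cons, evL_cons, evL_singleton, ← mul_assoc] at h1
  rw [h1]
  exact word_mem this.1

theorem normW {w : List ℕ} (hw : w.all ML.elem = true) {y : G × Spor.Co1} (hy : y ∈ ED g) :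
    evL (eh g) w * y * (evL (eh g) w)⁻¹ ∈ ED g :=
  (mem_normalizer_iff.mp (lets_le (fun _ => h.norm) (word_mem hw)) y).mp hy

/-- An element that centralises the sign changes is one of them. -/
theorem cen_E {c : G} (hc : ∀ y ∈ ED g, c * y.1 = y.1 * c) : ∃ d, (c, e1 d) ∈ ED g := by
  obtain ⟨x, hx⟩ := h.O_cen (hc _ (mem_lets (ev := eh g) (L := EL) (l := 1) (by decide)))
  obtain ⟨x, rfl⟩ := pr1_surj x
  obtain ⟨d, hd, rfl⟩ := eq_eps_of_comm' (g := x) fun k hk => by
    obtain ⟨a, ha⟩ := ED_all (g := g) ⟨k, hk⟩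
    have := congrArg Prod.snd (h.O_fst (mul_mem (mul_mem hx (ED_le ha)) (inv_mem hx)) (ED_le ha)
      (by show c * a * c⁻¹ = a; rw [hc _ ha, mul_inv_cancel_right]))
    exact pr1_eq (by rw [map_mul, map_mul, map_inv]; exact this)
  obtain ⟨a, ha⟩ := ED_all (g := g) ⟨d, hd⟩
  exact ⟨⟨d, hd⟩, (h.O_snd hx (ED_le ha) rfl).symm ▸ ha⟩

theorem wrel : evL (eh g) w0 = 1 := by
  have y2 : (evL (eh g) w0).2 = 1 := (eh_snd _).trans (ora _ w0_e0)
  obtain ⟨d, hd⟩ := h.cen_E (c := (evL (eh g) w0).1) fun y hy => by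
    have := congrArg Prod.fst (h.O_snd (ED_le (h.normW (w := w0) (by decide +kernel) hy)) (ED_le hy)
      (by rw [Prod.snd_mul, Prod.snd_mul, Prod.snd_inv, y2, one_mul, inv_one, mul_one]))
    exact mul_inv_eq_iff_eq_mul.mp this
  have c1 := congrArg Prod.snd (h.O_fst (ED_le (h.normW (w := uw) (by decide) hd)) (ED_le hd) (by
    show (evL (eh g) uw).1 * (evL (eh g) w0).1 * (evL (eh g) uw).1⁻¹ = (evL (eh g) w0).1
    rw [w0, evL_rp, Prod.pow_fst]
    group))
  have s1 := h.normW (w := sw) (by decide) hd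
  have s2 := h.normW (w := sw) (by decide) s1
  have c2 := (h.O_iff (ED_le (mul_mem (mul_mem hd s1) s2))).mp (by
    have := congrArg Prod.fst (rw_sound h.sq h.ok _ _ rw_ok)
    simp only [evL_append, evL_rev h.sq] at this
    exact this)
  simp only [Prod.snd_mul, Prod.snd_inv, eh_snd] at c1 c2
  rw [evL_M (w := uw) (by decide), io_conj, ← evL_rev CM.pl_sq] at c1
  rw [evL_M (w := sw) (by decide), io_conj, io_conj, ← evL_rev CM.pl_sq, ← e1_add, ← e1_add,
    ← e1_zero] at c2
  have ru := rep_apl (w := uw.reverse) (by decide)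
  have rs := rep_apl (w := sw.reverse) (by decide)
  obtain ⟨m, hm, e⟩ := exists_mask fin_ok d.2
  have hb : ∀ p, d.1 p = bt m (idx p) := fun p => by rw [e]; rfl
  have a1 : (cA m 0 || cA m 1) = true := by
    simp only [cA, Bool.or_eq_true, List.all_eq_true, List.mem_range, decide_eq_true_eq]
    refine (e1_eq c1).imp (fun a i hi => ?_) fun a i hi => ?_
    · have := congrFun a (pt i)
      simp only [ac, Function.comp_apply, hb, ru _, idx_pt i hi] at this
      rw [this, zero_add]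
    · have := congrFun a (pt i)
      simpa only [ac, Function.comp_apply, Pi.add_apply, Pi.one_apply, hb, ru _, idx_pt i hi]
        using this
  have a2 : (cB m 0 || cB m 1) = true := by
    simp only [cB, Bool.or_eq_true, List.all_eq_true, List.mem_range, decide_eq_true_eq]
    refine (e1_eq c2).imp (fun a i hi => ?_) fun a i hi => ?_
    · have := congrFun a (pt i)
      simpa only [ac, Submodule.coe_add, Submodule.coe_zero, Function.comp_apply, Pi.add_apply,
        Pi.zero_apply, hb, rs _, idx_pt i hi] using this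
    · have := congrFun a (pt i)
      simpa only [ac, Submodule.coe_add, Submodule.coe_zero, Function.comp_apply, Pi.add_apply,
        Pi.one_apply, Pi.zero_apply, add_zero, hb, rs _, idx_pt i hi] using this
  rw [a1, a2] at hm
  have : e1 d = 1 := by
    simp only [Bool.and_self, Bool.not_true, Bool.false_or, Bool.or_eq_true, beq_iff_eq] at hm
    rcases hm with rfl | rfl
    · rw [show d = 0 from Subtype.ext (e.trans wd_zero), e1_zero]
    · rw [show d = one from Subtype.ext (e.trans one_eq.symm), e1_one]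
  exact Prod.ext ((h.O_iff (ED_le hd)).mpr this) y2

end Amal

end Cfsg.Co.Md
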