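import Cfsg.Agent.Co.C3
import Cfsg.Agent.Co.D1.Main

/-! The complement `M₂₄`, the monomial group and the homomorphism from `Co₁`. -/

set_option autoImplicit false
set_option maxRecDepth 100000

namespace Cfsg.Co.Md

open Cfsg.H4.Golay Cfsg.H6 Cfsg.H6.Leech Cfsg.H2 Subgroup

variable {G : Type*} [Group G] {g : ℕ → G}

theorem good28 {A : Type*} [Group A] {ev : ℕ → A} (h0 : ev 0 = 1) (h1 : ∀ l, 28 ≤ l → ev l = 1)
    (h2 : ∀ l, ev l * ev l = 1) :
    Good ev 2854167979341253430934067387297856786733073467201373332716912771328 := by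
  refine good_of_rels (m := 28) h0 h1 (by norm_num) fun r hr => ?_
  obtain ⟨l, hl, rfl⟩ := List.mem_map.mp hr
  have : ∀ l ∈ List.range 28,
      invL 2854167979341253430934067387297856786733073467201373332716912771328 l = l := by
    decide +kernel
  rw [this l hl, evL_cons, evL_singleton, h2]

theorem pl_ge {l : ℕ} (h : 28 ≤ l) : pl l = 1 := dif_neg (by omega)

theorem eh_ge {l : ℕ} (h : 28 ≤ l) : eh g l = 1 := Prod.ext (if_neg (by omega)) (e0_ge h)

theorem wt_em1 : wt (wd (em 1)) = 8 := by rw [wt_wd]; decide +kernel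

theorem card_oct : Nat.card (fixS CT.ψ [wd (em 1)]) ≤ 322560 := by
  have h1 := card_fixS_cons CT.ψ (wd (em 1)) []
  rw [fixS_nil, card_top, CM.card] at h1
  have h2 : ((OC.image Subtype.val : Finset (GolayPt → ZMod 2)) : Set _) ⊆
      orb CT.ψ ⊤ (wd (em 1)) := by
    intro c hc'
    obtain ⟨c, hc, rfl⟩ := Finset.mem_image.mp hc'
    obtain ⟨π, e⟩ := wt_trans c.2 (em_mem 1) ((mem_OC.mp hc).trans wt_em1.symm)
      (Or.inl (mem_OC.mp hc))
    exact ⟨π, mem_top _, e.symm⟩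
  have h3 := Set.ncard_le_ncard h2 (Set.toFinite _)
  rw [Set.ncard_coe_finset, Finset.card_image_of_injective _ Subtype.val_injective, card_OC] at h3
  have := Nat.mul_le_mul_right (Nat.card (fixS CT.ψ [wd (em 1)])) h3
  omega

/-- The letters together with their permutations. -/
noncomputable def e3 (g : ℕ → G) (l : ℕ) : (G × Spor.Co1) × M24 := (eh g l, pl l)

theorem card_Co1 : Nat.card Spor.Co1 = Nat.card (Mon.map pr1) * Mon.index := by
  rw [← index_map_eq Mon pr1_surj fun x hx =>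
    (pr1_eq_one.mp hx).elim (fun e => e ▸ one_mem _) fun e => e ▸ neg_mem_Mon, card_mul_index]

theorem eq_of_card_le_two [Finite G] {K : Subgroup G} (h : Nat.card K ≤ 2) {a b : G} (ha : a ∈ K)
    (hb : b ∈ K) (a1 : a ≠ 1) (b1 : b ≠ 1) : a = b := by
  by_contra c
  have := Fintype.ofFinite K
  have := Fintype.two_lt_card_iff.mpr ⟨(⟨a, ha⟩ : K), ⟨b, hb⟩, 1, by simpa using c,
    by simpa using a1, by simpa using b1⟩
  rw [Nat.card_eq_fintype_card] at h
  omega

/-- The substitution for the letters of the double coset enumeration. -/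
def sgD : List (List ℕ) :=
  [[], [6], [7], [8], [9], [10], [11], [12], [13], [14], [15], [18], [19], [27], [25], [26], [26]]

namespace Amal

variable (h : Amal g)
include h

theorem eh_zero : eh g 0 = 1 := Prod.ext h.g0 e0_zero

theorem sq3 (l : ℕ) : e3 g l * e3 g l = 1 := Prod.ext (h.sq l) (CM.pl_sq l)

theorem rels3 : Rels (e3 g) C0.R := fun r hr => by
  obtain ⟨a, b, c⟩ := R_ok r hr
  exact (evL_prod _ _ r).trans (Prod.ext (a.elim (fun e => e ▸ h.wrel) (h.ok r))
    ((rep_apl b).eq Rep.one c))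

theorem ubO [Finite G] : UB (gen (e3 g) C0.Sub) 322560 := by
  refine ⟨inferInstance, ?_⟩
  have e : C0.Sub = lets (ML.erase 27) := by decide +kernel
  have h1 : kerL (gen (e3 g) C0.Sub) = ⊥ := by
    rw [eq_bot_iff, e]
    intro y hy
    obtain ⟨w, hw, e⟩ := exists_word h.sq3 (mem_kerL.mp hy)
    rw [show evL (e3 g) w = _ from evL_prod _ _ w, Prod.mk.injEq] at e
    have h2 : (evL (eh g) w).2 = 1 := by
      rw [eh_snd, evL_M fun x hx => List.mem_of_mem_erase (hw x hx), e.2, map_one]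
    rw [← e.1]
    exact h.O_snd (mem_OD (inR_of_range fun x hx =>
      (by decide : ∀ x ∈ ML.erase 27, x ∈ List.range' 1 26) x (hw x hx))) (one_mem _) h2
  rw [card_graph, h1, card_bot, one_mul]
  refine (card_le_of_le ?_).trans card_oct
  rw [map_le_iff_le_comap, e]
  refine lets_le fun l hl => mem_fixS'.mpr fun b hb => ?_
  have hl' := List.mem_of_mem_erase hl
  rw [List.mem_singleton.mp hb, CT.ψ_inv]
  exact ((CM.rep_pl (ML_ok l (List.mem_cons_of_mem _ hl')).2.1).wd ((oct_ok l hl').resolve_left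
    ((by decide : ∀ x ∈ ML.erase 27, x ≠ 27) l hl))).symm

theorem exists_theta [Finite G] : ∃ θ : M24 →* G × Spor.Co1,
    (∀ l, 1 ≤ l → l < 15 → θ (CM.ev l) = evS (eh g) sgD l) ∧ (∀ π, (θ π).2 = io π) ∧
    ∀ π, θ π ∈ gen (eh g) (lets ML) := by
  have h1 := (h.ubO.cover (C0.cover (good28 (Prod.ext h.eh_zero (pl_one (l := 0)
    (by norm_num) (by decide +kernel))) (fun l hl => Prod.ext (eh_ge hl) (pl_ge hl)) h.sq3) h.rels3)).2
  rw [show C0.X = lets ML by decide +kernel] at h1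
  have h2 : (gen (e3 g) (lets ML)).map (MonoidHom.snd _ _) = ⊤ := by
    rw [eq_top_iff, ← CM.hX, show CM.X = lets (List.range' 1 13) by decide +kernel]
    exact lets_le fun l hl => ⟨e3 g (CM.s1.getD l 0), mem_lets
      ((by decide : ∀ l ∈ List.range' 1 13, CM.s1.getD l 0 ∈ ML) l hl), rfl⟩
  rw [card_graph, h2, card_top, CM.card] at h1
  have h3 : kerL (gen (e3 g) (lets ML)) = ⊥ := eq_bot_of_card_le _ (by omega)
  obtain ⟨θ, hθ⟩ := exists_hom_of_graph _ (map_snd_top h2) fun a ha =>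
    mem_bot.mp (h3 ▸ mem_kerL.mpr ha)
  have h4 : ∀ l ∈ 25 :: ML, e3 g l ∈ gen (e3 g) (lets ML) := by
    refine List.forall_mem_cons.mpr ⟨?_, fun l hl => mem_lets hl⟩
    have : evL (e3 g) [25] = evL (e3 g) [6, 11] :=
      (evL_prod _ _ _).trans ((Prod.ext (h.eq k1_ok.1) ((rep_apl (by decide)).eq
        (rep_apl (by decide)) fun i hi => k1_ok.2 i hi)).trans (evL_prod _ _ _).symm)
    rw [← evL_singleton (e3 g), this]
    exact word_mem (by decide)
  refine ⟨θ, fun l a b => ?_, fun π => ?_, fun π => ?_⟩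
  · have : ∀ l < 15, 1 ≤ l → sgD.getD l [] = [CM.s1.getD l 0] ∧ CM.s1.getD l 0 ∈ 25 :: ML := by
      decide
    rw [evS, (this l b a).1, evL_singleton]
    exact hθ _ _ (h4 _ (this l b a).2)
  · obtain ⟨a, ha⟩ := map_snd_top h2 π
    rw [hθ _ _ ha]
    exact lets_le (K := ((MonoidHom.snd _ _).comp (MonoidHom.fst _ _)).eqLocus
      (io.comp (MonoidHom.snd _ _))) (fun l hl => e0_M (List.mem_cons_of_mem _ hl)) ha
  · obtain ⟨a, ha⟩ := map_snd_top h2 π
    rw [hθ _ _ ha]
    exact lets_le (K := (gen (eh g) (lets ML)).comap (MonoidHom.fst _ _))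
      (fun l hl => mem_lets (ev := eh g) hl) ha

theorem card_D [Finite G] : ∃ D : Subgroup (G × Spor.Co1), (∀ l, eh g l ∈ D) ∧
    D ≤ gen (eh g) (lets (List.range 28)) ∧ D.map (MonoidHom.snd _ _) = ⊤ ∧
    Nat.card (kerL D) ≤ 2 := by
  obtain ⟨θ, t1, t2, t3⟩ := h.exists_theta
  have hn : θ.range ≤ normalizer (ED g : Set (G × Spor.Co1)) := by
    rintro _ ⟨π, rfl⟩
    exact lets_le (fun _ => h.norm) (t3 π)
  have hH : ∀ y ∈ ED g ⊔ θ.range, ∃ e ∈ ED g, ∃ π, e * θ π = y := fun y hy => by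
    rw [← SetLike.mem_coe, coe_mul_of_right_le_normalizer_left _ _ hn] at hy
    obtain ⟨e, he, _, ⟨π, rfl⟩, rfl⟩ := hy
    exact ⟨e, he, π, rfl⟩
  have k1 : kerL (ED g ⊔ θ.range) = ⊥ := by
    rw [eq_bot_iff]
    intro a ha
    obtain ⟨e, he, π, e'⟩ := hH _ (mem_kerL.mp ha)
    obtain ⟨c, hc⟩ := h.ED_snd he
    have e2 := congrArg Prod.snd e'
    rw [Prod.snd_mul, hc, t2, mul_eq_one_iff_inv_eq, inv_eq_of_mul_eq_one_right (e1_sq c)] at e2
    have e3 : π = 1 := (pr1_eq e2.symm).elim toCo0_eq_eps fun a =>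
      toCo0_eq_eps (a.trans (neg_mul_eps c.2))
    rw [e3, map_one, mul_one] at e'
    exact (h.O_iff (y := (a, 1)) (e' ▸ ED_le he)).mpr rfl
  have k2 : Nat.card (ED g ⊔ θ.range : Subgroup _) ≤ Nat.card (Mon.map pr1) := by
    rw [card_graph, k1, card_bot, one_mul]
    refine card_le_of_le ?_
    rintro _ ⟨y, hy, rfl⟩
    obtain ⟨e, he, π, rfl⟩ := hH y hy
    obtain ⟨c, hc⟩ := h.ED_snd he
    refine ⟨ep c * toCo0 π, mul_mem (eps_mem_Mon _ _) (toCo0_mem_Mon π), ?_⟩
    show _ = e.2 * (θ π).2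
    rw [hc, t2, map_mul]
    rfl
  have k3 := (D1.cover t1 (H := ED g ⊔ θ.range) (Dce.hyp_of (good28 h.eh_zero (fun _ => eh_ge) h.sq)
    (R := RB) (fun r hr => h.ok r (List.all_eq_true.mp RB_ok r hr)) (by decide +kernel)
    (Dce.chk_of t1 CM.ora) fun w hw => mem_sup_right
      (Dce.ax_range (D := D1.D) t1 (by decide +kernel) w hw)) (by
      rw [evL_subst, show subst sgD [15, 2, 15] = [26, 7, 26] by decide, h.eq tq_ok, evL_cons,
        evL_singleton]
      exact mul_mem (mem_sup_left (mem_lets (by decide))) (mem_sup_right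
        ⟨_, (t1 2 (by norm_num) (by norm_num)).trans (evL_singleton _ _)⟩))).finite_card.2
  rw [gen_evS, show (lets (List.range' 1 15)).map (subst sgD) = lets (ML ++ [25, 26]) by
    decide] at k3
  have k4 : ∀ l, eh g l ∈ gen (eh g) (lets (ML ++ [25, 26])) := fun l => by
    by_cases a : 1 ≤ l ∧ l < 28
    · rcases (by decide : ∀ l < 28, 1 ≤ l → l ∈ ML ++ [25, 26] ∨ ∃ s ∈ gr, s.1 = l) l a.2 a.1
        with b | ⟨s, hs, rfl⟩
      · exact mem_lets b
      · exact grow_sound h.sq h.ok _ _ (fun l hl => mem_lets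
          ((by decide : ∀ l ∈ 26 :: ML, l ∈ ML ++ [25, 26]) l hl)) gr_ok s hs
    · by_cases b : l = 0
      · rw [b, h.eh_zero]; exact one_mem _
      · rw [eh_ge (by omega)]; exact one_mem _
  have k5 : (gen (eh g) (lets (ML ++ [25, 26]))).map (MonoidHom.snd _ _) = ⊤ := by
    have : ((gen (eh g) (lets (ML ++ [25, 26]))).map (MonoidHom.snd _ _)).comap pr1 = ⊤ := by
      refine eq_top_of_chk (Mon_le (fun c hc => ?_) fun π => ?_) h26 ?_ had26
      · obtain ⟨a, ha⟩ := ED_all (g := g) ⟨c, hc⟩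
        exact ⟨_, lets_le (fun l _ => k4 l) ha, rfl⟩
      · exact ⟨_, lets_le (fun l _ => k4 l) (t3 π), t2 π⟩
      · exact ⟨_, k4 26, by rw [← l0_26]; rfl⟩
    rw [eq_top_iff]
    intro x _
    obtain ⟨x, rfl⟩ := pr1_surj x
    exact (this ▸ mem_top x : x ∈ comap pr1 _)
  refine ⟨_, k4, lets_le fun l hl => mem_lets
    ((by decide : ∀ l ∈ ML ++ [25, 26], l ∈ List.range 28) l hl), k5, ?_⟩
  rw [card_graph, k5, card_top, card_Co1] at k3
  have k6 := index_Mon_ge
  have k7 : 0 < Nat.card (Mon.map pr1) := Nat.card_pos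
  by_contra c
  have : 3 * (Nat.card (Mon.map pr1) * 3627008) ≤ 8292375 * Nat.card (Mon.map pr1) :=
    ((Nat.mul_le_mul (by omega) (Nat.mul_le_mul_left _ k6)).trans k3).trans
      (Nat.mul_le_mul_left _ k2)
  omega

theorem exists_pi [Finite G] {Q : Subgroup G} (E : Rc.ES (g 1) Q) :
    ∃ π : Spor.Co1 →* G, ∀ y ∈ OD g, π y.2 = y.1 := by
  obtain ⟨D, d1, -, d3, d4⟩ := h.card_D
  obtain ⟨π, hπ⟩ := exists_hom_of_graph D (map_snd_top d3) fun a ha => by
    by_contra a1
    have hc : ∀ y ∈ D, y.1 * a * y.1⁻¹ = a := fun y hy =>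
      eq_of_card_le_two d4 (mem_kerL.mpr (by
        have := mul_mem (mul_mem hy ha) (inv_mem hy)
        rwa [show y * (a, 1) * y⁻¹ = (y.1 * a * y.1⁻¹, 1) by ext <;> simp] at this)) ha
        (by simpa using a1) a1
    have hO : OD g ≤ D := lets_le fun l _ => d1 l
    have a2 := E.cen a (mul_inv_eq_iff_eq_mul.mp (hc _ (d1 1))).symm fun q hq => by
      obtain ⟨x, hx⟩ := h.O_cen (E.qz q hq)
      exact (mul_inv_eq_iff_eq_mul.mp (hc _ (hO hx))).symm
    have a3 := hc _ (d1 27)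
    rw [a2.resolve_left a1, ← Prod.fst_inv, inv_eq_of_mul_eq_one_right (h.sq 27)] at a3
    have a4 := congrArg Prod.fst (h.eq tz_ok.1)
    have a5 : (evL (eh g) [1]).1 = (evL (eh g) [1, 2]).1 := by
      rw [← a4, evL_cons (eh g) 27, evL_cons (eh g) 1 [27], evL_singleton, evL_singleton,
        ← mul_assoc]
      exact a3.symm
    have a6 := congrArg Prod.snd (h.O_fst (mem_OD (by decide)) (mem_OD (by decide)) a5)
    rw [eh_snd, eh_snd, val_eq (by decide) (by decide)] at a6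
    exact tz_ok.2 a6
  exact ⟨π, fun y hy => hπ _ _ (lets_le (fun l _ => d1 l) hy)⟩

end Amal

end Cfsg.Co.Md
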