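import Cfsg.Agent.Co.C4

/-! The amalgam determines `Co₁`. -/

set_option autoImplicit false
set_option maxRecDepth 100000

namespace Cfsg.Co

open Cfsg.H4.Golay Cfsg.H6 Cfsg.H6.Leech Cfsg.H2 Subgroup

variable {G : Type*} [Group G]

theorem Rc.ES.odd_index [Finite G] {z : G} {Q : Subgroup G} (E : Rc.ES z Q) :
    Odd (centralizer ({z} : Set G)).index := by
  have hQ : IsPGroup 2 Q := IsPGroup.of_card (n := 9) E.card
  have h1 := hQ.card_modEq_card_fixedPoints (G ⧸ centralizer ({z} : Set G))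
  have h2 : MulAction.fixedPoints Q (G ⧸ centralizer ({z} : Set G)) = {((1 : G) : G ⧸ _)} := by
    ext x
    obtain ⟨x, rfl⟩ := QuotientGroup.mk_surjective x
    have key : ∀ q : Q, q • (x : G ⧸ centralizer ({z} : Set G)) = x ↔
        x * z * x⁻¹ * q = q * (x * z * x⁻¹) := fun q => by
      show ((q.1 * x : G) : G ⧸ centralizer ({z} : Set G)) = (x : G ⧸ centralizer ({z} : Set G)) ↔ _
      rw [eq_comm, QuotientGroup.eq, Rc.mem_cen]
      constructor
      · intro e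
        calc x * z * x⁻¹ * q = x * (z * (x⁻¹ * (q * x))) * x⁻¹ := by group
          _ = _ := by rw [← e]; group
      · intro e
        calc x⁻¹ * (q * x) * z = x⁻¹ * (q * (x * z * x⁻¹)) * x := by group
          _ = _ := by rw [← e]; group
    rw [MulAction.mem_fixedPoints, Set.mem_singleton_iff, eq_comm, QuotientGroup.eq, Rc.mem_cen,
      inv_one, one_mul, ← mul_inv_eq_iff_eq_mul]
    simp only [key]
    exact ⟨fun a => (E.cen _ (a ⟨z, E.zQ⟩) fun q hq => a ⟨q, hq⟩).resolve_left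
      (by simpa using E.z1), fun a q => by rw [a, E.qz q q.2]⟩
  rw [h2, Nat.card_coe_set_eq, Set.ncard_singleton] at h1
  exact Nat.odd_iff.mpr h1

theorem card_Mon : Nat.card Mon = 4096 * 244823040 := by
  rw [← card_code, ← CM.card, ← Nat.card_prod]
  refine (Nat.card_eq_of_bijective (fun x : golayCode × M24 =>
    (⟨ep x.1 * toCo0 x.2, mul_mem (eps_mem_Mon _ _) (toCo0_mem_Mon _)⟩ : Mon)) ⟨?_, ?_⟩).symm
  · rintro ⟨c, π⟩ ⟨d, ρ⟩ e
    have e1 : ep c * toCo0 π = ep d * toCo0 ρ := congrArg Subtype.val e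
    have e2 : toCo0 (π * ρ⁻¹) = ep (c + d) := by
      rw [map_mul, map_inv, ep_add, mul_inv_eq_iff_eq_mul, mul_assoc, ← e1, ← mul_assoc, ← ep_add,
        two_code, show ep 0 = 1 from eps_zero, one_mul]
    have e3 : π = ρ := mul_inv_eq_one.mp (toCo0_eq_eps e2)
    rw [e3, mul_left_inj] at e1
    exact Prod.ext (Subtype.ext (eps_inj e1)) e3
  · rintro ⟨y, hy⟩
    obtain ⟨c, hc, π, rfl⟩ := mon_eq hy
    exact ⟨(⟨c, hc⟩, π), rfl⟩

theorem card_Mon_map {ρ : Co0 →* G} (hk : ∀ x, ρ x = 1 ↔ x = 1 ∨ x = neg) :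
    Nat.card (Mon.map ρ) = 2048 * 244823040 := by
  have h1 : ρ.ker = center Co0 := Subgroup.ext fun x => (hk x).trans mem_center_iff.symm
  have h2 := card_mul_index (ρ.ker.subgroupOf Mon)
  rw [card_Mon, Nat.card_congr (subgroupOfEquivOfLe fun x hx =>
    ((hk x).mp hx).elim (fun e => e ▸ one_mem _) fun e => e ▸ neg_mem_Mon).toEquiv] at h2
  rw [← relIndex_ker, relIndex]
  rw [show Nat.card ρ.ker = 2 by rw [h1, card_center]] at h2
  omega

namespace Md.Amal

variable {g : ℕ → G}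

theorem iso [Finite G] {Q : Subgroup G} (E : Rc.ES (g 1) Q) (h : Amal g) :
    Nonempty (G ≃* Spor.Co1) := by
  obtain ⟨π, hπ⟩ := h.exists_pi E
  have k1 : ∀ c, π (e1 c) = 1 → e1 c = 1 := fun c e => by
    obtain ⟨a, ha⟩ := ED_all (g := g) c
    exact (h.O_iff (ED_le ha)).mp ((hπ _ (ED_le ha)).symm.trans e)
  have k2 : ∀ y ∈ Mon, π (pr1 y) = 1 → pr1 y = 1 := fun y hy e => by
    obtain ⟨d, hd, rfl⟩ := eq_eps_of_comm' (g := y) fun c hc => by
      obtain ⟨d, hd, ρ, rfl⟩ := mon_eq hy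
      have e1 : eps d hd * toCo0 ρ * eps c hc * (eps d hd * toCo0 ρ)⁻¹ = ep (ac ρ⁻¹ ⟨c, hc⟩) := by
        calc _ = ep ⟨d, hd⟩ * (toCo0 ρ * eps c hc * (toCo0 ρ)⁻¹) * (ep ⟨d, hd⟩)⁻¹ := by
              unfold ep; group
          _ = _ := by
            rw [show toCo0 ρ * eps c hc * (toCo0 ρ)⁻¹ = ep (ac ρ⁻¹ ⟨c, hc⟩) from conj_eps ρ hc,
              ep_inv, ← ep_add, ← ep_add, add_right_comm, two_code, zero_add]
      have e2 := k1 (ac ρ⁻¹ ⟨c, hc⟩ + ⟨c, hc⟩) (by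
        rw [e1_add, Md.e1, ← e1, map_mul, map_mul pr1, map_mul pr1, map_inv, map_mul π, map_mul π,
          map_inv, e, one_mul, inv_one, mul_one, ← map_mul]
        exact (congrArg π (e1_sq ⟨c, hc⟩)).trans π.map_one)
      rw [e1_add, mul_eq_one_iff_eq_inv, inv_eq_of_mul_eq_one_right (e1_sq _)] at e2
      rw [e1]
      exact pr1_eq e2
    exact k1 ⟨d, hd⟩ e
  have k3 : ∀ c : golayCode, wt c.1 = 12 → ∀ y ∈ π.ker, e1 c * y * (e1 c)⁻¹ = y → y = 1 := by
    intro c hc y hy e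
    obtain ⟨y, rfl⟩ := pr1_surj y
    refine k2 y (mon_of_dodecad (hc := c.2) hc (pr1_eq ?_)) hy
    rw [map_mul, map_mul, map_inv, mul_inv_eq_iff_eq_mul]
    exact (mul_inv_eq_iff_eq_mul.mp e).symm
  have hi : Function.Injective π := by
    rw [← MonoidHom.ker_eq_bot_iff]
    refine eq_bot_of_four _ (e1_sq ⟨_, D0_mem⟩)
      (e1_sq ⟨wd 681662, wd_mem (by decide +kernel)⟩) ?_
    rintro x (rfl | rfl | rfl)
    · exact k3 _ wt_D0
    · exact k3 _ (by rw [wt_wd]; decide +kernel)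
    · rw [← e1_add]
      exact k3 _ (by rw [Submodule.coe_add, ← wd_xor, wt_wd]; decide +kernel)
  have z1 : π (QuotientGroup.mk (eps _ (em_mem 1))) = g 1 := by
    have := hπ _ (mem_lets (ev := eh g) (l := 1) (by decide))
    rwa [show (eh g 1).2 = _ from e0_E (by decide)] at this
  have hk : ∀ x, π.comp pr1 x = 1 ↔ x = 1 ∨ x = neg := fun x =>
    ((injective_iff_map_eq_one' π).mp hi _).trans pr1_eq_one
  refine ⟨(MulEquiv.ofBijective π ⟨hi, surj π hi (em_mem 1) wt_em1 ?_ ?_ ?_ ?_⟩).symm⟩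
  · rw [z1]
    intro c hc
    obtain ⟨x, hx⟩ := h.O_cen (Rc.mem_cen.mp hc)
    exact ⟨x, hπ _ hx⟩
  · rw [z1, E.cardC]; norm_num
  · rw [z1, E.cardC]; norm_num
  · have h1 := card_mul_index (Mon.map (π.comp pr1))
    rw [card_Mon_map hk, ← card_mul_index (centralizer {g 1}), E.cardC] at h1
    have h2 := E.odd_index
    have h3 : ∀ a b : ℕ, 2048 * 244823040 * a = 512 * 174182400 * b → Odd b → Odd a := by
      intro a b h1 h2
      rw [Nat.odd_iff] at h2 ⊢
      omega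
    exact h3 _ _ h1 h2

end Md.Amal

end Cfsg.Co
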