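import Cfsg.Agent.Co.L5

/-! `M₂₄`: octads, dodecads, classes of involutions. -/

set_option autoImplicit false
set_option maxRecDepth 100000

namespace Cfsg.Co

open Cfsg.H4.Golay Cfsg.H6 Cfsg.H6.Leech Cfsg.H2

/-- The permutation acts on the numbers of the points as `f`. -/
def Rep (π : M24) (f : ℕ → ℕ) : Prop := ∀ p, idx (π.1 p) = f (idx p)

theorem idx_inj {p q : GolayPt} (h : idx p = idx q) : p = q := by rw [← pt_idx p, h, pt_idx]

theorem Rep.one : Rep 1 fun i => i := fun _ => rfl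

theorem Rep.mul {π ρ : M24} {f g : ℕ → ℕ} (h1 : Rep π f) (h2 : Rep ρ g) :
    Rep (π * ρ) fun i => f (g i) := fun p => (h1 _).trans (congrArg f (h2 p))

theorem Rep.eq {π ρ : M24} {f g : ℕ → ℕ} (h1 : Rep π f) (h2 : Rep ρ g)
    (h : ∀ i < 24, f i = g i) : π = ρ :=
  Subtype.ext (Equiv.ext fun p => idx_inj (by rw [h1, h2, h _ (idx_lt p)]))

theorem Rep.pt {π : M24} {f : ℕ → ℕ} (h : Rep π f) {i : ℕ} (hi : i < 24) :
    π.1 (pt i) = pt (f i) := by rw [← pt_idx (π.1 _), h, idx_pt i hi]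

theorem Rep.wd {π : M24} {f : ℕ → ℕ} (h : Rep π f) {m n : ℕ}
    (e : ∀ i < 24, m.testBit i = n.testBit (f i)) : wd m = wd n ∘ π.1 := funext fun p => by
  rw [Function.comp_apply, wd_eq_iff, h, e _ (idx_lt p)]

/-- The permutation with a checked table. -/
def mk24 {τ σ : ℕ} (h : Inverse τ σ ∧ okM τ = true) : M24 := ⟨_, okM_spec h.1 h.2⟩

theorem rep_mk24 {τ σ : ℕ} (h : Inverse τ σ ∧ okM τ = true) : Rep (mk24 h) (tb τ) := idx_prm h.1

/-- Some elements of `M₂₄`. -/
def Gam : List (ℕ × ℕ) := [(956302485175575353788796878166559809, 983478296959358443554250846857397270), (983478296959358443554250846857397270, 956302485175575353788796878166559809), (1795248432537898728475572672376535, 1795248432537898728475572672376535), (974380510768821363662145534143076928, 980275914351787324191492553553580224), (980275914351787324191492553553580224, 974380510768821363662145534143076928), (970408745037899174542809581725223937, 970408745037899174542809581725223937),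 (430444289809310515836243181772540929, 430444289809310515836243181772540929), (725895487971383339971559185675552800, 608167165260361641911015062699608096), (608167165260361641911015062699608096, 725895487971383339971559185675552800), (479663310730678034207776437455390752, 479663310730678034207776437455390752), (651239579074641248992907580101724192, 651239579074641248992907580101724192), (983435072843990828779021698901151808, 970567384681219435340729552166356352)]

/-- The table of the identity. -/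
def idT : ℕ := 984818244535754528103549039458486304

theorem Gam_ok : ∀ e ∈ (idT, idT) :: Gam, Inverse e.1 e.2 ∧ okM e.1 = true := by decide +kernel

/-- The table of a letter. -/
def gT (x : ℕ) : ℕ := (Gam.getD x (idT, idT)).1

theorem getD_mem {α : Type*} (l : List α) (x : ℕ) (d : α) : l.getD x d ∈ d :: l := by
  by_cases h : x < l.length
  · rw [List.getD_eq_getElem _ _ h]
    exact List.mem_cons_of_mem _ (List.getElem_mem h)
  · rw [List.getD_eq_default _ _ (not_lt.mp h)]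
    exact List.mem_cons_self

/-- The permutation of a letter. -/
noncomputable def gP (x : ℕ) : M24 := mk24 (Gam_ok _ (getD_mem Gam x _))

theorem rep_gP (x : ℕ) : Rep (gP x) (tb (gT x)) := rep_mk24 _

/-- A word applied to a point, first letter first. -/
def apw (w : List ℕ) (i : ℕ) : ℕ := w.foldl (fun p x => tb (gT x) p) i

theorem exists_rep (w : List ℕ) : ∃ π, Rep π (apw w) := by
  induction w with
  | nil => exact ⟨1, Rep.one⟩
  | cons x w ih =>
    obtain ⟨π, h⟩ := ih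
    exact ⟨_, h.mul (rep_gP x)⟩

/-- The stabiliser of the first five points. -/
def L48 : List (List ℕ) := [[], [7], [8], [9], [10], [7, 9], [7, 10], [8, 9], [8, 10], [9, 7], [9, 8], [9, 10], [10, 7], [10, 8], [7, 9, 7], [7, 9, 8], [7, 9, 10], [7, 10, 7], [7, 10, 8], [8, 9, 7], [8, 9, 8], [8, 9, 10], [8, 10, 7], [8, 10, 8], [9, 7, 10], [9, 8, 10], [9, 10, 7], [9, 10, 8], [10, 7, 9], [10, 8, 9], [7, 9, 7, 10], [7, 9, 8, 10], [7, 9, 10, 7], [7, 9, 10, 8], [7, 10, 7, 9], [7, 10, 8, 9], [8, 9, 7, 10], [8, 9, 8, 10], [8, 9, 10, 7], [8, 9, 10, 8], [8, 10, 7, 9], [8, 10, 8, 9], [9, 7, 10, 7], [9, 8, 10, 8], [9, 10, 7, 9], [9, 10, 8, 9], [7, 9, 7, 10, 7], [7, 9, 10, 8, 9]]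

theorem L48_fix : ∀ w ∈ L48, ∀ i < 5, apw w i = i := by decide +kernel

theorem five {c : GolayPt → ZMod 2} (hc : c ∈ golayCode) (h : ∀ i < 5, c (pt i) = 1) :
    (wt c = 8 → c = wd 5279) ∧ (wt c = 12 → ∃ w ∈ L48, ∀ π, Rep π (apw w) → c = wd 340831 ∘ π.1) := by
  have k : allSpan (fun m => !((List.range 5).all m.testBit) ||
      (((sm fun i => if m.testBit i then 1 else 0) != 8 || m == 5279) &&
       ((sm fun i => if m.testBit i then 1 else 0) != 12 || L48.any fun w =>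
        (List.range 24).all fun i => m.testBit i == Nat.testBit 340831 (apw w i)))) basis 0 = true := by
    decide +kernel
  obtain ⟨m, h1, rfl⟩ := exists_mask k hc
  have h2 : (List.range 5).all m.testBit = true := by
    simp only [List.all_eq_true, List.mem_range]
    intro i hi
    have := h i hi
    unfold wd at this
    rw [idx_pt i (by omega)] at this
    by_contra hb
    rw [if_neg hb] at this
    exact zero_ne_one this
  rw [h2, ← wt_wd] at h1
  simp only [Bool.not_true, Bool.false_or, Bool.and_eq_true, Bool.or_eq_true, bne_iff_ne,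
    beq_iff_eq, List.any_eq_true, List.all_eq_true, List.mem_range] at h1
  refine ⟨fun e => by rw [h1.1.resolve_left (not_not.mpr e)], fun e => ?_⟩
  obtain ⟨w, hw, e1⟩ := h1.2.resolve_left (not_not.mpr e)
  exact ⟨w, hw, fun π hπ => hπ.wd e1⟩

theorem wt_comp (c : GolayPt → ZMod 2) (π : Equiv.Perm GolayPt) : wt (c ∘ π) = wt c :=
  Equiv.sum_comp π (lf c)

theorem to_five {c : GolayPt → ZMod 2} (h : 5 ≤ wt c) :
    ∃ π : M24, ∀ i < 5, (c ∘ π.1) (pt i) = 1 := by
  rw [wt_eq_card] at h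
  obtain ⟨S, h1, h2⟩ := Finset.exists_subset_card_eq (show 5 ≤ (support₂ c).card by exact_mod_cast h)
  let f := (Finset.equivFinOfCardEq h2).symm
  obtain ⟨π, hπ⟩ := trans_pt (n := 5) le_rfl (f := fun a => (f a).1)
    (Subtype.val_injective.comp f.injective)
  refine ⟨π⁻¹, fun i hi => ?_⟩
  have h3 := h1 (f ⟨i, hi⟩).2
  have h4 : π⁻¹.1 (pt i) = f ⟨i, hi⟩ := by
    rw [show pt i = π.1 (f ⟨i, hi⟩) from (hπ ⟨i, hi⟩).symm]
    exact π.1.symm_apply_apply _
  rw [Function.comp_apply, h4]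
  simp only [support₂, Finset.mem_filter, Finset.mem_univ, true_and] at h3
  revert h3
  generalize c _ = a
  revert a
  decide

theorem comp_inv (c : GolayPt → ZMod 2) (π : M24) : (c ∘ π.1) ∘ π⁻¹.1 = c := funext fun p =>
  congrArg c (π.1.apply_symm_apply p)

theorem oct_std {c : GolayPt → ZMod 2} (hc : c ∈ golayCode) (h : wt c = 8) :
    ∃ π : M24, c = wd 5279 ∘ π.1 := by
  obtain ⟨π, h1⟩ := to_five (c := c) (by omega)
  exact ⟨π⁻¹, by rw [← (five (comp_mem π.2 hc) h1).1 (by rw [wt_comp, h]), comp_inv]⟩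

theorem dod_std {c : GolayPt → ZMod 2} (hc : c ∈ golayCode) (h : wt c = 12) :
    ∃ π : M24, c = wd 340831 ∘ π.1 := by
  obtain ⟨π, h1⟩ := to_five (c := c) (by omega)
  obtain ⟨w, -, h2⟩ := (five (comp_mem π.2 hc) h1).2 (by rw [wt_comp, h])
  obtain ⟨ν, h3⟩ := exists_rep w
  exact ⟨ν * π⁻¹, by rw [← comp_inv c π, h2 ν h3]; rfl⟩

/-- `M₂₄` is transitive on octads and on dodecads. -/
theorem wt_trans {c d : GolayPt → ZMod 2} (hc : c ∈ golayCode) (hd : d ∈ golayCode)
    (h : wt c = wt d) (h1 : wt c = 8 ∨ wt c = 12) : ∃ π : M24, c = d ∘ π.1 := by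
  rcases h1 with h1 | h1
  · obtain ⟨π, rfl⟩ := oct_std hc h1
    obtain ⟨ρ, rfl⟩ := oct_std hd (h ▸ h1)
    exact ⟨ρ⁻¹ * π, congrArg (· ∘ π.1) (comp_inv _ ρ).symm⟩
  · obtain ⟨π, rfl⟩ := dod_std hc h1
    obtain ⟨ρ, rfl⟩ := dod_std hd (h ▸ h1)
    exact ⟨ρ⁻¹ * π, congrArg (· ∘ π.1) (comp_inv _ ρ).symm⟩

theorem D0_mem : wd 340831 ∈ golayCode := wd_mem (by decide +kernel)

theorem wt_D0 : wt (wd 340831) = 12 := by rw [wt_wd]; decide +kernel

theorem fix5 (n : M24) (h : ∀ i < 5, n.1 (pt i) = pt i) :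
    ∃ w ∈ L48, ∀ ν, Rep ν (apw w) → ν * n = 1 := by
  have h0 : ∀ i < 5, n⁻¹.1 (pt i) = pt i := fun i hi => by
    conv_lhs => rw [← h i hi]
    exact n.1.symm_apply_apply _
  obtain ⟨w, hw, e⟩ := (five (comp_mem n⁻¹.2 D0_mem) fun i hi => by
    rw [Function.comp_apply, h0 i hi]
    revert i
    decide +kernel).2 (by rw [wt_comp, wt_D0])
  refine ⟨w, hw, fun ν hν => Subtype.ext (eq_one_of_mem_M12 (mem_M12.mpr ⟨(ν * n).2, fun p => ?_⟩)
    fun i hi => ?_)⟩
  · have := congrFun (e ν hν) (n.1 p)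
    rw [Function.comp_apply, Function.comp_apply, show n⁻¹.1 (n.1 p) = p from
      n.1.symm_apply_apply _, wd_eq_iff] at this
    exact this.symm
  · change ν.1 (n.1 (pt i)) = _
    rw [h i hi, hν.pt (by omega), L48_fix w hw i hi]

theorem two_swaps {p : M24} (h2 : p * p = 1) (h1 : p ≠ 1) :
    ∃ a b, Function.Injective ![a, p.1 a, b, p.1 b] := by
  have pp : ∀ x, p.1 (p.1 x) = x := fun x => congrArg (fun q : M24 => q.1 x) h2
  obtain ⟨a, ha⟩ : ∃ a, p.1 a ≠ a := by
    by_contra hc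
    push Not at hc
    exact h1 (Subtype.ext (Equiv.ext hc))
  obtain ⟨b, b1, b2, b3⟩ : ∃ b, b ≠ a ∧ b ≠ p.1 a ∧ p.1 b ≠ b := by
    by_contra hc
    push Not at hc
    obtain ⟨c, hc1, e1, e2⟩ := sep ha.symm
    have h3 := wt_cases (Submodule.add_mem _ hc1 (comp_mem p.2 hc1))
    have h4 : wt (c + c ∘ p.1) ≤ ∑ i, ((if i = a then 1 else 0) + if i = p.1 a then 1 else 0 : ℤ) :=
      Finset.sum_le_sum fun i _ => by
        have := lf_cases (c + c ∘ p.1) i
        by_cases k1 : i = a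
        · split_ifs <;> omega
        by_cases k2 : i = p.1 a
        · split_ifs <;> omega
        rw [lf_eq_zero.mpr (by
          rw [Pi.add_apply, Function.comp_apply, hc i k1 k2, CharTwo.add_self_eq_zero])]
        split_ifs <;> omega
    simp only [Finset.sum_add_distrib, Finset.sum_ite_eq', Finset.mem_univ, if_true] at h4
    have h5 := lf_eq_zero.mp (lf_of_wt_zero (c := c + c ∘ p.1) (by omega) a)
    rw [Pi.add_apply, Function.comp_apply, e1, e2, zero_add] at h5
    exact one_ne_zero h5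
  exact ⟨a, b, inj4 ha b1 b2 (fun e => b2 (by rw [← e, pp])) (fun e => b1 (p.1.injective e)) b3⟩

/-- Conjugating words. -/
def CW : List (List ℕ) := [[], [7], [8], [9], [10], [0, 0], [5, 9], [5, 10], [6, 9], [6, 10], [7, 9], [7, 10], [8, 9], [8, 10], [9, 7], [9, 8], [10, 7], [10, 8], [10, 9], [0, 0, 7], [0, 7, 1], [0, 8, 0], [0, 8, 1], [0, 9, 0], [5, 0, 0], [5, 9, 7], [5, 9, 8], [5, 10, 8], [6, 0, 0], [6, 5, 9], [6, 9, 8], [6, 10, 7], [7, 0, 0], [7, 6, 9], [7, 9, 7], [7, 9, 8], [7, 10, 7], [7, 10, 8], [8, 0, 0], [8, 5, 9], [8, 6, 9], [8, 9, 7], [8, 9, 8], [8, 10, 7], [9, 5, 9], [9, 6, 10], [9, 7, 10], [10, 5, 10], [10, 6, 9], [10, 7, 9], [10, 9, 7], [10, 9, 8], [0, 9, 0, 8], [0, 10, 0, 7], [0, 10, 1, 8], [4, 2, 9, 8], [6, 0, 0, 7], [6, 0, 8, 0], [6, 10, 9, 7], [7, 0, 8, 1], [8, 5, 0, 0], [8, 5, 9, 7], [9, 8, 6, 9], [10, 8, 9, 8], [11, 3, 7, 2], [0, 5, 11, 7, 2], [2, 10, 3, 7, 1], [8, 4, 2, 9, 8], [9, 4, 2, 9, 8], [3, 6, 5, 11, 8, 0]]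

theorem inv_chk : ∀ j < 20, frcB (fun τ => L48.all fun w =>
    !((List.range 24).all fun i =>
      apw w (tb τ (tb (gT 5) (apw w (tb τ (tb (gT 5) i))))) == i) ||
    CW.any fun v => [5, 6].any fun k => (List.range 24).all fun i =>
      apw v (apw w (tb τ (tb (gT 5) i))) == tb (gT k) (apw v i))
    (trT.getD (24 * 4 + (j + 4)) (0, 0)).1 = true := by decide +kernel

theorem gP5_sq : gP 5 * gP 5 = 1 := ((rep_gP 5).mul (rep_gP 5)).eq Rep.one (by decide +kernel)

theorem gP6_sq : gP 6 * gP 6 = 1 := ((rep_gP 6).mul (rep_gP 6)).eq Rep.one (by decide +kernel)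

/-- The two classes of involutions of `M₂₄`. -/
theorem inv_M24 {p : M24} (h2 : p * p = 1) :
    ∃ ν : M24, ν * p * ν⁻¹ = 1 ∨ ν * p * ν⁻¹ = gP 5 ∨ ν * p * ν⁻¹ = gP 6 := by
  by_cases h1 : p = 1
  · exact ⟨1, Or.inl (by simp [h1])⟩
  have pp : ∀ x, p.1 (p.1 x) = x := fun x => congrArg (fun q : M24 => q.1 x) h2
  obtain ⟨a, b, hab⟩ := two_swaps h2 h1
  obtain ⟨π, hπ⟩ := trans_pt (n := 4) (by norm_num) hab
  have e0 : π.1 a = pt 0 := hπ 0
  have e1 : π.1 (p.1 a) = pt 1 := hπ 1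
  have e2 : π.1 b = pt 2 := hπ 2
  have e3 : π.1 (p.1 b) = pt 3 := hπ 3
  set q := π * p * π⁻¹ with hq
  have qq : q * q = 1 := by
    rw [hq, show π * p * π⁻¹ * (π * p * π⁻¹) = π * (p * p) * π⁻¹ by group, h2]; group
  have qa : ∀ x, q.1 (π.1 x) = π.1 (p.1 x) := fun x =>
    congrArg (fun y => π.1 (p.1 y)) (π.1.symm_apply_apply x)
  have m4 : ∀ i < 4, (gP 5 * q).1 (pt i) = pt i := fun i hi => by
    change (gP 5).1 (q.1 (pt i)) = _
    interval_cases i
    · rw [← e0, qa, e1, e0, (rep_gP 5).pt (by norm_num)]; decide +kernel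
    · rw [← e1, qa, pp, e0, e1, (rep_gP 5).pt (by norm_num)]; decide +kernel
    · rw [← e2, qa, e3, e2, (rep_gP 5).pt (by norm_num)]; decide +kernel
    · rw [← e3, qa, pp, e2, e3, (rep_gP 5).pt (by norm_num)]; decide +kernel
  obtain ⟨j, hj⟩ : ∃ j, idx ((gP 5 * q).1 (pt 4)) = j + 4 := by
    refine ⟨idx ((gP 5 * q).1 (pt 4)) - 4, (Nat.sub_add_cancel ?_).symm⟩
    by_contra hc
    have h3 := m4 _ (not_le.mp hc)
    rw [pt_idx] at h3
    have := congrArg idx ((gP 5 * q).1.injective h3)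
    rw [idx_pt 4 (by norm_num)] at this
    omega
  have hj' : j + 4 < 24 := hj ▸ idx_lt _
  obtain ⟨k1, k2, k3, k4⟩ := trT_ok 4 (by norm_num) (j + 4) hj' (by omega)
  have k5 := inv_chk j (by omega)
  rw [frcB_eq] at k5
  generalize (trT.getD (24 * 4 + (j + 4)) (0, 0)).1 = τ at *
  have rt := rep_mk24 ⟨k1, k2⟩
  obtain ⟨w, hw, e⟩ := fix5 (mk24 ⟨k1, k2⟩ * (gP 5 * q)) fun i hi => by
    change (mk24 ⟨k1, k2⟩).1 ((gP 5 * q).1 (pt i)) = _
    rcases Nat.lt_succ_iff_lt_or_eq.mp hi with h | rfl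
    · rw [m4 i h, rt.pt (by omega), k4 i h]
    · rw [← pt_idx ((gP 5 * q).1 _), hj, rt.pt hj', k3]
  obtain ⟨ν, hν⟩ := exists_rep w
  have e4 : ν * (mk24 ⟨k1, k2⟩ * gP 5) = q := by
    have := e ν hν
    rw [← mul_assoc, ← mul_assoc, mul_eq_one_iff_eq_inv, inv_eq_of_mul_eq_one_right qq,
      mul_assoc] at this
    exact this
  have rq := hν.mul (rt.mul (rep_gP 5))
  rw [e4] at rq
  have k6 := List.all_eq_true.mp k5 w hw
  have k7 : ((List.range 24).all fun i =>
      apw w (tb τ (tb (gT 5) (apw w (tb τ (tb (gT 5) i))))) == i) = true := by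
    simp only [List.all_eq_true, List.mem_range, beq_iff_eq]
    intro i hi
    have := rq.mul rq (pt i)
    rw [qq, idx_pt i hi] at this
    exact this.symm.trans (idx_pt i hi)
  rw [k7] at k6
  simp only [Bool.not_true, Bool.false_or, List.any_eq_true, List.all_eq_true, List.mem_range,
    beq_iff_eq] at k6
  obtain ⟨v, -, k, hk, k8⟩ := k6
  obtain ⟨μ, hμ⟩ := exists_rep v
  have e5 : μ * π * p * (μ * π)⁻¹ = gP k := by
    have := (hμ.mul rq).eq ((rep_gP k).mul hμ) k8
    rw [← mul_inv_eq_iff_eq_mul, hq] at this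
    rw [← this]; group
  refine ⟨μ * π, Or.inr ?_⟩
  simp only [List.mem_cons, List.not_mem_nil, or_false] at hk
  rcases hk with rfl | rfl
  exacts [Or.inl e5, Or.inr e5]

end Cfsg.Co
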