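import Cfsg.Agent.Co.E2

/-! Counting octads; `2`-subgroups of `Co₀` centralise a conjugate of an octad sign change. -/

set_option autoImplicit false
set_option maxRecDepth 100000

namespace Cfsg.Co

open Cfsg.H4.Golay Cfsg.H6 Cfsg.H6.Leech Cfsg.H2

theorem xv_mem (p : ℕ) : wd (xv rb p 12) ∈ golayCode := by
  rw [additive_xv wd_xor]
  have h : ∀ k ∈ Finset.range 12, H4.Golay.red basis (rb k) = 0 := by decide +kernel
  refine Submodule.sum_mem _ fun k hk => ?_
  split_ifs
  · exact wd_mem (h k hk)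
  · exact Submodule.zero_mem _

/-- The code word with a number. -/
noncomputable def cwN (p : ℕ) : golayCode := ⟨_, xv_mem p⟩

theorem cwN_surj (c : golayCode) : ∃ p < 4096, cwN p = c := by
  have h : allSpan (fun m => xv rb (m % 4096) 12 == m) basis 0 = true := by decide +kernel
  obtain ⟨m, h1, e⟩ := exists_mask h c.2
  exact ⟨m % 4096, Nat.mod_lt _ (by norm_num),
    Subtype.ext ((congrArg wd (beq_iff_eq.mp h1)).trans e.symm)⟩

theorem cwN_inj : Set.InjOn cwN (Finset.range 4096) := fun p hp q hq e => by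
  have h : ∀ p < 4096, xv rb p 12 % 2 ^ 12 = p := by decide +kernel
  rw [← h p (by simpa using hp), ← h q (by simpa using hq)]
  refine Nat.eq_of_testBit_eq fun i => ?_
  rw [Nat.testBit_mod_two_pow, Nat.testBit_mod_two_pow]
  by_cases hi : i < 12
  · have := wd_eq_iff.mp (congrFun (congrArg Subtype.val e) (pt i))
    rw [idx_pt i (by omega)] at this
    rw [this]
  · simp [hi]

noncomputable instance instFintypeCode : Fintype golayCode := Fintype.ofFinite _

open Classical in
theorem card_filter_code (P : golayCode → Prop) [DecidablePred P] :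
    (Finset.univ.filter P).card = ((Finset.range 4096).filter fun p => P (cwN p)).card := by
  rw [← Finset.card_image_of_injOn (cwN_inj.mono (Finset.coe_subset.mpr (Finset.filter_subset _ _)))]
  congr 1
  ext c
  simp only [Finset.mem_filter, Finset.mem_univ, true_and, Finset.mem_image, Finset.mem_range]
  refine ⟨fun h => ?_, fun ⟨p, h, e⟩ => e ▸ h.2⟩
  obtain ⟨p, hp, rfl⟩ := cwN_surj c
  exact ⟨p, ⟨hp, h⟩, rfl⟩

theorem card_code : Nat.card golayCode = 4096 := by
  have := card_filter_code fun _ => True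
  rw [Finset.filter_true, Finset.filter_true, Finset.card_range] at this
  rw [Nat.card_eq_fintype_card]
  exact this

/-- The octads. -/
noncomputable def OC : Finset golayCode := Finset.univ.filter fun c => wt c.1 = 8

theorem mem_OC {c : golayCode} : c ∈ OC ↔ wt c.1 = 8 := by simp [OC]

theorem card_OC : OC.card = 759 := by
  have h := card_filter_code fun c => wt c.1 = 8
  have k : cnt (fun p => frcB (fun m => (sm fun i => if m.testBit i then 1 else 0) == 8)
    (xv rb p 12)) 4096 = 759 := by decide +kernel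
  rw [cnt_eq] at k
  refine h.trans (Eq.trans (congrArg Finset.card (Finset.filter_congr fun p _ => ?_)) k)
  rw [frcB_eq, beq_iff_eq, ← wt_wd]
  exact Iff.rfl

/-- The action of `M₂₄` on the code. -/
def ac (π : M24) (c : golayCode) : golayCode := ⟨c.1 ∘ π.1, comp_mem π.2 c.2⟩

theorem ac_add (π : M24) (c d : golayCode) : ac π (c + d) = ac π c + ac π d := rfl

theorem ac_inj (π : M24) : Function.Injective (ac π) := fun c d e => Subtype.ext (by
  rw [← comp_inv c.1 π, ← comp_inv d.1 π]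
  exact congrArg (fun x : golayCode => x.1 ∘ π⁻¹.1) e)

theorem two_code (c : golayCode) : c + c = 0 := Subtype.ext (CharTwo.add_self_eq_zero c.1)

open Classical in
/-- No subgroup without octads has all its non-trivial cosets conjugate. -/
theorem count_octads (A : AddSubgroup golayCode) (h8 : ∀ a ∈ A, wt a.1 ≠ 8)
    (h : ∀ c ∉ A, ∀ d ∉ A, ∃ π : M24, (∀ a ∈ A, ac π a ∈ A) ∧ ac π c + d ∈ A) : False := by
  let N : golayCode → ℕ := fun c => (OC.filter fun o => o + c ∈ A).card
  have h1 : ∀ c ∉ A, ∀ d ∉ A, N c ≤ N d := fun c hc d hd => by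
    obtain ⟨π, k1, k2⟩ := h c hc d hd
    refine Finset.card_le_card_of_injOn (ac π) (fun o ho => ?_) (ac_inj π).injOn
    simp only [Finset.coe_filter, Set.mem_ofPred_eq, mem_OC] at ho ⊢
    refine ⟨(wt_comp _ _).trans ho.1, ?_⟩
    have := A.add_mem (k1 _ ho.2) k2
    rwa [ac_add, add_assoc, ← add_assoc (ac π c), two_code, zero_add] at this
  have h2 : ∑ c, N c = 759 * Nat.card A := by
    simp only [N, Finset.card_filter]
    rw [Finset.sum_comm, ← card_OC, Finset.sum_congr rfl fun o _ => (?_ : _ = Nat.card A),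
      Finset.sum_const, smul_eq_mul]
    refine (Equiv.sum_comp (Equiv.addLeft o) fun c => if c ∈ A then 1 else 0).trans ?_
    rw [← Finset.card_filter, Nat.card_eq_fintype_card, Fintype.card_subtype]
  obtain ⟨o, ho⟩ := Finset.card_pos.mp (show 0 < OC.card by rw [card_OC]; norm_num)
  have h3 : o ∉ A := fun e => h8 o e (mem_OC.mp ho)
  have h4 : ∑ c, N c = (4096 - Nat.card A) * N o := by
    rw [Finset.sum_congr rfl fun c _ => (?_ : N c = if c ∉ A then N o else 0), ← Finset.sum_filter,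
      Finset.sum_const, smul_eq_mul]
    · congr 1
      have := Finset.card_filter_add_card_filter_not (s := Finset.univ) fun c : golayCode => c ∈ A
      rw [Finset.card_univ, ← Nat.card_eq_fintype_card, card_code] at this
      rw [Nat.card_eq_fintype_card, Fintype.card_subtype]
      omega
    · split_ifs with e
      · refine Finset.card_eq_zero.mpr (Finset.filter_eq_empty_iff.mpr fun x hx e' => ?_)
        exact h8 x ((A.add_mem_cancel_right e).mp e') (mem_OC.mp hx)
      · exact le_antisymm (h1 c e o h3) (h1 o h3 c e)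
  have h5 := A.card_mul_index
  rw [card_code] at h5
  have h6 : 5 ≤ A.index := by
    let W : Fin 5 → ℕ := ![3416079, 5279, 4196943, 622863, 8536111]
    have m : ∀ i, H4.Golay.red basis (W i) = 0 := by decide +kernel
    have m2 : ∀ i j, i ≠ j → wt (wd (W i ^^^ W j)) = 8 := by
      simp only [wt_wd]
      decide +kernel
    have := Nat.card_le_card_of_injective
      (fun i => ((⟨wd (W i), wd_mem (m i)⟩ : golayCode) : golayCode ⧸ A)) fun i j e => by
        by_contra hne
        refine h8 _ (QuotientAddGroup.eq.mp e) ?_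
        rw [← m2 i j hne, wd_xor]
        congr 1
        exact congrArg (· + _) (CharTwo.neg_eq _)
    rwa [Nat.card_fin] at this
  have h7 : (A.index - 1) * N o = 759 := by
    refine Nat.eq_of_mul_eq_mul_left (Nat.card_pos (α := A)) ?_
    rw [← mul_assoc, Nat.mul_sub_one, h5, ← h4, h2, mul_comm]
  obtain ⟨k, hk, e⟩ := (Nat.dvd_prime_pow Nat.prime_two).mp
    (show A.index ∣ 2 ^ 12 from Dvd.intro_left _ h5)
  rw [e] at h6 h7
  interval_cases k <;> omega

theorem fix_of_odd {G : Type*} [Group G] {P : Subgroup G} (hP : IsPGroup 2 P) {Z : Set G}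
    (hZ : ∀ p ∈ P, ∀ z ∈ Z, p * z * p⁻¹ ∈ Z) (ho : Odd Z.ncard) :
    ∃ z ∈ Z, ∀ p ∈ P, p * z * p⁻¹ = z := by
  have : Fact (Nat.Prime 2) := ⟨Nat.prime_two⟩
  let _ : MulAction P Z :=
    { smul := fun p z => ⟨p.1 * z.1 * p.1⁻¹, hZ _ p.2 _ z.2⟩
      one_smul := fun z => Subtype.ext (show (1 : G) * z.1 * 1⁻¹ = _ by group)
      mul_smul := fun p q z => Subtype.ext
        (show p.1 * q.1 * z.1 * (p.1 * q.1)⁻¹ = p.1 * (q.1 * z.1 * q.1⁻¹) * p.1⁻¹ by group) }
  have : Finite Z := Set.finite_of_ncard_pos ho.pos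
  obtain ⟨z, hz⟩ := hP.nonempty_fixed_point_of_prime_not_dvd_card Z
    (by rw [Nat.card_coe_set_eq, ← even_iff_two_dvd]; exact Nat.not_even_iff_odd.mpr ho)
  exact ⟨z.1, z.2, fun p hp => congrArg Subtype.val (hz ⟨p, hp⟩)⟩

theorem conj_wt {c d : GolayPt → ZMod 2} (hc : c ∈ golayCode) (hd : d ∈ golayCode)
    (h : wt c = wt d) (h1 : wt c = 8 ∨ wt c = 12) :
    ∃ k : Co0, k * eps d hd * k⁻¹ = eps c hc := by
  obtain ⟨π, rfl⟩ := wt_trans hc hd h h1
  exact ⟨toCo0 π⁻¹, conj_eps _ _⟩

theorem two_central (ho : Odd Mon.index) {O : GolayPt → ZMod 2} (hO : O ∈ golayCode)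
    (h8 : wt O = 8) {A : Subgroup Co0} (hA : IsPGroup 2 A) :
    ∃ g : Co0, ∀ a ∈ A, Commute a (g * eps O hO * g⁻¹) := by
  have : Fact (Nat.Prime 2) := ⟨Nat.prime_two⟩
  obtain ⟨q, hq⟩ := hA.nonempty_fixed_point_of_prime_not_dvd_card (Co0 ⧸ Mon)
    (by rw [← Subgroup.index, ← even_iff_two_dvd]; exact Nat.not_even_iff_odd.mpr ho)
  obtain ⟨g, rfl⟩ := QuotientGroup.mk_surjective q
  have h1 : ∀ a ∈ A, g⁻¹ * a * g ∈ Mon := fun a ha => by
    have h2 : ((a * g : Co0) : Co0 ⧸ Mon) = g := hq ⟨a, ha⟩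
    simpa [mul_assoc] using Mon.inv_mem (QuotientGroup.eq.mp h2)
  obtain ⟨_, ⟨c, hc, rfl⟩, h2⟩ := fix_of_odd hA
    (Z := (fun c : golayCode => g * eps c.1 c.2 * g⁻¹) '' OC) (by
      rintro a ha _ ⟨c, hc, rfl⟩
      obtain ⟨d, hd, π, e⟩ := mon_eq (h1 a ha)
      refine ⟨ac π⁻¹ c, mem_OC.mpr ((wt_comp _ _).trans (mem_OC.mp hc)), ?_⟩
      have e1 : eps d hd * eps (ac π⁻¹ c).1 (ac π⁻¹ c).2 * (eps d hd)⁻¹ =
          eps (ac π⁻¹ c).1 (ac π⁻¹ c).2 := by
        rw [mul_inv_eq_iff_eq_mul, eps_mul, eps_mul]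
        exact eps_congr _ (add_comm _ _)
      have e2 : toCo0 π * eps c.1 c.2 * (toCo0 π)⁻¹ = eps (ac π⁻¹ c).1 (ac π⁻¹ c).2 :=
        conj_eps π c.2
      beta_reduce
      rw [← e1, ← e2, show a = g * (eps d hd * toCo0 π) * g⁻¹ by rw [← e]; group]
      group) (by
      rw [Set.ncard_image_of_injective _ fun c d e => Subtype.ext (eps_inj
        (mul_left_cancel (mul_right_cancel e))), Set.ncard_coe_finset, card_OC]
      decide)
  obtain ⟨k, e⟩ := conj_wt c.2 hO ((mem_OC.mp hc).trans h8.symm) (Or.inl (mem_OC.mp hc))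
  refine ⟨g * k, fun a ha => ?_⟩
  have := mul_inv_eq_iff_eq_mul.mp (h2 a ha)
  beta_reduce at this
  rw [← e] at this
  rwa [show g * k * eps O hO * (g * k)⁻¹ = g * (k * eps O hO * k⁻¹) * g⁻¹ by group]

end Cfsg.Co
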