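import Cfsg.Agent.Co.E3

/-! A finite group containing `Co₁` with the same involution centraliser is `Co₁`. -/

set_option autoImplicit false

namespace Cfsg.Co

open Cfsg.H4.Golay Cfsg.H6 Cfsg.H6.Leech Cfsg.H2 Subgroup

variable {G : Type*} [Group G] {Ω : Type*} [MulAction G Ω]

theorem smul_cj {x k : G} {γ : Ω} : (k * x * k⁻¹) • γ = γ ↔ x • k⁻¹ • γ = k⁻¹ • γ := by
  rw [mul_smul, mul_smul, smul_eq_iff_eq_inv_smul]

theorem syl_trans [Finite G] [Finite Ω] (ho : Odd (Nat.card Ω)) (X : Subgroup G) {x y : G}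
    (hx : x ∈ X) (hy : y ∈ X) (x2 : x * x = 1) (y2 : y * y = 1) {α β : Ω}
    (h1 : ∀ γ, x • γ = γ → γ = α) (h2 : ∀ γ, y • γ = γ → γ = β) : ∃ k ∈ X, k • α = β := by
  have : Fact (Nat.Prime 2) := ⟨Nat.prime_two⟩
  have k : ∀ u : X, u * u = 1 → ∃ P : Sylow 2 X, u ∈ P := fun u hu => by
    obtain ⟨P, hP⟩ := IsPGroup.exists_le_sylow (p := 2) (P := zpowers u) (by
      rintro ⟨_, n, rfl⟩
      refine ⟨1, Subtype.ext ?_⟩
      show (u ^ n) ^ 2 ^ 1 = 1
      rw [← zpow_natCast, ← zpow_mul, mul_comm, zpow_mul, zpow_natCast, pow_one, sq, hu, one_zpow])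
    exact ⟨P, hP (mem_zpowers u)⟩
  obtain ⟨P, hP⟩ := k ⟨x, hx⟩ (Subtype.ext x2)
  obtain ⟨Q, hQ⟩ := k ⟨y, hy⟩ (Subtype.ext y2)
  obtain ⟨g, rfl⟩ := MulAction.exists_smul_eq X P Q
  obtain ⟨γ, hγ⟩ := (g • P).2.nonempty_fixed_point_of_prime_not_dvd_card Ω
    (by rw [← even_iff_two_dvd]; exact Nat.not_even_iff_odd.mpr ho)
  have e1 := h2 γ (hγ ⟨_, hQ⟩)
  have e2 : (g.1 * x * g.1⁻¹) • γ = γ := hγ ⟨g * ⟨x, hx⟩ * g⁻¹, smul_mem_pointwise_smul _ _ _ hP⟩
  exact ⟨g, g.2, by rw [← h1 _ (smul_cj.mp e2), smul_inv_smul, e1]⟩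

/-- The sign change of a code word. -/
def ep (c : golayCode) : Co0 := eps c.1 c.2

/-- The all-ones word. -/
def one : golayCode := ⟨1, one_mem_code⟩

theorem ep_add (c d : golayCode) : ep (c + d) = ep c * ep d := (eps_mul c.2 d.2).symm

theorem ep_inv (c : golayCode) : (ep c)⁻¹ = ep c := inv_eq_of_mul_eq_one_right (eps_mul_self c.2)

theorem wt_zero {c : golayCode} (h : wt c.1 = 0) : c = 0 :=
  Subtype.ext (funext fun i => lf_eq_zero.mp (lf_of_wt_zero h i))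

theorem wt_one (c : golayCode) : wt (one + c).1 = 24 - wt c.1 := wt_one_add c.1

/-- The setting: `Co₀` maps to `G` with kernel the centre, onto a point stabiliser. -/
structure Setg (ρ : Co0 →* G) (α : Ω) (O : golayCode) : Prop where
  ker : ∀ x, ρ x = 1 ↔ x = 1 ∨ x = neg
  odd : Odd (Nat.card Ω)
  oddM : Odd Mon.index
  tr : ∀ β, ∃ g : G, g • α = β
  stab : ∀ g : G, g • α = α ↔ g ∈ ρ.range
  w8 : wt O.1 = 8
  only : ∀ β, ρ (ep O) • β = β → β = α

namespace Setg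

variable {ρ : Co0 →* G} {α : Ω} {O : golayCode} (S : Setg ρ α O)
include S

theorem fix (x : Co0) : ρ x • α = α := (S.stab _).mpr ⟨x, rfl⟩

theorem eq {x y : Co0} (h : ρ x = ρ y) : x = y ∨ x = neg * y := by
  have := (S.ker (x * y⁻¹)).mp (by rw [map_mul, h, map_inv, mul_inv_cancel])
  rwa [mul_inv_eq_one, mul_inv_eq_iff_eq_mul] at this

theorem ep_eq {c d : golayCode} (h : ρ (ep c) = ρ (ep d)) : c = d ∨ c = one + d :=
  (S.eq h).imp (fun e => Subtype.ext (eps_inj e)) fun e =>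
    Subtype.ext (eps_inj (e.trans (neg_mul_eps d.2)))

theorem ep_one : ρ (ep one) = 1 := (S.ker _).mpr (Or.inr neg_eq.symm)

theorem only_cj {x y : Co0} (h : ∀ β, ρ y • β = β → β = α) (e : IsConj y x) (β : Ω)
    (hβ : ρ x • β = β) : β = α := by
  obtain ⟨k, rfl⟩ := isConj_iff.mp e
  rw [map_mul, map_mul, map_inv, smul_cj] at hβ
  rw [← smul_inv_smul (ρ k) β, h _ hβ, S.fix]

theorem oct {c : golayCode} (h : wt c.1 = 8) : ∀ β, ρ (ep c) • β = β → β = α :=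
  S.only_cj S.only (isConj_iff.mpr (conj_wt c.2 O.2 (h.trans S.w8.symm) (Or.inl h)))

omit S in
/-- The code words whose sign change fixes a point. -/
def St (ρ : Co0 →* G) (β : Ω) : AddSubgroup golayCode where
  carrier := {c | ρ (ep c) • β = β}
  zero_mem' := by
    change ρ (eps 0 _) • β = β
    rw [eps_zero, map_one, one_smul]
  add_mem' := fun {a b} ha hb => by
    change ρ (ep (a + b)) • β = β
    rw [ep_add, map_mul, mul_smul, hb, ha]
  neg_mem' := fun {a} ha => by rwa [neg_eq_of_add_eq_zero_left (two_code a)]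

omit S in
/-- The sign changes of a group of code words. -/
def img (ρ : Co0 →* G) (A : AddSubgroup golayCode) : Subgroup G where
  carrier := {x | ∃ c ∈ A, ρ (ep c) = x}
  one_mem' := ⟨0, A.zero_mem, by
    change ρ (eps 0 _) = 1
    rw [eps_zero, map_one]⟩
  mul_mem' := by
    rintro _ _ ⟨c, hc, rfl⟩ ⟨d, hd, rfl⟩
    exact ⟨c + d, A.add_mem hc hd, by rw [ep_add, map_mul]⟩
  inv_mem' := by
    rintro _ ⟨c, hc, rfl⟩
    exact ⟨c, hc, by rw [← map_inv, ep_inv]⟩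

omit S in
theorem ep_cent (A : AddSubgroup golayCode) (c : golayCode) :
    ρ (ep c) ∈ centralizer (img ρ A : Set G) := by
  rintro _ ⟨d, -, rfl⟩
  rw [← map_mul, ← map_mul, ← ep_add, ← ep_add, add_comm]

theorem cent_trans [Finite G] [Finite Ω] (β : Ω) :
    ∃ h ∈ centralizer (img ρ (St ρ β) : Set G), h • α = β := by
  obtain ⟨g, rfl⟩ := S.tr β
  obtain ⟨k, hk⟩ := two_central S.oddM O.2 S.w8
    (A := (img ρ (St ρ (g • α))).comap ((MulAut.conj g).toMonoidHom.comp ρ)) (by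
      rintro ⟨a, c, -, e⟩
      refine ⟨2, Subtype.ext ?_⟩
      change ρ (ep c) = g * ρ a * g⁻¹ at e
      have e1 : ρ (a * a) = 1 := by
        rw [map_mul, show ρ a = g⁻¹ * ρ (ep c) * g by rw [e]; group]
        exact sq_cj (by rw [← map_mul, ep, eps_mul_self, map_one]) g
      show a ^ 2 ^ 2 = 1
      rw [show 2 ^ 2 = 2 + 2 from rfl, pow_add, sq]
      rcases (S.ker _).mp e1 with h | h <;> rw [h]
      exacts [one_mul _, neg_mul_self])
  have z2 : ρ (ep O) * ρ (ep O) = 1 := by rw [← map_mul, ep, eps_mul_self, map_one]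
  refine syl_trans S.odd _ (ep_cent _ O) (y := g * ρ k * ρ (ep O) * (g * ρ k)⁻¹) ?_ z2 ?_ S.only
    fun γ hγ => ?_
  · rintro _ ⟨c, hc, rfl⟩
    obtain ⟨a, e⟩ := (S.stab (g⁻¹ * ρ (ep c) * g)).mp (by
      rw [mul_smul, mul_smul, show ρ (ep c) • g • α = g • α from hc, inv_smul_smul])
    have e1 : ρ (ep c) = g * ρ a * g⁻¹ := by rw [e]; group
    have e2 := congrArg ρ (hk a ⟨c, hc, e1⟩).eq
    simp only [map_mul, map_inv] at e2
    change ρ a * (ρ k * ρ (ep O) * _) = ρ k * ρ (ep O) * _ * _ at e2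
    rw [e1, show g * ρ a * g⁻¹ * (g * ρ k * ρ (ep O) * (g * ρ k)⁻¹) =
      g * (ρ a * (ρ k * ρ (ep O) * (ρ k)⁻¹)) * g⁻¹ by group, e2]
    group
  · simpa using sq_cj z2 (g * ρ k)⁻¹
  · have := S.only _ (smul_cj.mp hγ)
    rw [← smul_inv_smul (g * ρ k) γ, this, mul_smul, S.fix]

theorem stab_mon {A : AddSubgroup golayCode} {a : golayCode} (ha : a ∈ A) (h12 : wt a.1 = 12)
    {k : G} (hk : k ∈ centralizer (img ρ A : Set G)) (h : k • α = α) :
    ∃ π : M24, ∀ c, k * ρ (ep c) * k⁻¹ = ρ (ep (ac π c)) := by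
  obtain ⟨x, rfl⟩ := (S.stab k).mp h
  obtain ⟨d, hd, π, rfl⟩ := mon_eq (mon_of_dodecad (g := x) (hc := a.2) h12 (S.eq (by
    rw [map_mul, map_mul, map_inv, mul_inv_eq_iff_eq_mul]
    exact (hk _ ⟨a, ha, rfl⟩).symm)))
  refine ⟨π⁻¹, fun c => ?_⟩
  rw [← map_inv, ← map_mul, ← map_mul]
  congr 1
  have e : toCo0 π * ep c * (toCo0 π)⁻¹ = ep (ac π⁻¹ c) := conj_eps π c.2
  have e1 : ep ⟨d, hd⟩ * ep (ac π⁻¹ c) = ep (ac π⁻¹ c) * ep ⟨d, hd⟩ := by
    rw [← ep_add, ← ep_add, add_comm]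
  rw [← mul_inv_eq_iff_eq_mul.mpr e1, ← e]
  change _ = eps d hd * _ * (eps d hd)⁻¹
  group

theorem no_max [Finite G] [Finite Ω] {β : Ω} (hβ : β ≠ α) {a : golayCode} (ha : a ∈ St ρ β)
    (a0 : a ≠ 0) (a1 : a ≠ one) (hm : ∀ γ ≠ α, St ρ β ≤ St ρ γ → St ρ γ ≤ St ρ β) : False := by
  set A := St ρ β with hA
  have h1 : one ∈ A := by
    change ρ (ep one) • β = β
    rw [S.ep_one, one_smul]
  have h8 : ∀ c ∈ A, wt c.1 ≠ 8 := fun c hc e => hβ (S.oct e β hc)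
  have h12 : wt a.1 = 12 := by
    have b1 := h8 a ha
    have b2 := h8 _ (A.add_mem h1 ha)
    have b3 := wt_cases a.2
    have b4 : wt a.1 ≠ 0 := fun e => a0 (wt_zero e)
    have b5 : wt (one + a).1 ≠ 0 := fun e => a1 (by
      rw [← add_zero one, ← wt_zero e, ← add_assoc, two_code, zero_add])
    rw [wt_one] at b2 b5
    omega
  set X := centralizer (img ρ A : Set G) with hX
  obtain ⟨h, hh, hβ'⟩ := S.cent_trans β
  have nB : ((img ρ A).subgroupOf X).Normal := ⟨fun b hb g => by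
    rw [mem_subgroupOf] at hb ⊢
    rw [coe_mul, coe_mul, ← g.2 _ hb]
    simpa using hb⟩
  let φ := QuotientGroup.mk' ((img ρ A).subgroupOf X)
  have hφ : Function.Surjective φ := QuotientGroup.mk'_surjective _
  let e : golayCode → X := fun c => ⟨_, ep_cent A c⟩
  have K0 : ∀ u v : X, φ u = φ v → ∃ b ∈ A, v.1 = u.1 * ρ (ep b) := fun u v huv => by
    obtain ⟨b, hb, e⟩ := mem_subgroupOf.mp (QuotientGroup.eq.mp huv)
    exact ⟨b, hb, by rw [e]; simp⟩
  have K3 : ∀ (k u : X) (c : golayCode) (γ : Ω), c ∉ A → φ u = φ (k * e c * k⁻¹) → u.1 • γ = γ →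
      A ≤ St ρ γ → k.1⁻¹ • γ = α := fun k u c γ hc huv hu hγ => by
    obtain ⟨b, hb, e1⟩ := K0 _ _ huv
    have e2 : (k.1 * ρ (ep c) * k.1⁻¹) • γ = γ := by
      rw [show k.1 * ρ (ep c) * k.1⁻¹ = _ from e1, mul_smul, show ρ (ep b) • γ = γ from hγ hb, hu]
    by_contra hne
    refine hc (hm _ hne (fun d hd => ?_) (smul_cj.mp e2))
    refine smul_cj.mp ?_
    rw [← k.2 _ ⟨d, hd, rfl⟩, mul_inv_cancel_right]
    exact hγ hd
  have hα : A ≤ St ρ α := fun c _ => S.fix _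
  have e2 : ∀ c, e c * e c = 1 := fun c => Subtype.ext (by
    change ρ (ep c) * ρ (ep c) = 1
    rw [← map_mul, ep, eps_mul_self, map_one])
  have mem : ∀ {c d : golayCode}, ρ (ep c) = ρ (ep d) → d ∈ A → c ∈ A := fun {c d} h hd => by
    rcases S.ep_eq h with rfl | rfl
    exacts [hd, A.add_mem h1 hd]
  refine count_octads A h8 fun c hc d hd => ?_
  let H : X := ⟨h, hh⟩
  have y2 : H * e d * H⁻¹ * (H * e d * H⁻¹) = 1 := by simpa using sq_cj (e2 d) H⁻¹
  have yβ : (H * e d * H⁻¹).1 • β = β := smul_cj.mpr (by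
    rw [← hβ', inv_smul_smul]; exact S.fix _)
  rcases dihedral (u := φ (e c)) (v := φ (H * e d * H⁻¹)) (by rw [← map_mul, e2, map_one])
    (by rw [← map_mul, y2, map_one]) with ⟨j, h2⟩ | ⟨w, w1, -, w2, w3, -, i, j, h2⟩
  · obtain ⟨k, hk⟩ := hφ ((φ (e c) * φ (H * e d * H⁻¹)) ^ j)
    have h3 : φ (e d) = φ ((H⁻¹ * k⁻¹) * e c * (H⁻¹ * k⁻¹)⁻¹) := by
      rw [← hk] at h2
      simp only [map_mul, map_inv] at h2 ⊢
      rw [show φ (e d) = (φ H)⁻¹ * (φ H * φ (e d) * (φ H)⁻¹) * φ H by group, ← h2]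
      group
    have h4 := K3 _ _ c α hc h3 (S.fix _) hα
    obtain ⟨π, hπ⟩ := S.stab_mon ha h12 (H⁻¹ * k⁻¹).2 (inv_smul_eq_iff.mp h4).symm
    refine ⟨π, fun b hb => mem ?_ hb, ?_⟩
    · rw [← hπ, ← (H⁻¹ * k⁻¹).2 _ ⟨b, hb, rfl⟩, mul_inv_cancel_right]
    · obtain ⟨b, hb, e1⟩ := K0 _ _ h3
      refine mem ?_ hb
      rw [ep_add, map_mul, ← hπ]
      refine (congrArg (· * ρ (ep d)) e1).trans ?_
      change ρ (ep d) * ρ (ep b) * ρ (ep d) = _
      rw [← map_mul, ← map_mul, ← ep_add, ← ep_add, add_comm d, add_assoc, two_code, add_zero]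
  · obtain ⟨w, rfl⟩ := hφ w
    obtain ⟨k, hk⟩ := hφ ((φ (e c) * φ (H * e d * H⁻¹)) ^ i)
    have f1 : w.1⁻¹ • α = α := K3 w (e c) c α hc (by
      rw [map_mul, map_mul, map_inv, eq_mul_inv_iff_mul_eq]
      exact w2.eq.symm) (S.fix _) hα
    have f2 : (w * H).1⁻¹ • β = α := K3 (w * H) _ d β hd (by
      rw [show w * H * e d * (w * H)⁻¹ = w * (H * e d * H⁻¹) * w⁻¹ by group, map_mul φ (w * _),
        map_mul φ w, map_inv, eq_mul_inv_iff_mul_eq]
      exact w3.eq.symm) yβ le_rfl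
    have f3 : w.1 • α = α := (inv_smul_eq_iff.mp f1).symm
    have f4 : w.1 • β = β := by
      conv_lhs => rw [← hβ']
      exact (mul_smul _ _ _).symm.trans (inv_smul_eq_iff.mp f2).symm
    obtain ⟨k', c', hc', h3⟩ : ∃ (k' : X) (c' : golayCode), c' ∉ A ∧
        φ (w * e c) = φ (k' * e c' * k'⁻¹) := by
      rw [← hk] at h2
      rcases h2 with h2 | h2
      · exact ⟨k⁻¹, c, hc, by simpa only [map_mul, map_inv, inv_inv] using h2.1⟩
      · refine ⟨k⁻¹ * H, d, hd, (map_mul φ _ _).trans (h2.1.trans ?_)⟩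
        simp only [map_mul, map_inv]
        group
    have h4 := K3 _ _ c' α hc' h3 (by
      change (w.1 * ρ (ep c)) • α = α
      rw [mul_smul, S.fix, f3]) hα
    obtain ⟨π, hπ⟩ := S.stab_mon ha h12 k'.2 (inv_smul_eq_iff.mp h4).symm
    obtain ⟨b, hb, e1⟩ := K0 _ _ h3
    have e3 : ρ (ep (ac π c' + b + c)) = w.1 := by
      rw [ep_add, ep_add, map_mul, map_mul, ← hπ]
      refine (congrArg (· * ρ (ep b) * ρ (ep c)) e1).trans ?_
      change w.1 * ρ (ep c) * ρ (ep b) * ρ (ep b) * ρ (ep c) = _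
      rw [mul_assoc _ _ (ρ (ep b)), show ρ (ep b) * ρ (ep b) = 1 from congrArg Subtype.val (e2 b),
        mul_one, mul_assoc, show ρ (ep c) * ρ (ep c) = 1 from congrArg Subtype.val (e2 c), mul_one]
    refine (w1 ((QuotientGroup.eq_one_iff w).mpr (mem_subgroupOf.mpr ⟨_, ?_, e3⟩))).elim
    change ρ (ep _) • β = β
    rw [e3, f4]

theorem ep_only [Finite G] [Finite Ω] {c : golayCode} (h : ρ (ep c) ≠ 1) (β : Ω)
    (hβ : ρ (ep c) • β = β) : β = α := by
  by_contra hne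
  obtain ⟨γ, ⟨h1, a, ha, h2⟩, h3⟩ := Set.exists_max_image
    {γ : Ω | γ ≠ α ∧ ∃ a ∈ St ρ γ, ρ (ep a) ≠ 1} (fun γ => Nat.card (St ρ γ)) (Set.toFinite _)
    ⟨β, hne, c, hβ, h⟩
  refine S.no_max h1 ha (fun e => h2 ?_) (fun e => h2 (e ▸ S.ep_one)) fun δ hδ hle => ?_
  · rw [e]
    change ρ (eps 0 _) = 1
    rw [eps_zero, map_one]
  · exact (AddSubgroup.eq_of_le_of_card_ge hle (h3 δ ⟨hδ, a, hle ha, h2⟩)).ge

theorem all_eq [Finite G] [Finite Ω] {t : golayCode} (ht : wt t.1 = 12)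
    (hn : ¬ IsConj (ρ (ep O)) (ρ (ep t))) (β : Ω) : β = α := by
  by_contra hne
  obtain ⟨g, rfl⟩ := S.tr β
  have sq : ∀ c, ρ (ep c) * ρ (ep c) = 1 := fun c => by rw [← map_mul, ep, eps_mul_self, map_one]
  have t1 : ρ (ep t) ≠ 1 := fun e => by
    have := S.ep_eq (e.trans S.ep_one.symm)
    rw [two_code] at this
    rcases this with rfl | rfl <;> revert ht
    · rw [show wt one.1 = 24 by rw [← add_zero one, wt_one]; simp [wt, lf]]; decide
    · simp [wt, lf]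
  have One : ∀ {x : G} {δ : Ω} (k : G), (∀ γ, x • γ = γ → γ = δ) →
      ∀ γ, (k * x * k⁻¹) • γ = γ → γ = k • δ := fun k h γ hγ => by
    rw [← h _ (smul_cj.mp hγ), smul_inv_smul]
  have oy := One g (S.ep_only t1)
  rcases dihedral (sq O) (v := g * ρ (ep t) * g⁻¹) (by simpa using sq_cj (sq t) g⁻¹) with
    ⟨j, h2⟩ | ⟨v, v1, v2, v3, v4, -, i, j, h2⟩
  · exact hn ((h2 ▸ isConj_cj _ _).trans (isConj_iff.mpr ⟨g, rfl⟩).symm)
  have f1 : v • α = α := S.only _ (by rw [← mul_smul, ← v3.eq, mul_smul, S.fix])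
  have f2 : v • g • α = g • α := oy _ (by
    rw [← mul_smul, ← v4.eq, mul_smul, smul_cj.mpr (by rw [inv_smul_smul, S.fix])])
  obtain ⟨x, rfl⟩ := (S.stab v).mp f1
  have cj : ∀ {y : Co0}, IsConj y w4 → y * y = neg := fun {y} h => by
    obtain ⟨k, rfl⟩ := IsConj.exists_cj h.symm
    rw [show k⁻¹ * w4 * k * (k⁻¹ * w4 * k) = k⁻¹ * (w4 * w4) * k by group, w4_sq, mul_assoc,
      ← Subgroup.mem_center_iff.mp neg_mem_center k, inv_mul_cancel_left]
  rcases invol S.oddM ((S.ker _).mp ((map_mul ρ x x).trans v2)) with ⟨c, hc, h3⟩ | h3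
  · refine hne (S.only_cj (S.ep_only (c := ⟨c, hc⟩) fun e => v1 ?_) h3.symm _ f2)
    exact isConj_one_right.mp (e ▸ (ρ.map_isConj h3).symm)
  have h4 : x * ep O * x⁻¹ = ep O := (S.eq (by
    rw [map_mul, map_mul, map_inv, v3.eq, mul_inv_cancel_right])).resolve_right
    (conj_ne_neg_mul x O.2 (by rw [S.w8]; decide))
  have h5 : x * ep O * (x * ep O) = neg := by
    rw [(show Commute x (ep O) from mul_inv_eq_iff_eq_mul.mp h4).symm.mul_mul_mul_comm, cj h3, ep,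
      eps_mul_self, mul_one]
  rcases invol S.oddM (Or.inr h5) with ⟨c, hc, h6⟩ | h6
  · exact neg_ne_one (h5.symm.trans (sq_of_isConj (eps_mul_self hc) h6.symm))
  obtain ⟨k, hk⟩ := isConj_iff.mp (h3.trans h6.symm)
  obtain ⟨δ, hδ⟩ : ∃ δ : Ω, ∀ γ, (ρ x * ρ (ep O)) • γ = γ → γ = δ := by
    rcases h2 with h2 | h2 <;> rw [h2.1]
    · exact ⟨_, by simpa only [inv_inv] using One ((ρ (ep O) * (g * ρ (ep t) * g⁻¹)) ^ i)⁻¹ S.only⟩
    · exact ⟨_, by simpa only [inv_inv] using One ((ρ (ep O) * (g * ρ (ep t) * g⁻¹)) ^ i)⁻¹ oy⟩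
  rw [← map_mul, ← hk, map_mul, map_mul, map_inv] at hδ
  have g1 := hδ (ρ k • α) (smul_cj.mpr (by rw [inv_smul_smul, f1]))
  have g2 := hδ (ρ k • g • α) (smul_cj.mpr (by rw [inv_smul_smul, f2]))
  exact hne (MulAction.injective (ρ k) (g2.trans g1.symm))

end Setg

theorem dvd_of_cm [Finite G] {ρ : Co0 →* G} (hk : ∀ x, ρ x = 1 ↔ x = 1 ∨ x = neg) {y : Co0} {z : G}
    {p : ℕ} (hp : p.Prime) (h : Cm y p) (e : IsConj z (ρ y)) :
    p ∣ Nat.card (centralizer ({z} : Set G)) := by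
  have : Fact p.Prime := ⟨hp⟩
  obtain ⟨g, rfl⟩ := IsConj.exists_cj e.symm
  obtain ⟨u, h1, h2, h3⟩ := h
  have h4 : orderOf (ρ u) = p := orderOf_eq_prime
    (by rw [← map_pow, hk, ← Co.mem_center_iff]; exact h2) (by rw [Ne, hk, ← Co.mem_center_iff]; exact h3)
  have h5 : g⁻¹ * ρ u * g ∈ centralizer ({g⁻¹ * ρ y * g} : Set G) :=
    mem_centralizer_singleton_iff.mpr (commute_cj (h1.map ρ) g).eq
  have := orderOf_dvd_natCard (⟨_, h5⟩ : centralizer ({g⁻¹ * ρ y * g} : Set G))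
  rwa [orderOf_mk, show g⁻¹ * ρ u * g = MulAut.conj g⁻¹ (ρ u) by simp, MulEquiv.orderOf_eq, h4]
    at this

theorem surj' [Finite G] (ρ : Co0 →* G) (hk : ∀ x, ρ x = 1 ↔ x = 1 ∨ x = neg)
    {O : GolayPt → ZMod 2} (hO : O ∈ golayCode) (h8 : wt O = 8)
    (hC : centralizer {ρ (eps O hO)} ≤ ρ.range)
    (h11 : ¬ 11 ∣ Nat.card (centralizer ({ρ (eps O hO)} : Set G)))
    (h13 : ¬ 13 ∣ Nat.card (centralizer ({ρ (eps O hO)} : Set G)))
    (hS : Odd (Mon.map ρ).index) : Function.Surjective ρ := by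
  have h1 := relIndex_mul_index (map_le_range ρ Mon)
  rw [← h1, Nat.odd_mul, ← index_comap, comap_map_eq, sup_eq_left.mpr (fun x hx => by
    rcases (hk x).mp hx with rfl | rfl
    exacts [Mon.one_mem, neg_mem_Mon])] at hS
  have stab : ∀ g : G, g • ((1 : G) : G ⧸ ρ.range) = (1 : G) ↔ g ∈ ρ.range := fun g => by
    change ((g * 1 : G) : G ⧸ ρ.range) = (1 : G) ↔ _
    rw [QuotientGroup.eq, mul_one, mul_one, inv_mem_iff]
  have S : Setg ρ ((1 : G) : G ⧸ ρ.range) ⟨O, hO⟩ := by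
    refine ⟨hk, hS.2, hS.1, fun β => MulAction.exists_smul_eq G _ β, stab, h8, fun β hβ => ?_⟩
    obtain ⟨g, rfl⟩ := MulAction.exists_smul_eq G ((1 : G) : G ⧸ ρ.range) β
    obtain ⟨y, e⟩ := (stab (g⁻¹ * ρ (eps O hO) * g)).mp (by
      rw [mul_smul, mul_smul, show ρ (eps O hO) • _ = _ from hβ, inv_smul_smul])
    have c0 : IsConj (ρ (eps O hO)) (ρ y) := e ▸ isConj_cj _ _
    have fin : ∀ x, ρ x = ρ y → IsConj (eps O hO) x →
        g • ((1 : G) : G ⧸ ρ.range) = (1 : G) := fun x hx h => by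
      obtain ⟨k, rfl⟩ := isConj_iff.mp h
      rw [e, map_mul, map_mul, map_inv] at hx
      refine (stab g).mpr ((ρ.range.mul_mem_cancel_right (x := ρ k) ⟨k, rfl⟩).mp
        (hC (mem_centralizer_singleton_iff.mpr ?_)))
      rw [mul_assoc, mul_inv_eq_iff_eq_mul.mp hx]
      group
    rcases invol hS.1 ((hk _).mp ((map_mul ρ y y).trans (sq_of_isConj (by
      rw [← map_mul, eps_mul_self, map_one]) c0))) with ⟨c, hc, h2⟩ | h2
    · have z1 : ∀ d hd, wt d = 0 → ¬ IsConj (ρ y) (ρ (eps d hd)) := fun d hd h0 h => by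
        have e0 : d = 0 := congrArg Subtype.val (wt_zero (c := ⟨d, hd⟩) h0)
        subst e0
        rw [eps_zero, map_one] at h
        rcases (hk _).mp (isConj_one_left.mp (c0.trans h)) with e1 | e1
        · rw [eps_inj (e1.trans eps_zero.symm)] at h8
          simp [wt, lf] at h8
        · rw [eps_inj (e1.trans neg_eq), ← add_zero 1, wt_one_add] at h8
          simp [wt, lf] at h8
      have n1 : ρ neg = 1 := (hk _).mpr (Or.inr rfl)
      have h3 := isConj_neg h2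
      rw [neg_mul_eps] at h3
      have n2 : ρ (neg * y) = ρ y := by rw [map_mul, n1, one_mul]
      rcases wt_cases hc with w | w | w | w | w
      · exact absurd (ρ.map_isConj h2) (z1 c hc w)
      · exact fin y rfl ((isConj_iff.mpr (conj_wt hc hO (w.trans h8.symm) (Or.inl w))).trans h2.symm)
      · exact absurd (dvd_of_cm hk (by norm_num) ((cm_dodecad hc w).of_conj h2) c0) h11
      · have w' : wt (1 + c) = 8 := by rw [wt_one_add, w]; rfl
        exact fin _ n2 ((isConj_iff.mpr (conj_wt _ hO (w'.trans h8.symm) (Or.inl w'))).trans h3.symm)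
      · exact absurd (n2 ▸ ρ.map_isConj h3) (z1 _ _ (by rw [wt_one_add, w]; rfl))
    · exact absurd (dvd_of_cm hk (by norm_num) (cm_w4.of_conj h2) c0) h13
  intro g
  refine (stab g).mp (S.all_eq (t := ⟨_, D0_mem⟩) wt_D0 (fun h => h11 ?_) _)
  exact dvd_of_cm hk (by norm_num) (cm_dodecad D0_mem wt_D0) h

/-- The last step of the recognition of `Co₁`. -/
theorem surj [Finite G] (π : Spor.Co1 →* G) (hπ : Function.Injective π)
    {O : GolayPt → ZMod 2} (hO : O ∈ golayCode) (h8 : wt O = 8)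
    (hC : centralizer {π (QuotientGroup.mk (eps O hO))} ≤ π.range)
    (h11 : ¬ 11 ∣ Nat.card (centralizer ({π (QuotientGroup.mk (eps O hO))} : Set G)))
    (h13 : ¬ 13 ∣ Nat.card (centralizer ({π (QuotientGroup.mk (eps O hO))} : Set G)))
    (hS : Odd (Mon.map (π.comp (QuotientGroup.mk' _))).index) : Function.Surjective π := by
  have := surj' (π.comp (QuotientGroup.mk' _)) (fun x => by
    rw [MonoidHom.comp_apply, map_eq_one_iff π hπ, QuotientGroup.mk'_apply,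
      QuotientGroup.eq_one_iff, Co.mem_center_iff]) hO h8 (fun x hx => by
      obtain ⟨y, rfl⟩ := hC hx
      obtain ⟨y, rfl⟩ := QuotientGroup.mk_surjective y
      exact ⟨y, rfl⟩) h11 h13 hS
  exact Function.Surjective.of_comp (g := QuotientGroup.mk' _) this

end Cfsg.Co
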