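import Cfsg.Agent.Co.L4
import Cfsg.Agent.H1.Hall
import Cfsg.Agent.FT.Main

/-! No subgroup of `Co₀` of odd order with small Sylow 5-subgroups has order divisible by 115. -/

set_option autoImplicit false
set_option maxRecDepth 100000

namespace Cfsg.Co

open Polynomial Subgroup

theorem pow_of_115 {A : Matrix (Fin 24) (Fin 24) ℚ} (h : A ^ 115 = 1) : A ^ 5 = 1 ∨ A ^ 23 = 1 := by
  have hd : (minpoly ℚ A).natDegree ≤ 24 := by
    have := natDegree_le_of_dvd (Matrix.minpoly_dvd_charpoly A) A.charpoly_monic.ne_zero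
    rwa [Matrix.charpoly_natDegree_eq_dim, Fintype.card_fin] at this
  have h0 : minpoly ℚ A ≠ 0 := minpoly.ne_zero (Matrix.isIntegral A)
  have h1 : minpoly ℚ A ∣ X ^ 115 - 1 := minpoly.dvd _ _ (by simp [h])
  have key : ∀ n, minpoly ℚ A ∣ X ^ n - 1 → A ^ n = 1 := fun n ⟨q, hq⟩ => by
    have := congrArg (aeval A) hq
    simpa [sub_eq_zero] using this
  have e : ∀ p, p.Prime → (X ^ p - 1 : ℚ[X]) = cyclotomic 1 ℚ * cyclotomic p ℚ := fun p hp => by
    rw [← prod_cyclotomic_eq_X_pow_sub_one hp.pos, hp.divisors, Finset.prod_pair hp.one_lt.ne]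
  rw [← prod_cyclotomic_eq_X_pow_sub_one (by norm_num),
    show Nat.divisors 115 = {1, 5, 23, 115} by decide +kernel, Finset.prod_insert (by decide),
    Finset.prod_insert (by decide), Finset.prod_pair (by decide), ← mul_assoc, ← mul_assoc] at h1
  have cp : ∀ n, 0 < n → ¬ cyclotomic n ℚ ∣ minpoly ℚ A → IsCoprime (minpoly ℚ A) (cyclotomic n ℚ) :=
    fun n hn a => ((cyclotomic.irreducible_rat hn).coprime_iff_not_dvd.mpr a).symm
  have h2 := (cp 115 (by norm_num) fun a => by
    have := natDegree_le_of_dvd a h0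
    rw [natDegree_cyclotomic, show Nat.totient 115 = 88 by decide +kernel] at this
    omega).dvd_of_dvd_mul_right h1
  by_cases a : cyclotomic 23 ℚ ∣ minpoly ℚ A
  · by_cases b : cyclotomic 5 ℚ ∣ minpoly ℚ A
    · have := natDegree_le_of_dvd ((cyclotomic.isCoprime_rat (by norm_num)).mul_dvd a b) h0
      rw [natDegree_mul (cyclotomic_ne_zero _ _) (cyclotomic_ne_zero _ _), natDegree_cyclotomic,
        natDegree_cyclotomic, show Nat.totient 23 = 22 by decide +kernel,
        show Nat.totient 5 = 4 by decide +kernel] at this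
      omega
    · rw [mul_right_comm] at h2
      exact Or.inr (key _ (e 23 (by norm_num) ▸ (cp 5 (by norm_num) b).dvd_of_dvd_mul_right h2))
  · exact Or.inl (key _ (e 5 (by norm_num) ▸ (cp 23 (by norm_num) a).dvd_of_dvd_mul_right h2))

theorem orderOf_ne_115 (g : Co0) : orderOf g ≠ 115 := fun h => by
  let f : Co0 →* Matrix (Fin 24) (Fin 24) ℚ :=
    ((Int.castRingHom ℚ).mapMatrix : _ →+* _).toMonoidHom.comp muZ
  have hf : Function.Injective f :=
    (Matrix.map_injective (Int.cast_injective (α := ℚ))).comp muZ_inj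
  have := pow_of_115 (A := f g) (by rw [← map_pow, ← h, pow_orderOf_eq_one, map_one])
  rw [← map_pow, ← map_pow, ← f.map_one, hf.eq_iff, hf.eq_iff, ← orderOf_dvd_iff_pow_eq_one,
    ← orderOf_dvd_iff_pow_eq_one, h] at this
  omega

theorem exists_115 {H : Type} [Group H] [Finite H] (ho : Odd (Nat.card H)) (h5 : 5 ∣ Nat.card H)
    (h23 : 23 ∣ Nat.card H) (hd : Nat.card H ∣ 495766656000) : ∃ g : H, orderOf g = 115 := by
  have := FT.oddOrder H ho
  have f5 : Fact (Nat.Prime 5) := ⟨by norm_num⟩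
  have f23 : Fact (Nat.Prime 23) := ⟨by norm_num⟩
  obtain ⟨K, k1, k2⟩ := H1.exists_isPiHall {5, 23} H
  have e := K.card_mul_index
  have a5 : 5 ∣ Nat.card K :=
    ((f5.1.dvd_mul).mp (e ▸ h5)).resolve_right (k2 5 f5.1 (by simp))
  have a23 : 23 ∣ Nat.card K :=
    ((f23.1.dvd_mul).mp (e ▸ h23)).resolve_right (k2 23 f23.1 (by simp))
  have b : Nat.card K ∣ 23 * 125 := by
    refine Nat.Coprime.dvd_of_dvd_mul_left (m := 172440576) ?_ (K.card_subgroup_dvd_card.trans hd)
    refine Nat.coprime_of_dvd fun p hp h1 h2 => ?_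
    rcases k1 p hp h1 with rfl | rfl <;> omega
  obtain ⟨P⟩ : Nonempty (Sylow 23 K) := inferInstance
  have c : Nat.card P = 23 := by
    obtain ⟨n, hn⟩ := P.2.exists_card_eq
    have c1 : Nat.card P ∣ 23 * 125 := P.1.card_subgroup_dvd_card.trans b
    have c2 := P.dvd_card_of_dvd_card a23
    rw [hn] at c1 c2 ⊢
    match n with
    | 0 => omega
    | 1 => rfl
    | n + 2 => exact absurd ((pow_dvd_pow 23 (by omega : 2 ≤ n + 2)).trans c1) (by norm_num)
  have d : Nat.card (Sylow 23 K) = 1 := by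
    have d1 := card_sylow_modEq_one 23 K
    have d2 : Nat.card (Sylow 23 K) ∣ 5 ^ 3 := P.card_dvd_index.trans
      (Nat.dvd_of_mul_dvd_mul_left (k := 23) (by norm_num) (by
        have := P.1.card_mul_index
        rw [c] at this
        rwa [this]))
    obtain ⟨i, hi, e⟩ := (Nat.dvd_prime_pow f5.1).mp d2
    rw [e] at d1 ⊢
    interval_cases i <;> first | rfl | exact absurd d1 (by decide)
  have : Subsingleton (Sylow 23 K) := (Nat.card_eq_one_iff_unique.mp d).1
  have hn : P.1.Normal := P.normal_of_subsingleton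
  obtain ⟨y, hy⟩ := exists_prime_orderOf_dvd_card' 5 a5
  obtain ⟨x, hx⟩ := exists_prime_orderOf_dvd_card' 23 (G := P) (dvd_of_eq c.symm)
  have := isCyclic_of_prime_card c
  have h1 : (MulAut.conjNormal y : MulAut P.1) = 1 := by
    rw [← orderOf_eq_one_iff]
    have h2 : orderOf (MulAut.conjNormal y : MulAut P.1) ∣ 5 := hy ▸ orderOf_map_dvd _ y
    have h3 := orderOf_dvd_natCard (MulAut.conjNormal y : MulAut P.1)
    rw [IsCyclic.card_mulAut, c, show Nat.totient 23 = 22 by decide +kernel] at h3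
    exact Nat.eq_one_of_dvd_coprimes (by norm_num : Nat.Coprime 5 22) h2 h3
  have h4 : Commute y x.1 := mul_inv_eq_iff_eq_mul.mp
    (congrArg Subtype.val (DFunLike.congr_fun h1 x))
  refine ⟨(y * x.1 : K), ?_⟩
  rw [orderOf_coe, h4.orderOf_mul_eq_mul_orderOf_of_coprime (by rw [hy, orderOf_coe, hx]; norm_num),
    hy, orderOf_coe, hx]

/-- The inclusion of `Co₃` in `Co₀`. -/
def inc3 : Spor.Co3 →* Co0 := inclusion inf_le_left

theorem inc3_inj : Function.Injective inc3 := inclusion_injective _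

instance finite_Co3 : Finite Spor.Co3 := Finite.of_injective _ inc3_inj

theorem no_odd (hM : Nat.card Spor.Co3 = 495766656000) (H : Subgroup Spor.Co3)
    (ho : Odd (Nat.card H)) (h5 : 5 ∣ Nat.card H) (h23 : 23 ∣ Nat.card H) : False := by
  obtain ⟨g, hg⟩ := exists_115 ho h5 h23 (hM ▸ H.card_subgroup_dvd_card)
  exact orderOf_ne_115 (inc3 g.1) (by rw [orderOf_injective _ inc3_inj, orderOf_coe, hg])

end Cfsg.Co
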