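import Cfsg.Agent.Co.F1
import Cfsg.Agent.H5.ZStar
import Cfsg.Agent.H6.HNR.Fis2
import Cfsg.Agent.L0.Subnormal

/-! The last step of the recognition of `Co₃`. -/

set_option autoImplicit false

namespace Cfsg.Co

open Subgroup Cfsg.H6

variable {G : Type*} [Group G]

/-- An isolated involution: the index of the core divides the order of the centraliser. -/
theorem index_core_dvd [Finite G] {u : G} (hu : orderOf u = 2) (h : IsIsolated u) :
    (pPrimeCore 2 G).index ∣ Nat.card (centralizer ({u} : Set G)) := by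
  have hz := H5.zstar hu h
  have u2 : u * u = 1 := by rw [← pow_two, ← hu, pow_orderOf_eq_one]
  have ui : u⁻¹ = u := inv_eq_of_mul_eq_one_right u2
  have hn : (pPrimeCore 2 G).Normal := sSup_normal _ fun _ h => h.1
  have h1 : centralizer ({u} : Set G) ⊔ pPrimeCore 2 G = ⊤ := by
    rw [eq_top_iff]
    intro g _
    have ho := hz g
    set o := g * u * g⁻¹ * u⁻¹ with e
    obtain ⟨k, hk⟩ : Odd (Nat.card (pPrimeCore 2 G)) :=
      Nat.coprime_two_right.mp (L0.coprime_card_pPrimeCore 2)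
    have h2 : o ^ (2 * k + 1) = 1 := by
      rw [← hk]
      exact congrArg Subtype.val (pow_card_eq_one' (x := (⟨o, ho⟩ : pPrimeCore 2 G)))
    have h3 : SemiconjBy u o⁻¹ o := by
      show u * o⁻¹ = o * u
      rw [e, mul_inv_rev, inv_inv, ← mul_assoc, u2, one_mul, inv_mul_cancel_right,
        inv_eq_of_mul_eq_one_right (show g * u * g⁻¹ * (g * u * g⁻¹) = 1 by
          simpa only [inv_inv] using sq_cj u2 g⁻¹)]
    have h4 : o ^ (k + 1) * u * (o ^ (k + 1))⁻¹ = g * u * g⁻¹ := by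
      rw [mul_assoc, ← inv_pow, (h3.pow_right (k + 1)).eq, ← mul_assoc, ← pow_add,
        show k + 1 + (k + 1) = 2 * k + 1 + 1 by ring, pow_succ, h2, one_mul, e,
        inv_mul_cancel_right]
    have h5 : (o ^ (k + 1))⁻¹ * g ∈ centralizer ({u} : Set G) :=
      mem_centralizer_singleton_iff.mpr (by
        calc _ = (o ^ (k + 1))⁻¹ * (g * u * g⁻¹) * g := by group
          _ = _ := by rw [← h4]; group)
    simpa using mul_mem (mem_sup_right (pow_mem ho (k + 1))) (mem_sup_left h5)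
  rw [← relIndex_top_right, ← h1, relIndex_sup_right]
  exact relIndex_dvd_card _ _

section

variable {M : Subgroup G} {T : G}

/-- The properties of the class of `T` that are used. -/
structure Cls3 (M : Subgroup G) (T : G) : Prop where
  t2 : T * T = 1
  t1 : T ≠ 1
  cen : centralizer {T} ≤ M
  fus : ∀ s ∈ M, IsConj T s → ∃ m ∈ M, m * T * m⁻¹ = s
  prod : ∀ s, IsConj T s → Commute s T → s ≠ T → IsConj T (T * s)

namespace Cls3

variable (h : Cls3 M T)
include h

theorem tM : T ∈ M := h.cen (mem_centralizer_singleton_iff.mpr rfl)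

theorem sq {s : G} (hs : IsConj T s) : s * s = 1 := by
  obtain ⟨g, rfl⟩ := IsConj.exists_cj hs
  exact sq_cj h.t2 g

omit h in
theorem fix_iff {s g : G} : s • (g : G ⧸ M) = g ↔ g⁻¹ * s * g ∈ M := by
  rw [MulAction.Quotient.smul_mk, eq_comm, QuotientGroup.eq, smul_eq_mul, mul_assoc]

omit h in
theorem fix_one {s : G} : s • ((1 : G) : G ⧸ M) = (1 : G) ↔ s ∈ M := by
  rw [fix_iff, inv_one, one_mul, mul_one]

theorem ex {s : G} (hs : IsConj T s) : ∃ γ : G ⧸ M, s • γ = γ := by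
  obtain ⟨g, rfl⟩ := isConj_iff.mp hs
  exact ⟨g, fix_iff.mpr (by simpa [mul_assoc] using h.tM)⟩

theorem uq {s : G} (hs : IsConj T s) {γ δ : G ⧸ M} (h1 : s • γ = γ) (h2 : s • δ = δ) : γ = δ := by
  obtain ⟨a, rfl⟩ := QuotientGroup.mk_surjective γ
  obtain ⟨b, rfl⟩ := QuotientGroup.mk_surjective δ
  obtain ⟨m, hm, e1⟩ := h.fus _ (fix_iff.mp h1) (hs.trans (isConj_cj s a))
  obtain ⟨n, hn, e2⟩ := h.fus _ (fix_iff.mp h2) (hs.trans (isConj_cj s b))
  have : m⁻¹ * (a⁻¹ * b) * n ∈ M := h.cen (mem_centralizer_singleton_iff.mpr (by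
    calc _ = m⁻¹ * a⁻¹ * b * (n * T * n⁻¹) * n := by group
      _ = m⁻¹ * (a⁻¹ * s * a) * a⁻¹ * b * n := by rw [e2]; group
      _ = _ := by rw [← e1]; group))
  exact QuotientGroup.eq.mpr (by simpa [mul_assoc] using mul_mem (mul_mem hm this) (inv_mem hn))

theorem comm {x s : G} (hx : IsConj T x) (e : Commute x s) {γ : G ⧸ M} (h1 : x • γ = γ) :
    s • γ = γ :=
  h.uq hx (by rw [← mul_smul, e.eq, mul_smul, h1]) h1

theorem prod' {x s : G} (hx : IsConj T x) (hs : IsConj T s) (e : Commute s x) (hne : s ≠ x) :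
    IsConj T (x * s) := by
  obtain ⟨g, rfl⟩ := isConj_iff.mp hx
  have := h.prod (g⁻¹ * s * g) (hs.trans (isConj_cj s g)) (by
    calc g⁻¹ * s * g * T = g⁻¹ * (s * (g * T * g⁻¹)) * g := by group
      _ = _ := by rw [e.eq]; group) fun a => hne (by rw [← a]; group)
  exact this.trans (isConj_iff.mpr ⟨g, by group⟩)

theorem swap [Finite G] {x s : G} (hx : IsConj T x) (hs : IsConj T s) {α β : G ⧸ M} (hne : α ≠ β)
    (h1 : x • α = α) (h2 : s • β = β) :
    ∃ u, IsConj T u ∧ u * x * u⁻¹ = s ∧ u • α = β ∧ u • β = α := by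
  have x2 := h.sq hx
  have s2 := h.sq hs
  rcases dihedral x2 s2 with ⟨j, e⟩ | ⟨c, c1, c2, cx, cs, -, i, j, e⟩
  · have h3 : SemiconjBy x (x * s)⁻¹ (x * s) := by
      show x * (x * s)⁻¹ = x * s * x
      rw [mul_inv_rev, inv_eq_of_mul_eq_one_right x2, inv_eq_of_mul_eq_one_right s2, mul_assoc]
    have h4 : (x * s)⁻¹ * x = x * (x * s) := by simpa using h3.inv_right.eq.symm
    have u1 : ∀ j, IsConj T (x * (x * s) ^ j) ∧ IsConj T (x * (x * s) ^ (j + 1)) := fun j => by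
      induction j with
      | zero => exact ⟨by simpa using hx, by rwa [zero_add, pow_one, ← mul_assoc, x2, one_mul]⟩
      | succ j ih =>
        refine ⟨ih.2, ?_⟩
        have := ih.1.trans (isConj_cj _ (x * s))
        rwa [← mul_assoc (x * s)⁻¹, h4, mul_assoc x, mul_assoc x, ← pow_succ', ← pow_succ] at this
    have u2 : x * (x * s) ^ j * (x * (x * s) ^ j) = 1 := by
      calc _ = x * ((x * s) ^ j * x) * (x * s) ^ j := by group
        _ = _ := by rw [← (h3.pow_right j).eq, ← mul_assoc, x2, one_mul, inv_pow, inv_mul_cancel]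
    have ui := inv_eq_of_mul_eq_one_right u2
    have e1 : x * (x * s) ^ j * x * (x * (x * s) ^ j)⁻¹ = s := by
      calc _ = (x * (x * s) ^ j)⁻¹ * x * (x * (x * s) ^ j) := by rw [ui]
        _ = ((x * s) ^ j)⁻¹ * x * (x * s) ^ j := by group
        _ = s := e
    have u3 := (u1 j).1
    generalize x * (x * s) ^ j = u at u2 ui e1 u3
    have a1 : u • α = β := h.uq hs (by rw [← e1, mul_smul, inv_smul_smul, mul_smul, h1]) h2
    exact ⟨u, u3, e1, a1, by rw [← a1, ← mul_smul, u2, one_smul]⟩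
  · have h3 : IsConj T (c * x) := by
      rcases e with ⟨e, -⟩ | ⟨e, -⟩ <;> rw [e]
      exacts [hx.trans (isConj_cj _ _), hs.trans (isConj_cj _ _)]
    have h4 := h.prod' hx h3 (cx.mul_left (Commute.refl x)) (by simpa using c1)
    rw [← cx.symm.eq, ← mul_assoc, x2, one_mul] at h4
    exact absurd (h.uq h4 (h.comm hx cx.symm h1) (h.comm hs cs.symm h2)) hne

/-- The stabiliser of a pair of points. -/
def pair (α β : G ⧸ M) : Subgroup G where
  carrier := {g | (g • α = α ∧ g • β = β) ∨ (g • α = β ∧ g • β = α)}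
  one_mem' := Or.inl ⟨one_smul _ _, one_smul _ _⟩
  mul_mem' := by
    rintro a b (⟨a1, a2⟩ | ⟨a1, a2⟩) (⟨b1, b2⟩ | ⟨b1, b2⟩) <;>
      simp only [Set.mem_ofPred_eq, mul_smul, a1, a2, b1, b2, and_self, true_or, or_true]
  inv_mem' := by
    rintro a (⟨a1, a2⟩ | ⟨a1, a2⟩)
    · exact Or.inl ⟨inv_smul_eq_iff.mpr a1.symm, inv_smul_eq_iff.mpr a2.symm⟩
    · exact Or.inr ⟨inv_smul_eq_iff.mpr a2.symm, inv_smul_eq_iff.mpr a1.symm⟩

theorem exists_odd [Finite G] (hM : M ≠ ⊤) : ∃ O ≤ M, Odd (Nat.card O) ∧ ∃ a,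
    a ∣ Nat.card (centralizer ({T} : Set G)) ∧
      (centralizer ({T} : Set G)).relIndex M ∣ Nat.card O * a := by
  obtain ⟨g, hg⟩ : ∃ g, g ∉ M := by simpa [eq_top_iff'] using hM
  have hne : ((1 : G) : G ⧸ M) ≠ g := fun e => hg (by simpa using QuotientGroup.eq.mp e)
  set α : G ⧸ M := ((1 : G) : G ⧸ M)
  set β : G ⧸ M := (g : G ⧸ M)
  have hs : IsConj T (g * T * g⁻¹) := isConj_iff.mpr ⟨g, rfl⟩
  have h2 : (g * T * g⁻¹) • β = β := fix_iff.mpr (by simpa [mul_assoc] using h.tM)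
  obtain ⟨u, u1, u2, u3, u4⟩ := h.swap (IsConj.refl T) hs hne (fix_one.mpr h.tM) h2
  have hu : u ∈ pair α β := Or.inr ⟨u3, u4⟩
  have o2 : orderOf (⟨u, hu⟩ : pair α β) = 2 := by
    rw [← orderOf_coe]
    refine orderOf_eq_prime (by rw [pow_two, h.sq u1]) fun e => h.t1 ?_
    rw [show u = 1 from e] at u1
    exact isConj_one_left.mp u1
  have iso : IsIsolated (⟨u, hu⟩ : pair α β) := fun k hk => by
    by_contra c
    have c1 : IsConj T (k.1 * u * k.1⁻¹) := u1.trans (isConj_iff.mpr ⟨k.1, rfl⟩)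
    have c2 := h.prod' u1 c1 (congrArg Subtype.val hk.symm.eq) fun e => c (Subtype.ext e)
    have c3 : (k.1 * u * k.1⁻¹) • α = β ∧ (k.1 * u * k.1⁻¹) • β = α := by
      rcases k.2 with ⟨a, b⟩ | ⟨a, b⟩
      · simp only [mul_smul, inv_smul_eq_iff.mpr a.symm, inv_smul_eq_iff.mpr b.symm, u3, u4, a, b,
          and_self]
      · simp only [mul_smul, inv_smul_eq_iff.mpr a.symm, inv_smul_eq_iff.mpr b.symm, u3, u4, a, b,
          and_self]
    exact hne (h.uq c2 (by rw [mul_smul, c3.1, u4]) (by rw [mul_smul, c3.2, u3]))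
  have ho : Odd (Nat.card (pPrimeCore 2 (pair α β))) :=
    Nat.coprime_two_right.mp (L0.coprime_card_pPrimeCore 2)
  refine ⟨(pPrimeCore 2 (pair α β)).map (pair α β).subtype, ?_, by rwa [card_subtype],
    (pPrimeCore 2 (pair α β)).index, (index_core_dvd o2 iso).trans ?_, ?_⟩
  · rintro _ ⟨o, ho', rfl⟩
    obtain ⟨k, hk⟩ := ho
    have h3 : o.1 ^ (2 * k + 1) = 1 := by
      rw [← hk]
      exact congrArg (fun x => x.1.1) (pow_card_eq_one' (x := (⟨o, ho'⟩ : pPrimeCore 2 _)))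
    have h4 : o.1 ^ 2 ∈ M := fix_one.mp (by
      rcases o.2 with ⟨a, b⟩ | ⟨a, b⟩ <;> rw [pow_two, mul_smul, a] <;> assumption)
    rw [pow_succ, pow_mul] at h3
    show o.1 ∈ M
    rw [eq_inv_of_mul_eq_one_right h3]
    exact inv_mem (pow_mem h4 k)
  · obtain ⟨c, rfl⟩ := isConj_iff.mp u1
    refine card_dvd_of_injective (((MulAut.conj c⁻¹).toMonoidHom.comp ((pair α β).subtype.comp
      (Subgroup.subtype _))).codRestrict _ fun x => ?_) fun x y e => ?_
    · have := congrArg Subtype.val (mem_centralizer_singleton_iff.mp x.2)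
      refine mem_centralizer_singleton_iff.mpr ?_
      change c⁻¹ * x.1.1 * c⁻¹⁻¹ * T = T * (c⁻¹ * x.1.1 * c⁻¹⁻¹)
      change x.1.1 * (c * T * c⁻¹) = c * T * c⁻¹ * x.1.1 at this
      calc _ = c⁻¹ * (x.1.1 * (c * T * c⁻¹)) * c := by group
        _ = _ := by rw [this]; group
    · exact Subtype.ext (Subtype.ext ((MulAut.conj c⁻¹).injective (congrArg Subtype.val e)))
  · rw [card_subtype, card_mul_index]
    let φ : G →* Equiv.Perm G := (MulAut.toPerm G).comp MulAut.conj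
    have hφ : ∀ k x, (φ k)⁻¹ x = k⁻¹ * x * k := fun k x => rfl
    have h3 : fixS φ [T] = centralizer {T} := Subgroup.ext fun k => by
      rw [mem_centralizer_singleton_iff, ← mul_inv_eq_iff_eq_mul]
      exact List.forall_mem_singleton
    have h4 : orb φ M T = orb φ (M ⊓ pair α β) T := by
      refine Set.Subset.antisymm ?_ (orb_mono φ inf_le_left T)
      rintro _ ⟨m, hm, rfl⟩
      rw [hφ]
      obtain ⟨v, -, v2, v3, v4⟩ := h.swap (isConj_cj T m) hs hne
        (fix_one.mpr (mul_mem (mul_mem (inv_mem hm) h.tM) hm)) h2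
      have a : (u⁻¹ * v) • α = α := by rw [mul_smul, v3, inv_smul_eq_iff, u3]
      refine ⟨u⁻¹ * v, ⟨fix_one.mp a, Or.inl ⟨a, by rw [mul_smul, v4, inv_smul_eq_iff, u4]⟩⟩, ?_⟩
      rw [hφ]
      calc _ = v⁻¹ * (u * T * u⁻¹) * v := by group
        _ = _ := by rw [u2, ← v2]; group
    rw [← h3, relIndex_fixS, h4, ← relIndex_fixS]
    exact (relIndex_dvd_card _ _).trans (card_dvd_of_le inf_le_right)

end Cls3

end

theorem surj3' [Finite G] (hM : Nat.card Spor.Co3 = 495766656000) (Φ : Spor.Co3 →* G)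
    (hΦ : Function.Injective Φ) (t y v : Spor.Co3) (ht : orderOf t = 2)
    (hC : centralizer {Φ t} ≤ Φ.range) (hc : Nat.card (centralizer ({Φ t} : Set G)) = 2903040)
    (hcls : ∀ s, s * s = 1 → Commute s (Φ t) → s = 1 ∨ s = Φ t ∨
      (∃ c, Commute c (Φ t) ∧ c * s * c⁻¹ = Φ y) ∨ ∃ c, Commute c (Φ t) ∧ c * s * c⁻¹ = Φ v)
    (hv : ¬ IsConj (Φ t) (Φ v)) (hy : IsConj t y) (hy2 : IsConj t (t * y)) :
    Function.Surjective Φ := by
  have t2 : Φ t * Φ t = 1 := by rw [← map_mul, ← pow_two, ← ht, pow_orderOf_eq_one, map_one]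
  have t1 : Φ t ≠ 1 := fun e => by
    rw [(injective_iff_map_eq_one Φ).mp hΦ t e, orderOf_one] at ht
    omega
  have hR : Nat.card Φ.range = 495766656000 :=
    (Nat.card_congr (MonoidHom.ofInjective hΦ).toEquiv).symm.trans hM
  have hi : (centralizer ({Φ t} : Set G)).relIndex Φ.range = 170775 := by
    have := card_mul_index ((centralizer ({Φ t} : Set G)).subgroupOf Φ.range)
    rw [Nat.card_congr (subgroupOfEquivOfLe hC).toEquiv, hc, hR] at this
    unfold relIndex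
    omega
  have key : ∀ s, IsConj (Φ t) s → Commute s (Φ t) →
      s = Φ t ∨ ∃ c, Commute c (Φ t) ∧ c * s * c⁻¹ = Φ y := fun s hs e => by
    obtain ⟨g, rfl⟩ := IsConj.exists_cj hs
    rcases hcls _ (sq_cj t2 g) e with a | a | a | ⟨c, -, a⟩
    · exact absurd (isConj_one_left.mp (a ▸ hs)) t1
    · exact Or.inl a
    · exact Or.inr a
    · exact absurd (hs.trans (isConj_iff.mpr ⟨c, a⟩)) hv
  have h : Cls3 Φ.range (Φ t) := by
    refine ⟨t2, t1, hC, fun s hs e => ?_, fun s hs e hne => ?_⟩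
    · obtain ⟨m, hm⟩ := exists_conj_mem_of_odd (k := 1) (x := (⟨s, hs⟩ : Φ.range))
        (T := (centralizer ({Φ t} : Set G)).subgroupOf Φ.range)
        (by rw [show index _ = _ from hi]; decide) (Subtype.ext (by
          obtain ⟨g, rfl⟩ := IsConj.exists_cj e
          simpa [pow_two] using sq_cj t2 g))
      rcases key (m.1⁻¹ * s * m.1) (e.trans (isConj_cj _ _))
        (mem_centralizer_singleton_iff.mp hm) with a | ⟨c, c1, a⟩
      · exact ⟨m.1, m.2, by rw [← a]; group⟩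
      · obtain ⟨k, hk⟩ := isConj_iff.mp hy
        refine ⟨m.1 * c⁻¹ * Φ k, mul_mem (mul_mem m.2 (inv_mem
          (hC (mem_centralizer_singleton_iff.mpr c1)))) ⟨k, rfl⟩, ?_⟩
        calc _ = m.1 * c⁻¹ * Φ (k * t * k⁻¹) * c * m.1⁻¹ := by rw [map_mul, map_mul, map_inv]; group
          _ = _ := by rw [hk, ← a]; group
    · obtain ⟨c, c1, a⟩ := (key s hs e).resolve_left hne
      refine (Φ.map_isConj hy2).trans (isConj_iff.mpr ⟨c⁻¹, ?_⟩)
      rw [map_mul, ← a, inv_inv, ← mul_assoc, ← mul_assoc, ← mul_assoc, c1.inv_left.eq]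
      group
  rw [← MonoidHom.range_eq_top]
  by_contra hne
  obtain ⟨O, o1, o2, a, a1, a2⟩ := h.exists_odd hne
  rw [hc] at a1
  rw [hi] at a2
  have e : Nat.card (O.comap Φ) = Nat.card O := by
    rw [← card_map_of_injective hΦ, map_comap_eq_self o1]
  have a3 := a2.trans (Nat.mul_dvd_mul_left _ a1)
  refine no_odd hM (O.comap Φ) (e ▸ o2) ?_ ?_ <;> rw [e]
  · refine Nat.Coprime.dvd_of_dvd_mul_right (k := 5) (n := 580608) (by norm_num)
      (Nat.dvd_of_mul_dvd_mul_right (k := 5) (by norm_num) ?_)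
    rw [mul_assoc]
    exact (by norm_num : 5 * 5 ∣ 170775).trans a3
  · exact Nat.Coprime.dvd_of_dvd_mul_right (by norm_num) ((by norm_num : 23 ∣ 170775).trans a3)

end Cfsg.Co
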