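import Cfsg.Agent.Co.L0

/-! The Leech lattice: norms, sign changes, the monomial group. -/

set_option autoImplicit false
set_option linter.unusedVariables false

namespace Cfsg.Co

open Cfsg.H4.Golay Cfsg.H6 Cfsg.H6.Leech Cfsg.H2

/-! ### The two types of vectors -/

theorem types {x : GolayPt → ℤ} (hx : x ∈ leechLattice) :
    (∃ c ∈ golayCode, (∀ i, x i % 4 = 2 * lf c i) ∧ (∑ i, x i) % 8 = 0) ∨
    (∃ c ∈ golayCode, (∀ i, x i % 4 = 1 + 2 * lf c i) ∧ (∑ i, x i) % 8 = 4) := by
  have h := lp_of_mem hx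
  obtain ⟨m, d, -, h1, h2⟩ := id h
  have a := h1 none
  unfold Int.ModEq at a h2
  rcases Int.emod_two_eq_zero_or_one m with e | e
  · obtain ⟨c, hc, h3⟩ := h.norm (p := none) (r := 0) (by unfold Int.ModEq; omega)
    refine Or.inl ⟨c, hc, fun i => ?_, by omega⟩
    have := h3 i
    have := lf_cases c i
    unfold Int.ModEq at *
    omega
  · obtain ⟨c, hc, h3⟩ := h.norm (p := none) (r := 1) (by unfold Int.ModEq; omega)
    refine Or.inr ⟨c, hc, fun i => ?_, by omega⟩
    have := h3 i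
    have := lf_cases c i
    unfold Int.ModEq at *
    omega

theorem even_type {x : GolayPt → ℤ} (hx : x ∈ leechLattice) {p : GolayPt} (hp : x p % 2 = 0) :
    ∃ c ∈ golayCode, (∀ i, x i % 4 = 2 * lf c i) ∧ (∑ i, x i) % 8 = 0 := by
  rcases types hx with h | ⟨c, -, h, -⟩
  · exact h
  · have := h p
    omega

theorem odd_type {x : GolayPt → ℤ} (hx : x ∈ leechLattice) {p : GolayPt} (hp : x p % 2 = 1) :
    ∃ c ∈ golayCode, (∀ i, x i % 4 = 1 + 2 * lf c i) ∧ (∑ i, x i) % 8 = 4 := by
  rcases types hx with ⟨c, -, h, -⟩ | h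
  · have := h p
    omega
  · exact h

theorem parity {x : GolayPt → ℤ} (hx : x ∈ leechLattice) (p q : GolayPt) : x p % 2 = x q % 2 := by
  rcases types hx with ⟨c, -, h, -⟩ | ⟨c, -, h, -⟩ <;>
  · have := h p
    have := h q
    omega

theorem mem_even {x : GolayPt → ℤ} {c : GolayPt → ZMod 2} (hc : c ∈ golayCode)
    (h1 : ∀ i, x i % 4 = 2 * lf c i) (h2 : (∑ i, x i) % 8 = 0) : x ∈ leechLattice :=
  mem_of_lp ⟨0, c, hc, fun i => by
    have := h1 i
    have := lf_cases c i
    unfold Int.ModEq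
    omega, by unfold Int.ModEq; omega⟩

theorem mem_odd {x : GolayPt → ℤ} {c : GolayPt → ZMod 2} (hc : c ∈ golayCode)
    (h1 : ∀ i, x i % 4 = 1 + 2 * lf c i) (h2 : (∑ i, x i) % 8 = 4) : x ∈ leechLattice :=
  mem_of_lp ⟨1, c, hc, fun i => by
    have := h1 i
    have := lf_cases c i
    unfold Int.ModEq
    omega, by unfold Int.ModEq; omega⟩

theorem sum_mod {f g : GolayPt → ℤ} {n : ℤ} (h : ∀ i, f i % n = g i % n) :
    (∑ i, f i) % n = (∑ i, g i) % n := by
  rw [Finset.sum_int_mod, Finset.sum_congr rfl fun i _ => h i, ← Finset.sum_int_mod]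

/-! ### Sign changes -/

/-- The sign attached to a word. -/
def sg (c : GolayPt → ZMod 2) (i : GolayPt) : ℤ := 1 - 2 * lf c i

theorem sg_cases (c : GolayPt → ZMod 2) (i : GolayPt) : sg c i = 1 ∨ sg c i = -1 := by
  have := lf_cases c i
  unfold sg
  omega

theorem sg_mul_self (c : GolayPt → ZMod 2) (i : GolayPt) : sg c i * sg c i = 1 := by
  rcases sg_cases c i with h | h <;> simp [h]

theorem sg_of_zero {c : GolayPt → ZMod 2} {i : GolayPt} (h : c i = 0) : sg c i = 1 := by
  rw [sg, lf_eq_zero.mpr h]; rfl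

theorem sg_of_one {c : GolayPt → ZMod 2} {i : GolayPt} (h : c i = 1) : sg c i = -1 := by
  rw [sg, lf_eq_one.mpr h]; rfl

theorem sg_add (c d : GolayPt → ZMod 2) (i : GolayPt) : sg (c + d) i = sg c i * sg d i := by
  rw [sg, sg, sg, lf_add']; ring

theorem sg_inj {c d : GolayPt → ZMod 2} {i j : GolayPt} (h : sg c i = sg d j) : c i = d j := by
  unfold sg lf at h
  revert h
  generalize c i = a
  generalize d j = b
  revert a b
  decide

theorem eps_mem {c : GolayPt → ZMod 2} (hc : c ∈ golayCode) {x : GolayPt → ℤ}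
    (hx : x ∈ leechLattice) : (fun i => sg c i * x i) ∈ leechLattice := by
  have w := wt_cases hc
  rcases types hx with ⟨d, hd, h1, h2⟩ | ⟨d, hd, h1, h2⟩
  · refine mem_even hd (fun i => ?_) ?_
    · have := h1 i
      have := lf_cases d i
      rcases sg_cases c i with e | e <;> rw [e] <;> omega
    · have m := meet_even hc hd
      have : (∑ i, sg c i * x i) % 8 = (∑ i, (x i - 4 * (lf c i * lf d i))) % 8 :=
        sum_mod fun i => by
          have := h1 i
          unfold sg
          rcases lf_cases c i with e | e <;> rcases lf_cases d i with e' | e' <;> rw [e, e'] <;>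
            rw [e'] at this <;> omega
      rw [Finset.sum_sub_distrib, ← Finset.mul_sum] at this
      omega
  · refine mem_odd (Submodule.add_mem _ hc hd) (fun i => ?_) ?_
    · have := h1 i
      rw [lf_add']
      unfold sg
      rcases lf_cases c i with e | e <;> rcases lf_cases d i with e' | e' <;> rw [e, e'] <;>
        rw [e'] at this <;> omega
    · have m := meet_even hc hd
      have : (∑ i, sg c i * x i) % 8 = (∑ i, (x i - 4 * (lf c i * lf d i) - 2 * lf c i)) % 8 :=
        sum_mod fun i => by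
          have := h1 i
          unfold sg
          rcases lf_cases c i with e | e <;> rcases lf_cases d i with e' | e' <;> rw [e, e'] <;>
            rw [e'] at this <;> omega
      rw [Finset.sum_sub_distrib, Finset.sum_sub_distrib, ← Finset.mul_sum, ← Finset.mul_sum]
        at this
      unfold wt at w
      omega

/-- The sign change on the support of a code word. -/
def eps (c : GolayPt → ZMod 2) (hc : c ∈ golayCode) : Co0 :=
  ⟨⟨fun v => ⟨fun i => sg c i * v.1 i, eps_mem hc v.2⟩,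
    fun v => ⟨fun i => sg c i * v.1 i, eps_mem hc v.2⟩,
    fun v => Subtype.ext (funext fun i => by
      change sg c i * (sg c i * v.1 i) = _
      rw [← mul_assoc, sg_mul_self, one_mul]),
    fun v => Subtype.ext (funext fun i => by
      change sg c i * (sg c i * v.1 i) = _
      rw [← mul_assoc, sg_mul_self, one_mul])⟩,
   fun v w => Subtype.ext (funext fun i => mul_add _ _ _),
   fun v => Finset.sum_congr rfl fun i _ => by
      change (sg c i * v.1 i) ^ 2 = _
      rw [mul_pow, sq (sg c i), sg_mul_self, one_mul]⟩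

theorem eps_apply (c : GolayPt → ZMod 2) (hc : c ∈ golayCode) (v : leechLattice) (i : GolayPt) :
    ((eps c hc).1 v).1 i = sg c i * v.1 i := rfl

theorem ext0 {g h : Co0} (e : ∀ v i, (g.1 v).1 i = (h.1 v).1 i) : g = h :=
  Subtype.ext (Equiv.ext fun v => Subtype.ext (funext (e v)))

theorem mul_apply (g h : Co0) (v : leechLattice) : (g * h).1 v = g.1 (h.1 v) := rfl

theorem eps_mul {c d : GolayPt → ZMod 2} (hc : c ∈ golayCode) (hd : d ∈ golayCode) :
    eps c hc * eps d hd = eps (c + d) (Submodule.add_mem _ hc hd) :=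
  ext0 fun v i => by rw [mul_apply, eps_apply, eps_apply, eps_apply, sg_add, mul_assoc]

theorem eps_zero : eps 0 (Submodule.zero_mem _) = 1 :=
  ext0 fun v i => by rw [eps_apply, sg_of_zero rfl, one_mul]; rfl

theorem eps_mul_self {c : GolayPt → ZMod 2} (hc : c ∈ golayCode) : eps c hc * eps c hc = 1 :=
  ext0 fun v i => by rw [mul_apply, eps_apply, eps_apply, ← mul_assoc, sg_mul_self, one_mul]; rfl

/-- Negation. -/
def neg : Co0 :=
  ⟨Equiv.neg _, fun v w => neg_add v w, fun v => Finset.sum_congr rfl fun i _ => neg_sq (v.1 i)⟩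

theorem neg_apply (v : leechLattice) : neg.1 v = -v := rfl

theorem neg_eq : neg = eps 1 one_mem_code :=
  ext0 fun v i => by rw [eps_apply, sg_of_one rfl, neg_one_mul]; rfl

theorem neg_mul_eps {c : GolayPt → ZMod 2} (hc : c ∈ golayCode) :
    neg * eps c hc = eps (1 + c) (Submodule.add_mem _ one_mem_code hc) := by
  rw [neg_eq, eps_mul]

theorem neg_mul_self : neg * neg = 1 := by rw [neg_eq, eps_mul_self]

/-- An element of `Co₀` as an additive map. -/
def hom (g : Co0) : leechLattice →+ leechLattice := AddMonoidHom.mk' g.1 g.2.1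

theorem map_add (g : Co0) (x y : leechLattice) : g.1 (x + y) = g.1 x + g.1 y := g.2.1 x y

theorem map_neg (g : Co0) (x : leechLattice) : g.1 (-x) = -g.1 x := (hom g).map_neg x

theorem map_sub (g : Co0) (x y : leechLattice) : g.1 (x - y) = g.1 x - g.1 y := (hom g).map_sub x y

theorem map_zsmul (g : Co0) (s : ℤ) (x : leechLattice) : g.1 (s • x) = s • g.1 x :=
  (hom g).map_zsmul s x

theorem map_norm (g : Co0) (x : leechLattice) : sqNorm (g.1 x).1 = sqNorm x.1 := g.2.2 x

theorem map_dot (g : Co0) (x y : leechLattice) :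
    dotInt (g.1 x).1 (g.1 y).1 = dotInt x.1 y.1 := dot_map g.2 x y

theorem apply_inv (g : Co0) (x : leechLattice) : g.1 (g⁻¹.1 x) = x := g.1.apply_symm_apply x

theorem inv_apply (g : Co0) (x : leechLattice) : g⁻¹.1 (g.1 x) = x := g.1.symm_apply_apply x

theorem neg_mem_center : neg ∈ Subgroup.center Co0 :=
  Subgroup.mem_center_iff.mpr fun g => Subtype.ext (Equiv.ext fun v => map_neg g v)

theorem E_apply (i j : GolayPt) : (E i).1 j = if j = i then 8 else 0 := rfl

theorem E_self (i : GolayPt) : (E i).1 i = 8 := if_pos rfl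

theorem E_ne {i j : GolayPt} (h : j ≠ i) : (E i).1 j = 0 := if_neg h

theorem norm_E (i : GolayPt) : sqNorm (E i).1 = 64 := by
  simp [sqNorm, E_apply]

theorem dot_comm (x y : GolayPt → ℤ) : dotInt x y = dotInt y x :=
  Finset.sum_congr rfl fun i _ => mul_comm _ _

theorem neg_ne_one : neg ≠ 1 := fun h => by
  have := congrArg (fun g : Co0 => (g.1 (E none)).1 none) h
  change -(E none).1 none = (E none).1 none at this
  rw [E_self] at this
  omega

/-- The matrix of `g⁻¹` is the transpose of the matrix of `g`. -/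
theorem transp (g : Co0) (i l : GolayPt) : (g⁻¹.1 (E l)).1 i = (g.1 (E i)).1 l := by
  have h := map_dot g (g⁻¹.1 (E l)) (E i)
  rw [apply_inv, dot_comm, dot_E, dot_E] at h
  omega

theorem coord8 (g : Co0) (x : leechLattice) (j : GolayPt) :
    8 * (g.1 x).1 j = ∑ i, x.1 i * (g.1 (E i)).1 j := by
  have h := map_dot g x (g⁻¹.1 (E j))
  rw [apply_inv, dot_E] at h
  rw [mul_comm, h]
  exact Finset.sum_congr rfl fun i _ => by rw [transp]

theorem ext_E {g h : Co0} (e : ∀ i, g.1 (E i) = h.1 (E i)) : g = h :=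
  ext0 fun v j => by
    have h1 := coord8 g v j
    have h2 := coord8 h v j
    simp only [e] at h1
    omega

theorem toCo0_apply (π : M24) (v : leechLattice) (i : GolayPt) :
    ((toCo0 π).1 v).1 (π.1 i) = v.1 i := by
  change v.1 (π.1⁻¹ (π.1 i)) = _
  simp

theorem toCo0_E (π : M24) (i : GolayPt) : (toCo0 π).1 (E i) = E (π.1 i) :=
  Subtype.ext (funext fun j => by
    obtain ⟨k, rfl⟩ := π.1.surjective j
    rw [toCo0_apply, E_apply, E_apply]
    simp)

theorem eps_E (c : GolayPt → ZMod 2) (hc : c ∈ golayCode) (i : GolayPt) :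
    (eps c hc).1 (E i) = sg c i • E i :=
  Subtype.ext (funext fun j => by
    rw [eps_apply]
    change _ = sg c i * (E i).1 j
    rw [E_apply]
    split_ifs with h
    · rw [h]
    · simp)

theorem eps_inj {c d : GolayPt → ZMod 2} {hc : c ∈ golayCode} {hd : d ∈ golayCode}
    (h : eps c hc = eps d hd) : c = d := funext fun i => by
  have := congrArg (fun g : Co0 => (g.1 (E i)).1 i) h
  simp only [eps_apply, E_self] at this
  exact sg_inj (by omega)

theorem conj_eps (π : M24) {c : GolayPt → ZMod 2} (hc : c ∈ golayCode) :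
    toCo0 π * eps c hc * (toCo0 π)⁻¹ = eps (c ∘ π⁻¹.1) (comp_mem π⁻¹.2 hc) := by
  rw [mul_inv_eq_iff_eq_mul]
  exact ext0 fun v i => rfl

/-! ### The monomial group -/

theorem pm_iff {x y : leechLattice} : (x = y ∨ x = -y) ↔ ∃ s : ℤ, (s = 1 ∨ s = -1) ∧ x = s • y :=
  ⟨fun h => h.elim (fun h => ⟨1, Or.inl rfl, by simp [h]⟩) fun h => ⟨-1, Or.inr rfl, by simp [h]⟩,
    fun ⟨s, hs, e⟩ => by rcases hs with rfl | rfl <;> simp [e]⟩

theorem mon_coord {g : Co0} {i j : GolayPt} {s : ℤ} (hs : s = 1 ∨ s = -1)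
    (e : g.1 (E i) = s • E j) (x : leechLattice) : (g.1 x).1 j = s * x.1 i := by
  have h := map_dot g x (E i)
  rw [e, dot_E] at h
  have h2 : dotInt (g.1 x).1 (s • E j).1 = s * dotInt (g.1 x).1 (E j).1 := by
    simp only [dotInt, Finset.mul_sum]
    refine Finset.sum_congr rfl fun k _ => ?_
    change _ * (s * _) = _
    ring
  rw [h2, dot_E] at h
  rcases hs with rfl | rfl <;> omega

theorem exists_perm {g : Co0} (h : ∀ i, ∃ j, g.1 (E i) = E j ∨ g.1 (E i) = -E j) :
    ∃ (π : Equiv.Perm GolayPt) (s : GolayPt → ℤ), (∀ i, s i = 1 ∨ s i = -1) ∧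
      ∀ i, g.1 (E i) = s i • E (π i) := by
  simp only [pm_iff] at h
  choose f s hs hf using h
  have hinj : Function.Injective f := fun i j e => by
    by_contra hne
    have h1 := mon_coord (hs i) (hf i) (E i)
    have h2 := mon_coord (hs j) (hf j) (E i)
    rw [E_self] at h1
    rw [E_ne (Ne.symm hne), ← e, h1] at h2
    have := hs i
    omega
  exact ⟨Equiv.ofBijective f (Finite.injective_iff_bijective.mp hinj), s, hs, hf⟩

/-- The stabiliser of the standard frame. -/
def Mon : Subgroup Co0 where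
  carrier := {g | ∀ i, ∃ j, g.1 (E i) = E j ∨ g.1 (E i) = -E j}
  one_mem' := fun i => ⟨i, Or.inl rfl⟩
  mul_mem' := by
    intro g h hg hh i
    obtain ⟨j, e⟩ := hh i
    obtain ⟨k, e'⟩ := hg j
    refine ⟨k, ?_⟩
    rw [mul_apply]
    rcases e with e | e <;> rw [e]
    · exact e'
    · rw [map_neg]
      rcases e' with e' | e' <;> simp [e']
  inv_mem' := by
    intro g hg j
    obtain ⟨π, s, hs, h⟩ := exists_perm hg
    obtain ⟨i, rfl⟩ := π.surjective j
    refine ⟨i, ?_⟩
    have := congrArg g⁻¹.1 (h i)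
    rw [inv_apply, map_zsmul] at this
    rcases hs i with e | e <;> rw [e] at this <;> simp [this]

theorem mem_Mon {g : Co0} : g ∈ Mon ↔ ∀ i, ∃ j, g.1 (E i) = E j ∨ g.1 (E i) = -E j := Iff.rfl

theorem eps_mem_Mon (c : GolayPt → ZMod 2) (hc : c ∈ golayCode) : eps c hc ∈ Mon := fun i =>
  ⟨i, pm_iff.mpr ⟨_, sg_cases c i, eps_E c hc i⟩⟩

theorem toCo0_mem_Mon (π : M24) : toCo0 π ∈ Mon := fun i => ⟨_, Or.inl (toCo0_E π i)⟩

theorem neg_mem_Mon : neg ∈ Mon := fun i => ⟨i, Or.inr rfl⟩

theorem perm_mem {g : Co0} {π : Equiv.Perm GolayPt} {s : GolayPt → ℤ}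
    (hs : ∀ i, s i = 1 ∨ s i = -1) (h : ∀ i, g.1 (E i) = s i • E (π i)) : π ∈ M24 :=
  mem_M24 fun b hb => by
    have m1 : ∀ b ∈ basis, lpChk (fun i => if b.testBit i then 2 else 0) = true := by decide +kernel
    let y := g⁻¹.1 ⟨_, mem_of_lpChk (m1 b hb)⟩
    have m2 : ∀ i, s i * y.1 i = 2 * lf (wd b ∘ π) i := fun i => by
      rw [← mon_coord (hs i) (h i) y, show lf (wd b ∘ π) i = lf (wd b) (π i) from rfl, lf_wd]
      simp only [y, apply_inv]
      split_ifs <;> rfl
    obtain ⟨c, hc, m3, -⟩ := even_type y.2 (p := none) (by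
      have := m2 none
      rcases hs none with e | e <;> rw [e] at this <;> omega)
    convert hc using 1
    ext i
    have m4 := m3 i
    have m5 := m2 i
    refine sg_inj ?_
    have := lf_cases c i
    have := lf_cases (wd b ∘ π) i
    unfold sg
    rcases hs i with e | e <;> rw [e] at m5 <;> omega

/-- A vector with all coordinates congruent to one modulo four. -/
def w0 : leechLattice :=
  ⟨fun i => if i = none then -3 else 1, mem_odd (Submodule.zero_mem _) (by decide) (by decide)⟩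

theorem diag {g : Co0} {s : GolayPt → ℤ} (hs : ∀ i, s i = 1 ∨ s i = -1)
    (h : ∀ i, g.1 (E i) = s i • E i) : ∃ c hc, g = eps c hc := by
  have h1 := fun i => mon_coord (hs i) (h i) w0
  have h2 : ∀ i, w0.1 i = -3 ∨ w0.1 i = 1 := by decide
  obtain ⟨c, hc, h3, -⟩ := odd_type (g.1 w0).2 (p := none) (by
    rw [h1]
    rcases hs none with e | e <;> rw [e] <;> rfl)
  refine ⟨c, hc, ext_E fun i => ?_⟩
  rw [h, eps_E]
  congr 1
  have := h3 i
  rw [h1] at this
  unfold sg
  rcases hs i with e | e <;> rcases h2 i with e' | e' <;> rw [e, e'] at this <;> omega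

theorem mon_eq {g : Co0} (hg : g ∈ Mon) : ∃ c hc π, g = eps c hc * toCo0 π := by
  obtain ⟨π, s, hs, h⟩ := exists_perm hg
  let ρ : M24 := ⟨π, perm_mem hs h⟩
  obtain ⟨c, hc, e⟩ := diag (g := g * toCo0 ρ⁻¹) (s := fun j => s (π⁻¹ j)) (fun j => hs _)
    fun j => by
      rw [mul_apply, toCo0_E]
      have := h (π⁻¹ j)
      rwa [show π (π⁻¹ j) = j by simp] at this
  exact ⟨c, hc, ρ, by rw [← e, map_inv, inv_mul_cancel_right]⟩

theorem Mon_le {K : Subgroup Co0} (h1 : ∀ c hc, eps c hc ∈ K) (h2 : ∀ π, toCo0 π ∈ K) :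
    Mon ≤ K := fun g hg => by
  obtain ⟨c, hc, π, rfl⟩ := mon_eq hg
  exact K.mul_mem (h1 c hc) (h2 π)

/-! ### Norms -/

theorem norm_nonneg (x : GolayPt → ℤ) : 0 ≤ sqNorm x := Finset.sum_nonneg fun i _ => sq_nonneg _

theorem eq_zero_of_norm {x : GolayPt → ℤ} (h : sqNorm x ≤ 0) : x = 0 := funext fun i =>
  pow_eq_zero_iff (two_ne_zero) |>.mp ((Finset.sum_eq_zero_iff_of_nonneg fun i _ =>
    sq_nonneg (x i)).mp (le_antisymm h (norm_nonneg x)) i (Finset.mem_univ i))

theorem sum_one : ∑ _i : GolayPt, (1 : ℤ) = 24 := by simp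

theorem sq_mod16 {a : ℤ} (h : a % 2 = 0) : a ^ 2 % 16 = (2 * (a % 4)) % 16 := by
  obtain ⟨k, rfl | rfl⟩ : ∃ k, a = 4 * k ∨ a = 4 * k + 2 := ⟨a / 4, by omega⟩
  · have : (4 * k) ^ 2 = 16 * k ^ 2 := by ring
    omega
  · have : (4 * k + 2) ^ 2 = 16 * (k ^ 2 + k) + 4 := by ring
    omega

theorem sixteen_dvd (x : leechLattice) : 16 ∣ sqNorm x.1 := by
  rcases types x.2 with ⟨c, hc, h1, -⟩ | ⟨c, hc, h1, -⟩
  · have h2 : sqNorm x.1 % 16 = (∑ i, 4 * lf c i) % 16 := sum_mod fun i => by
      have := h1 i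
      rw [sq_mod16 (by omega), this]
      congr 1
      ring
    rw [← Finset.mul_sum] at h2
    have := wt_cases hc
    unfold wt at this
    omega
  · let y := (eps c hc).1 x
    have h2 : ∀ i, y.1 i % 4 = 1 := fun i => by
      have := h1 i
      rw [eps_apply]
      unfold sg
      rcases lf_cases c i with e | e <;> rw [e] at this ⊢ <;> omega
    obtain ⟨d, -, -, h3⟩ := odd_type y.2 (p := none) (by have := h2 none; omega)
    have h4 : sqNorm y.1 % 16 = (∑ i, (2 * y.1 i - 1)) % 16 := sum_mod fun i => by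
      obtain ⟨k, e⟩ : ∃ k, y.1 i = 4 * k + 1 := ⟨y.1 i / 4, by have := h2 i; omega⟩
      have : (4 * k + 1) ^ 2 = 16 * k ^ 2 + 8 * k + 1 := by ring
      rw [e]
      omega
    rw [Finset.sum_sub_distrib, ← Finset.mul_sum, map_norm, sum_one] at h4
    omega

theorem norm_add (x y : GolayPt → ℤ) :
    sqNorm (x + y) = sqNorm x + 2 * dotInt x y + sqNorm y := by
  simp only [sqNorm, dotInt, Pi.add_apply, Finset.mul_sum, ← Finset.sum_add_distrib]
  exact Finset.sum_congr rfl fun i _ => by ring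

theorem eight_dvd (x y : leechLattice) : 8 ∣ dotInt x.1 y.1 := by
  have h1 := sixteen_dvd x
  have h2 := sixteen_dvd y
  have h3 := sixteen_dvd (x + y)
  rw [AddSubgroup.coe_add, norm_add] at h3
  omega

/-- A short vector with some coordinates divisible by four has all of them divisible by four. -/
theorem all4 {x : leechLattice} {p : GolayPt} (hp : x.1 p % 2 = 0) (S : Finset GolayPt)
    (hS : ∀ i ∈ S, x.1 i % 4 = 0) (h : sqNorm x.1 < 32 + ∑ i ∈ S, x.1 i ^ 2) (i : GolayPt) :
    x.1 i % 4 = 0 := by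
  obtain ⟨c, hc, h1, -⟩ := even_type x.2 hp
  have h2 : ∑ i, (4 * lf c i + if i ∈ S then x.1 i ^ 2 else 0) ≤ sqNorm x.1 :=
    Finset.sum_le_sum fun i _ => by
      have a := h1 i
      split_ifs with e
      · have := hS i e
        omega
      · rcases lf_cases c i with b | b <;> rw [b] at a ⊢
        · simpa using sq_nonneg (x.1 i)
        · have : x.1 i ≤ -2 ∨ 2 ≤ x.1 i := by omega
          rcases this with t | t <;> nlinarith
  rw [Finset.sum_add_distrib, ← Finset.mul_sum, Finset.sum_ite_mem, Finset.univ_inter] at h2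
  have h3 := wt_cases hc
  have h4 : wt c = 0 := by
    unfold wt at *
    omega
  rw [h1, lf_of_wt_zero h4, mul_zero]

theorem dvd32 {x : leechLattice} (h : ∀ i, x.1 i % 4 = 0) : 32 ∣ sqNorm x.1 := by
  obtain ⟨c, -, -, h1⟩ := even_type x.2 (p := none) (by have := h none; omega)
  have h2 : sqNorm x.1 % 32 = (∑ i, 4 * x.1 i) % 32 := sum_mod fun i => by
    obtain ⟨k, e | e⟩ : ∃ k, x.1 i = 8 * k ∨ x.1 i = 8 * k + 4 :=
      ⟨x.1 i / 8, by have := h i; omega⟩
    · have : (8 * k) ^ 2 = 64 * k ^ 2 := by ring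
      rw [e]
      omega
    · have : (8 * k + 4) ^ 2 = 64 * (k ^ 2 + k) + 16 := by ring
      rw [e]
      omega
  rw [← Finset.mul_sum] at h2
  omega

theorem min_norm {x : leechLattice} (hx : x ≠ 0) : 32 ≤ sqNorm x.1 := by
  by_contra hlt
  have h0 : 0 < sqNorm x.1 := by
    by_contra h
    exact hx (Subtype.ext (eq_zero_of_norm (not_lt.mp h)))
  rcases Int.emod_two_eq_zero_or_one (x.1 none) with e | e
  · have := dvd32 (all4 e ∅ (by simp) (by simpa using hlt))
    omega
  · have h1 : ∑ i : GolayPt, (1 : ℤ) ≤ sqNorm x.1 := Finset.sum_le_sum fun i _ => by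
      have := parity x.2 none i
      have : x.1 i ≤ -1 ∨ 1 ≤ x.1 i := by omega
      rcases this with t | t <;> nlinarith
    rw [sum_one] at h1
    have := sixteen_dvd x
    omega

/-! ### Frames -/

theorem eq_E_of_coord {y : leechLattice} (h : sqNorm y.1 ≤ 64) {l : GolayPt}
    (hl : 8 ≤ y.1 l ∨ y.1 l ≤ -8) : (y.1 l = 8 ∧ y = E l) ∨ (y.1 l = -8 ∧ y = -E l) := by
  have h1 := Finset.add_sum_erase Finset.univ (fun i => y.1 i ^ 2) (Finset.mem_univ l)
  have h2 : 0 ≤ ∑ i ∈ Finset.univ.erase l, y.1 i ^ 2 := Finset.sum_nonneg fun i _ => sq_nonneg _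
  unfold sqNorm at h
  have h3 : 64 ≤ y.1 l ^ 2 := by rcases hl with t | t <;> nlinarith
  beta_reduce at h1
  have h4 : ∀ i ≠ l, y.1 i = 0 := fun i hi =>
    pow_eq_zero_iff two_ne_zero |>.mp ((Finset.sum_eq_zero_iff_of_nonneg
      (s := Finset.univ.erase l) fun i _ => sq_nonneg (y.1 i)).mp (by omega) i (by simp [hi]))
  have h5 : y.1 l = 8 ∨ y.1 l = -8 := by
    rcases hl with t | t
    · left; nlinarith
    · right; nlinarith
  rcases h5 with e | e
  · refine Or.inl ⟨e, Subtype.ext (funext fun i => ?_)⟩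
    by_cases hi : i = l
    · rw [hi, e, E_self]
    · rw [h4 i hi, E_ne hi]
  · refine Or.inr ⟨e, Subtype.ext (funext fun i => ?_)⟩
    change _ = -(E l).1 i
    by_cases hi : i = l
    · rw [hi, e, E_self]
    · rw [h4 i hi, E_ne hi, neg_zero]

theorem eq_E_of_dvd {y : leechLattice} (h : sqNorm y.1 = 64) (h8 : ∀ i, y.1 i % 8 = 0) :
    ∃ l, y = E l ∨ y = -E l := by
  obtain ⟨l, hl⟩ : ∃ l, y.1 l ≠ 0 := by
    by_contra hc
    push Not at hc
    simp [sqNorm, hc] at h
  have := h8 l
  exact ⟨l, (eq_E_of_coord h.le (l := l) (by omega)).imp And.right And.right⟩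

/-- The vector `4 e_i + 4 s e_j`. -/
def PQ (s : ℤ) (i j : GolayPt) (hs : s = 1 ∨ s = -1) : leechLattice :=
  ⟨fun k => (if k = i then 4 else 0) + if k = j then 4 * s else 0,
    mem_even (Submodule.zero_mem _) (fun k => by
      rw [lf_eq_zero.mpr rfl]
      split_ifs <;> omega) (by
      simp only [Finset.sum_add_distrib, Finset.sum_ite_eq', Finset.mem_univ, if_true]
      omega)⟩

theorem PQ_apply (s : ℤ) (i j : GolayPt) (hs : s = 1 ∨ s = -1) (k : GolayPt) :
    (PQ s i j hs).1 k = (if k = i then 4 else 0) + if k = j then 4 * s else 0 := rfl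

theorem dot_PQ (x : GolayPt → ℤ) (s : ℤ) (i j : GolayPt) (hs : s = 1 ∨ s = -1) :
    dotInt x (PQ s i j hs).1 = 4 * x i + 4 * s * x j := by
  simp only [dotInt, PQ_apply, mul_add, mul_ite, mul_zero, Finset.sum_add_distrib,
    Finset.sum_ite_eq', Finset.mem_univ, if_true]
  ring

theorem norm_eq_dot (x : GolayPt → ℤ) : sqNorm x = dotInt x x :=
  Finset.sum_congr rfl fun i _ => sq _

theorem norm_PQ (s : ℤ) {i j : GolayPt} (hs : s = 1 ∨ s = -1) (h : i ≠ j) :
    sqNorm (PQ s i j hs).1 = 32 := by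
  rw [norm_eq_dot, dot_PQ, PQ_apply, PQ_apply]
  simp only [if_true, if_neg h, if_neg h.symm]
  rcases hs with rfl | rfl <;> norm_num

theorem E_eq_add (i j : GolayPt) : E i = PQ 1 i j (Or.inl rfl) + PQ (-1) i j (Or.inr rfl) :=
  Subtype.ext (funext fun k => by
    rw [AddSubgroup.coe_add, Pi.add_apply, PQ_apply, PQ_apply, E_apply]
    split_ifs <;> omega)

theorem E_eq_sub (i j : GolayPt) : E j = PQ 1 i j (Or.inl rfl) - PQ (-1) i j (Or.inr rfl) :=
  Subtype.ext (funext fun k => by
    rw [AddSubgroup.coe_sub, Pi.sub_apply, PQ_apply, PQ_apply, E_apply]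
    split_ifs <;> omega)

theorem E_eq_two (i k : GolayPt) :
    E k = E i + (PQ (-1) k i (Or.inr rfl) + PQ (-1) k i (Or.inr rfl)) :=
  Subtype.ext (funext fun l => by
    simp only [AddSubgroup.coe_add, Pi.add_apply, PQ_apply, E_apply]
    split_ifs <;> omega)

theorem mon_of_one {g : Co0} {i j : GolayPt} (h : g.1 (E i) = E j ∨ g.1 (E i) = -E j) :
    g ∈ Mon := by
  intro k
  by_cases hk : k = i
  · exact ⟨j, hk ▸ h⟩
  obtain ⟨s, hs, e⟩ := pm_iff.mp h
  let z := g.1 (PQ (-1) k i (Or.inr rfl))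
  have h1 : z.1 j = s * -4 := by
    rw [mon_coord hs e, PQ_apply]
    simp [Ne.symm hk]
  have h2 := all4 (x := z) (p := j) (by omega) {j} (by simp only [Finset.mem_singleton]; rintro _ rfl; omega) (by
    rw [map_norm, norm_PQ _ _ hk, Finset.sum_singleton, h1]
    rcases hs with rfl | rfl <;> norm_num)
  refine eq_E_of_dvd (by rw [map_norm, norm_E]) fun l => ?_
  rw [E_eq_two i k, map_add, map_add, e]
  change (s * (E j).1 l + (z.1 l + z.1 l)) % 8 = 0
  have := h2 l
  rw [E_apply]
  split_ifs <;> omega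

end Cfsg.Co
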