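import Cfsg.Agent.Co.L2

/-! Finiteness and centre of `Co₀`; conjugates of sign changes. -/

set_option autoImplicit false
set_option linter.unusedVariables false

namespace Cfsg.Co

open Cfsg.H4.Golay Cfsg.H6 Cfsg.H6.Leech Cfsg.H2

/-! ### Finiteness -/

theorem finite_norm (n : ℤ) : {v : leechLattice | sqNorm v.1 = n}.Finite := by
  refine Set.Finite.of_finite_image (f := Subtype.val) ?_ Subtype.val_injective.injOn
  refine (Set.Finite.pi' fun _ : GolayPt => Set.finite_Icc (-n) n).subset ?_
  rintro _ ⟨v, hv, rfl⟩ i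
  have h : v.1 i ^ 2 ≤ sqNorm v.1 :=
    Finset.single_le_sum (f := fun i => v.1 i ^ 2) (fun i _ => sq_nonneg _) (Finset.mem_univ i)
  rw [show sqNorm v.1 = n from hv] at h
  constructor <;> nlinarith [sq_nonneg (v.1 i - 1), sq_nonneg (v.1 i + 1), sq_nonneg (v.1 i)]

instance finite_Co0 : Finite Co0 := by
  have := (finite_norm 64).to_subtype
  refine Finite.of_injective (fun (g : Co0) (i : GolayPt) =>
    (⟨g.1 (E i), by rw [Set.mem_ofPred_eq, map_norm, norm_E]⟩ :
      {v : leechLattice | sqNorm v.1 = 64})) fun g h e => ext_E fun i => ?_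
  exact congrArg Subtype.val (congrFun e i)

/-- The vectors with sum of squares 64 fall into frames of 48. -/
theorem card_norm64_le : Nat.card {v : leechLattice | sqNorm v.1 = 64} ≤ 48 * Mon.index := by
  have h : Function.Surjective fun z : (GolayPt × Bool) × (Co0 ⧸ Mon) =>
      (⟨z.2.out.1 (if z.1.2 then E z.1.1 else -E z.1.1), by
        rw [Set.mem_ofPred_eq, map_norm]
        split_ifs
        · exact norm_E _
        · exact (map_norm neg _).trans (norm_E _)⟩ : {v : leechLattice | sqNorm v.1 = 64}) := by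
    rintro ⟨v, hv⟩
    obtain ⟨g, rfl⟩ := trans64 hv
    obtain ⟨m, e⟩ := QuotientGroup.mk_out_eq_mul Mon g
    obtain ⟨j, e' | e'⟩ := Mon.inv_mem m.2 none
    · refine ⟨((j, true), g), Subtype.ext ?_⟩
      simp only [e, if_true, mul_apply, ← e', apply_inv]
    · refine ⟨((j, false), g), Subtype.ext ?_⟩
      simp only [e, Bool.false_eq_true, if_false, mul_apply, ← e', apply_inv]
  have := Nat.card_le_card_of_surjective _ h
  rw [Nat.card_prod, Nat.card_prod] at this
  exact this.trans (le_of_eq (congrArg (· * _) (by simp)))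

/-- The vector with `-3` on a set of five points and `1` elsewhere. -/
def u5 (S : Finset.powersetCard 5 (Finset.univ : Finset GolayPt)) : leechLattice :=
  ⟨fun i => if i ∈ S.1 then -3 else 1, mem_odd (Submodule.zero_mem _) (fun i => by
      rw [lf_eq_zero.mpr rfl]
      split_ifs <;> rfl) (by
    have h : ∀ i, (if i ∈ S.1 then -3 else 1 : ℤ) = 1 - 4 * if i ∈ S.1 then 1 else 0 := fun i => by
      split_ifs <;> rfl
    simp only [h, Finset.sum_sub_distrib, ← Finset.mul_sum, Finset.sum_ite_mem, Finset.univ_inter]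
    simp [(Finset.mem_powersetCard.mp S.2).2])⟩

theorem norm_u5 (S : Finset.powersetCard 5 (Finset.univ : Finset GolayPt)) :
    sqNorm (u5 S).1 = 64 := by
  have h : ∀ i, (if i ∈ S.1 then -3 else 1 : ℤ) ^ 2 = 1 + 8 * if i ∈ S.1 then 1 else 0 :=
    fun i => by split_ifs <;> rfl
  simp only [sqNorm, u5, h, Finset.sum_add_distrib, ← Finset.mul_sum, Finset.sum_ite_mem,
    Finset.univ_inter]
  simp [(Finset.mem_powersetCard.mp S.2).2]

theorem card_norm64_ge : 4096 * 42504 ≤ Nat.card {v : leechLattice | sqNorm v.1 = 64} := by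
  have := (finite_norm 64).to_subtype
  have h : Function.Injective
      fun z : golayCode × Finset.powersetCard 5 (Finset.univ : Finset GolayPt) =>
      (⟨(eps z.1.1 z.1.2).1 (u5 z.2), by rw [Set.mem_ofPred_eq, map_norm, norm_u5]⟩ :
        {v : leechLattice | sqNorm v.1 = 64}) := by
    rintro ⟨c, S⟩ ⟨d, U⟩ e
    have h1 : ∀ i, sg c.1 i * (if i ∈ S.1 then -3 else 1) =
        sg d.1 i * (if i ∈ U.1 then -3 else 1) := fun i =>
      congrFun (congrArg (fun v => v.1.1) e) i
    have h2 : ∀ i, sg c.1 i = sg d.1 i ∧ (i ∈ S.1 ↔ i ∈ U.1) := fun i => by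
      have a := h1 i
      have b := sg_cases c.1 i
      have b' := sg_cases d.1 i
      split_ifs at a with k1 k2 k2 <;> simp only [k1, k2, iff_self, and_true] <;> omega
    exact Prod.ext (Subtype.ext (funext fun i => sg_inj (h2 i).1))
      (Subtype.ext (Finset.ext fun i => (h2 i).2))
  have h3 := Nat.card_le_card_of_injective _ h
  rw [Nat.card_prod, Nat.card_eq_finsetCard, Finset.card_powersetCard] at h3
  refine le_trans (Nat.mul_le_mul card_code_ge (le_of_eq ?_)) h3
  rw [Finset.card_univ]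
  decide +kernel

theorem index_Mon_ge : 3627008 ≤ Mon.index := by
  have := card_norm64_ge.trans card_norm64_le
  omega

/-! ### The centre -/

theorem eq_of_scalar {g : Co0} (h : ∀ i, (g.1 (E i) = E i ∧ g.1 (E none) = E none) ∨
    (g.1 (E i) = -E i ∧ g.1 (E none) = -E none)) : g = 1 ∨ g = neg := by
  have k : E none ≠ -E none := fun e => by
    have := congrArg (fun v : leechLattice => v.1 none) e
    change (E none).1 none = -(E none).1 none at this
    rw [E_self] at this
    omega
  rcases h none with ⟨e, -⟩ | ⟨e, -⟩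
  · exact Or.inl (ext_E fun i => (h i).elim And.left fun a => absurd (e.symm.trans a.2) k)
  · exact Or.inr (ext_E fun i => (h i).elim (fun a => absurd (a.2.symm.trans e) k) And.left)

theorem support_of_conj {g : Co0} {c d : GolayPt → ZMod 2} {hc : c ∈ golayCode}
    {hd : d ∈ golayCode} (h : g * eps c hc * g⁻¹ = eps d hd) {i l : GolayPt}
    (h0 : (g.1 (E i)).1 l ≠ 0) : c i = d l := by
  rw [mul_inv_eq_iff_eq_mul] at h
  have e := congrArg (fun k : Co0 => (k.1 (E i)).1 l) h
  simp only [mul_apply, eps_E, map_zsmul, eps_apply] at e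
  exact sg_inj (mul_right_cancel₀ h0 e)

/-- An element centralising all sign changes is one. -/
theorem eq_eps_of_comm {g : Co0} (h : ∀ c hc, g * eps c hc = eps c hc * g) :
    ∃ c hc, g = eps c hc := by
  have k : ∀ i, ∃ s : ℤ, (s = 1 ∨ s = -1) ∧ g.1 (E i) = s • E i := fun i => by
    have h1 : ∀ l ≠ i, (g.1 (E i)).1 l = 0 := fun l hl => by
      by_contra h0
      obtain ⟨c, hc, e1, e2⟩ := sep hl
      have := support_of_conj (mul_inv_eq_iff_eq_mul.mpr (h c hc)) h0
      rw [e1, e2] at this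
      exact one_ne_zero this
    have h2 : sqNorm (g.1 (E i)).1 = 64 := by rw [map_norm, norm_E]
    have h3 : (g.1 (E i)).1 i ^ 2 = 64 := by
      rw [← h2, sqNorm, Finset.sum_eq_single i (fun l _ hl => by simp [h1 l hl]) (by simp)]
    refine pm_iff.mp ((eq_E_of_coord h2.le (l := i) ?_).imp And.right And.right)
    by_contra hc
    push Not at hc
    nlinarith [hc.1, hc.2]
  choose s hs e using k
  exact diag hs e

theorem mem_center_iff {g : Co0} : g ∈ Subgroup.center Co0 ↔ g = 1 ∨ g = neg := by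
  refine ⟨fun h => ?_, ?_⟩
  · rw [Subgroup.mem_center_iff] at h
    obtain ⟨c, hc, rfl⟩ := eq_eps_of_comm fun c hc => (h _).symm
    refine eq_of_scalar fun i => ?_
    obtain ⟨π, hπ⟩ := trans1 i none
    have e := congrArg (fun k : Co0 => (k.1 (E i)).1 none) (h (toCo0 π))
    simp only [mul_apply, toCo0_E, hπ, eps_E, map_zsmul] at e
    change sg c i * (E none).1 none = sg c none * (E none).1 none at e
    rw [E_self] at e
    rw [eps_E, eps_E]
    rcases sg_cases c i with a | a <;> rcases sg_cases c none with b | b <;> simp [a, b] at e ⊢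
  · rintro (rfl | rfl)
    exacts [Subgroup.one_mem _, neg_mem_center]

theorem card_center : Nat.card (Subgroup.center Co0) = 2 := by
  rw [Nat.card_eq_two_iff]
  refine ⟨1, ⟨neg, neg_mem_center⟩, fun e => neg_ne_one (congrArg Subtype.val e).symm, ?_⟩
  rw [Set.eq_univ_iff_forall]
  intro g
  rcases mem_center_iff.mp g.2 with e | e
  · exact Or.inl (Subtype.ext e)
  · exact Or.inr (Subtype.ext e)

theorem norm_two (x : GolayPt → ℤ) : sqNorm (x + x) = 4 * sqNorm x := by
  rw [norm_add, ← norm_eq_dot]; ring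

/-- Minimal vectors that are congruent modulo twice the lattice agree up to sign. -/
theorem pm_of_congr {x z y : leechLattice} (hx : sqNorm x.1 = 32) (hz : sqNorm z.1 = 32)
    (e : z = x + (y + y)) : z = x ∨ z = -x := by
  by_cases h0 : y = 0
  · exact Or.inl (by simp [e, h0])
  by_cases h1 : x + y = 0
  · exact Or.inr (by rw [e, ← add_assoc, h1, zero_add, eq_neg_iff_add_eq_zero, add_comm, h1])
  have a := min_norm h0
  have b := min_norm h1
  have c : sqNorm z.1 = sqNorm ((x + y).1 + y.1) := by rw [e, ← add_assoc]; rfl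
  have d := norm_add x.1 y.1
  have f : dotInt (x + y).1 y.1 = dotInt x.1 y.1 + sqNorm y.1 := by
    simp [dotInt, sqNorm, add_mul, Finset.sum_add_distrib, sq]
  rw [norm_add, f] at c
  rw [AddSubgroup.coe_add] at b c
  omega

theorem dot_neg (x y : GolayPt → ℤ) : dotInt x (-y) = -dotInt x y := by simp [dotInt]

/-- An element acting trivially modulo twice the lattice is `± 1`. -/
theorem eq_of_triv_mod_two {g : Co0} (h : ∀ x, ∃ y, g.1 x = x + (y + y)) : g = 1 ∨ g = neg := by
  have k : ∀ x : leechLattice, sqNorm x.1 = 32 → g.1 x = x ∨ g.1 x = -x := fun x hx =>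
    (h x).elim fun y e => pm_of_congr hx (by rw [map_norm, hx]) e
  have k2 : ∀ x y : leechLattice, sqNorm x.1 = 32 → sqNorm y.1 = 32 → dotInt x.1 y.1 ≠ 0 →
      (g.1 x = x → g.1 y = y) ∧ (g.1 x = -x → g.1 y = -y) := fun x y hx hy h0 => by
    have d := map_dot g x y
    refine ⟨fun e => (k y hy).resolve_right fun e' => ?_, fun e => (k y hy).resolve_left fun e' => ?_⟩
    · rw [e, e', AddSubgroup.coe_neg, dot_neg] at d
      omega
    · rw [e, e', AddSubgroup.coe_neg, dot_comm, dot_neg, dot_comm] at d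
      omega
  refine eq_of_scalar fun i => ?_
  obtain ⟨j, l, h1, h2, h3, h4⟩ : ∃ j l : GolayPt, none ≠ j ∧ none ≠ l ∧ j ≠ l ∧ (i = none ∨ i = j) := by
    revert i
    decide +kernel
  have n1 := norm_PQ 1 (Or.inl rfl) h1
  have n2 := norm_PQ 1 (Or.inl rfl) h2
  have n3 := norm_PQ (-1) (Or.inr rfl) h1
  have a := k2 _ _ n1 n2 (by rw [dot_PQ, PQ_apply, PQ_apply]; simp [h1, h2.symm, h3.symm])
  have b := k2 _ _ n2 n3 (by rw [dot_PQ, PQ_apply, PQ_apply]; simp [h2, h1.symm, h3])
  have c1 := map_add g (PQ 1 none j (Or.inl rfl)) (PQ (-1) none j (Or.inr rfl))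
  have c2 := map_sub g (PQ 1 none j (Or.inl rfl)) (PQ (-1) none j (Or.inr rfl))
  rcases k _ n1 with e | e
  · rw [e, b.1 (a.1 e), ← E_eq_add] at c1
    rw [e, b.1 (a.1 e), ← E_eq_sub] at c2
    exact Or.inl ⟨by rcases h4 with rfl | rfl <;> assumption, c1⟩
  · rw [e, b.2 (a.2 e), ← neg_add, ← E_eq_add] at c1
    rw [e, b.2 (a.2 e), ← neg_sub', ← E_eq_sub] at c2
    exact Or.inr ⟨by rcases h4 with rfl | rfl <;> assumption, c1⟩

/-! ### Conjugates of sign changes -/

theorem wt_conj {g : Co0} {c d : GolayPt → ZMod 2} {hc : c ∈ golayCode}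
    {hd : d ∈ golayCode} (h : g * eps c hc * g⁻¹ = eps d hd) : wt c = wt d := by
  have r : ∀ i, ∑ l, (g.1 (E i)).1 l ^ 2 = 64 := fun i => (map_norm g _).trans (norm_E i)
  have s : ∀ l, ∑ i, (g.1 (E i)).1 l ^ 2 = 64 := fun l => by
    rw [Finset.sum_congr rfl fun i _ => by rw [← transp]]
    exact (map_norm g⁻¹ _).trans (norm_E l)
  have e : ∑ i, ∑ l, lf c i * (g.1 (E i)).1 l ^ 2 = ∑ l, ∑ i, lf d l * (g.1 (E i)).1 l ^ 2 := by
    rw [Finset.sum_comm]
    refine Finset.sum_congr rfl fun l _ => Finset.sum_congr rfl fun i _ => ?_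
    by_cases h0 : (g.1 (E i)).1 l = 0
    · simp [h0]
    · rw [lf, lf, support_of_conj h h0]
  simp only [← Finset.mul_sum, r, s, ← Finset.sum_mul] at e
  unfold wt
  omega

theorem conj_ne_neg_mul (g : Co0) {c : GolayPt → ZMod 2} (hc : c ∈ golayCode) (h : wt c ≠ 12) :
    g * eps c hc * g⁻¹ ≠ neg * eps c hc := fun e => by
  rw [neg_mul_eps] at e
  have := wt_conj e
  rw [wt_one_add] at this
  omega

/-- A minimal vector supported in a dodecad has coordinates divisible by four. -/
theorem all4_of_dodecad {z : leechLattice} (hz : sqNorm z.1 = 32) {d : GolayPt → ZMod 2}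
    (hd : d ∈ golayCode) (h12 : wt d = 12) (h : ∀ l, d l = 0 → z.1 l = 0) (l : GolayPt) :
    z.1 l % 4 = 0 := by
  obtain ⟨p, hp⟩ : ∃ p, d p = 0 := by
    by_contra hc
    push Not at hc
    have : wt d = ∑ _i : GolayPt, (1 : ℤ) := Finset.sum_congr rfl fun i _ => if_neg (hc i)
    simp [h12] at this
  obtain ⟨c, hc, h1, -⟩ := even_type z.2 (p := p) (by rw [h p hp]; rfl)
  have h2 : ∑ i, 4 * lf c i ≤ sqNorm z.1 := Finset.sum_le_sum fun i _ => by
    have a := h1 i
    rcases lf_cases c i with b | b <;> rw [b] at a ⊢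
    · simpa using sq_nonneg (z.1 i)
    · have : z.1 i ≤ -2 ∨ 2 ≤ z.1 i := by omega
      rcases this with t | t <;> nlinarith
  have h3 : ∑ i, lf c i * lf d i = wt c := Finset.sum_congr rfl fun i _ => by
    rcases lf_cases d i with b | b
    · have a := h1 i
      rw [h i (lf_eq_zero.mp b)] at a
      rw [b]
      omega
    · rw [b, mul_one]
  have h4 := wt_add c d
  have h5 := wt_cases hc
  have h6 := wt_cases (Submodule.add_mem _ hc hd)
  rw [← Finset.mul_sum] at h2
  have h7 : wt c = 0 := by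
    unfold wt at *
    omega
  rw [h1, lf_of_wt_zero h7, mul_zero]

/-- An element that conjugates a dodecad sign change to a sign change is monomial. -/
theorem mon_of_conj_dodecad {g : Co0} {c d : GolayPt → ZMod 2} {hc : c ∈ golayCode}
    {hd : d ∈ golayCode} (h : g * eps c hc * g⁻¹ = eps d hd) (h12 : wt c = 12) : g ∈ Mon := by
  have w := wt_conj h
  have k : ∀ s i j hs, i ≠ j → c i = 0 → c j = 0 → ∀ l, (g.1 (PQ s i j hs)).1 l % 4 = 0 :=
    fun s i j hs hij hi hj => by
      refine all4_of_dodecad (by rw [map_norm, norm_PQ _ _ hij])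
        (Submodule.add_mem _ one_mem_code hd) (by rw [wt_one_add]; omega) fun l hl => ?_
      have z : ∀ i, c i = 0 → (g.1 (E i)).1 l = 0 := fun i hi => by
        by_contra h0
        rw [Pi.add_apply, ← support_of_conj h h0, hi] at hl
        simp at hl
      have e := coord8 g (PQ s i j hs) l
      rw [Finset.sum_eq_zero fun m _ => ?_] at e
      · omega
      · rw [PQ_apply]
        by_cases m1 : m = i
        · rw [z m (m1 ▸ hi), mul_zero]
        by_cases m2 : m = j
        · rw [z m (m2 ▸ hj), mul_zero]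
        simp [m1, m2]
  have two : ∀ i, ∃ j, i ≠ j ∧ c j = 0 := fun i => by
    by_contra hc
    push Not at hc
    have : ∑ j : GolayPt, (1 - if j = i then 1 else 0 : ℤ) ≤ wt c := Finset.sum_le_sum fun j _ => by
      split_ifs with e
      · simpa using lf_nonneg c j
      · rw [lf, if_neg (hc j (Ne.symm e))]; rfl
    simp [Finset.sum_sub_distrib, h12] at this
  obtain ⟨i, -, hi⟩ := two none
  obtain ⟨j, hij, hj⟩ := two i
  by_cases h8 : ∀ l, (g.1 (E i)).1 l % 8 = 0
  · obtain ⟨l, e⟩ := eq_E_of_dvd (by rw [map_norm, norm_E]) h8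
    exact mon_of_one e
  exfalso
  push Not at h8
  obtain ⟨l, hl⟩ := h8
  have h4 : (g.1 (E i)).1 l % 8 = 4 := by
    have a := k 1 i j (Or.inl rfl) hij hi hj l
    have b := k (-1) i j (Or.inr rfl) hij hi hj l
    rw [E_eq_add i j, map_add, AddSubgroup.coe_add, Pi.add_apply] at hl ⊢
    omega
  have h5 : ∑ m, 16 * (1 - lf c m) ≤ sqNorm (g⁻¹.1 (E l)).1 := Finset.sum_le_sum fun m _ => by
    rcases lf_cases c m with b | b <;> rw [b]
    · have a : (g.1 (E m)).1 l % 8 = 4 := by
        by_cases hm : m = i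
        · rw [hm, h4]
        have a := k (-1) m i (Or.inr rfl) hm (lf_eq_zero.mp b) hi l
        rw [E_eq_two i m, map_add, map_add]
        simp only [AddSubgroup.coe_add, Pi.add_apply]
        omega
      rw [transp]
      have : (g.1 (E m)).1 l ≤ -4 ∨ 4 ≤ (g.1 (E m)).1 l := by omega
      rcases this with t | t <;> nlinarith
    · simpa using sq_nonneg _
  rw [map_norm, norm_E, ← Finset.mul_sum, Finset.sum_sub_distrib] at h5
  change 16 * (_ - wt c) ≤ _ at h5
  simp [h12] at h5

theorem mon_of_dodecad {g : Co0} {c : GolayPt → ZMod 2} {hc : c ∈ golayCode} (h12 : wt c = 12)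
    (h : g * eps c hc * g⁻¹ = eps c hc ∨ g * eps c hc * g⁻¹ = neg * eps c hc) : g ∈ Mon := by
  rw [neg_mul_eps] at h
  exact h.elim (mon_of_conj_dodecad · h12) (mon_of_conj_dodecad · h12)

end Cfsg.Co
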