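import Cfsg.Agent.Co.L4

/-! Bridges between packed matrices and the monomial group. -/

set_option autoImplicit false
set_option maxRecDepth 100000

namespace Cfsg.Co

open Cfsg.H4.Golay Cfsg.H6 Cfsg.H6.Leech Cfsg.H2 Matrix

/-- The packed matrix `c` is eight times the matrix of `g⁻¹` on columns. -/
def HasMat (g : Co0) (c : ℕ) : Prop :=
  ∀ p q, (g.1 (E p)).1 q = Leech.ent c (24 * idx p + idx q)

theorem hasMat_cu {c : ℕ} (hc : autChk c = true) : HasMat (cu c) c := fun p q => by
  have h := cu_inv hc (E q) p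
  rw [transp, Finset.sum_eq_single q (fun l _ hl => by rw [E_ne hl, mul_zero]) (by simp),
    E_self] at h
  omega

theorem HasMat.eq {g h : Co0} {c : ℕ} (hg : HasMat g c) (hh : HasMat h c) : g = h :=
  ext_E fun p => Subtype.ext (funext fun q => (hg p q).trans (hh p q).symm)

theorem HasMat.inv {g : Co0} {c : ℕ} (h : HasMat g c) (x : leechLattice) (p : GolayPt) :
    8 * (g⁻¹.1 x).1 p = ∑ q, Leech.ent c (24 * idx p + idx q) * x.1 q := by
  rw [coord8]
  exact Finset.sum_congr rfl fun q _ => by rw [transp, h, mul_comm]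

theorem HasMat.mu2 {g : Co0} {c : ℕ} {rw : ℕ → ℕ} (hc : HasMat g c) (h : mu2Chk c rw = true) :
    mu2 g = matR rw := by
  ext i j
  have h1 := List.all_eq_true.mp h i (List.mem_range.mpr i.2)
  rw [frcB_eq] at h1
  generalize pk12 _ = w at h1
  simp only [Bool.and_eq_true, List.all_eq_true, List.mem_range, beq_iff_eq] at h1
  have h2 := h1.2 j j.2
  have h3 : (sm fun p => Int.mul (e12 w p) (Leech.ent bB (24 * j + p))) =
      8 * dotInt (g⁻¹.1 (bs i)).1 (bv j).1 := by
    rw [sm_eq, dotInt, Finset.mul_sum]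
    refine Finset.sum_congr rfl fun p _ => ?_
    rw [← mul_assoc, hc.inv, h1.1 _ (idx_lt p), ← mv_false]
    rfl
  rw [h3, ← crd_mul, ← mul_assoc, show (8 * 8 : ℤ) = 64 from rfl,
    Int.mul_ediv_cancel_left _ (by norm_num)] at h2
  change ((crd (g⁻¹.1 (bs i)) j : ℤ) : ZMod 2) = dec2 (rw i) j
  rw [← ZMod.intCast_mod _ 2]
  change (((_ % 2 : ℤ)) : ZMod 2) = _
  rw [h2, dec2]
  split_ifs <;> rfl

theorem mu_row {c : ℕ} {rw : ℕ → ℕ} (hc : autChk c = true) (h : mu2Chk c rw = true) :
    ∀ k < 24, dec2 (rw k) = dec2 (2 ^ k) ᵥ* mu1 (QuotientGroup.mk (cu c)) := fun k hk => by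
  rw [mu1_mk, mu2_cu hc h, show k = ((⟨k, hk⟩ : Fin 24) : ℕ) from rfl, dec2_pow, single_one_vecMul]
  rfl

/-- The first row of the packed matrix has an entry `± 8`. -/
noncomputable def monChk (c : ℕ) : Bool :=
  (List.range 24).any fun q => Leech.ent c q == 8 || Leech.ent c q == -8

theorem HasMat.mon {g : Co0} {c : ℕ} (hc : HasMat g c) (h : monChk c = true) : g ∈ Mon := by
  simp only [monChk, List.any_eq_true, List.mem_range, Bool.or_eq_true, beq_iff_eq] at h
  obtain ⟨q, hq, e⟩ := h
  have h1 := hc (pt 0) (pt q)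
  rw [idx_pt q hq, idx_pt 0 (by norm_num), mul_zero, zero_add] at h1
  exact mon_of_one ((eq_E_of_coord (y := g.1 (E (pt 0))) (by rw [map_norm, norm_E]) (l := pt q)
    (by omega)).imp And.right And.right)

theorem cu_mem_Mon {c : ℕ} (hc : autChk c = true) (h : monChk c = true) : cu c ∈ Mon :=
  (hasMat_cu hc).mon h

/-- The packed matrix of the signed permutation `eps (wd m) * toCo0 (prm τ _)`. -/
noncomputable def sgnChk (c m τ : ℕ) : Bool :=
  (List.range 24).all fun p => (List.range 24).all fun q =>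
    Leech.ent c (24 * p + q) == if q = tb τ p then (if m.testBit q then -8 else 8) else 0

theorem sg_wd (m : ℕ) (p : GolayPt) : sg (wd m) p = if m.testBit (idx p) then -1 else 1 := by
  rw [sg, lf_wd]
  split_ifs <;> rfl

theorem hasMat_sgn {c m τ σ : ℕ} (hm : wd m ∈ golayCode) (h : Inverse τ σ) (hp : prm τ σ h ∈ M24)
    (hc : sgnChk c m τ = true) : HasMat (eps (wd m) hm * toCo0 ⟨_, hp⟩) c := fun p q => by
  simp only [sgnChk, List.all_eq_true, List.mem_range, beq_iff_eq] at hc
  rw [hc _ (idx_lt p) _ (idx_lt q), mul_apply, toCo0_E, eps_apply, sg_wd, E_apply, ← idx_prm h]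
  by_cases e : q = prm τ σ h p
  · rw [if_pos e, if_pos (congrArg idx e)]
    split_ifs <;> rfl
  · rw [if_neg e, mul_zero, if_neg fun e' => e (by rw [← pt_idx q, e', pt_idx])]

/-- The packed matrix of a sign change. -/
noncomputable def diagChk (c m : ℕ) : Bool :=
  (List.range 24).all fun p => (List.range 24).all fun q =>
    Leech.ent c (24 * p + q) == if q = p then (if m.testBit q then -8 else 8) else 0

theorem hasMat_eps {c m : ℕ} (hm : wd m ∈ golayCode) (hc : diagChk c m = true) :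
    HasMat (eps (wd m) hm) c := fun p q => by
  simp only [diagChk, List.all_eq_true, List.mem_range, beq_iff_eq] at hc
  rw [hc _ (idx_lt p) _ (idx_lt q), eps_apply, sg_wd, E_apply]
  by_cases e : q = p
  · rw [if_pos e, if_pos (congrArg idx e)]
    split_ifs <;> rfl
  · rw [if_neg e, mul_zero, if_neg fun e' => e (by rw [← pt_idx q, e', pt_idx])]

theorem cu_eq_eps {c m : ℕ} (hc : autChk c = true) (hm : wd m ∈ golayCode)
    (h : diagChk c m = true) : cu c = eps (wd m) hm := (hasMat_cu hc).eq (hasMat_eps hm h)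

theorem cu_eq_sgn {c m τ σ : ℕ} (hc : autChk c = true) (hm : wd m ∈ golayCode) (h : Inverse τ σ)
    (hp : prm τ σ h ∈ M24) (h1 : sgnChk c m τ = true) :
    cu c = eps (wd m) hm * toCo0 ⟨_, hp⟩ := (hasMat_cu hc).eq (hasMat_sgn hm h hp h1)

theorem wt_wd (m : ℕ) : wt (wd m) = sm fun i => if m.testBit i then 1 else 0 := by
  rw [sm_eq, wt]
  exact Finset.sum_congr rfl fun i _ => lf_wd m i

/-- The code is spanned by its words that are not dodecads. -/
theorem code_induction {P : (GolayPt → ZMod 2) → Prop} (h1 : ∀ c ∈ golayCode, wt c ≠ 12 → P c)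
    (h2 : ∀ c ∈ golayCode, ∀ d ∈ golayCode, P c → P d → P (c + d)) : ∀ c ∈ golayCode, P c := by
  intro c hc
  have h0 : P 0 := h1 0 (Submodule.zero_mem _) (by simp [wt, lf])
  have k : c ∈ golayCode ∧ P c := by
    rw [code_eq] at hc
    induction hc using Submodule.span_induction with
    | mem c hc =>
      obtain ⟨g, hg, rfl⟩ := hc
      have a : ∀ g ∈ basis, ∃ o ∈ [0, 84464, 2422785, 145176], red basis o = 0 ∧ wt (wd o) ≠ 12 ∧
          wt (wd (o ^^^ g)) ≠ 12 := by
        simp only [wt_wd]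
        decide +kernel
      obtain ⟨o, -, ho, a1, a2⟩ := a g hg
      have m1 : wd o ∈ golayCode := wd_mem ho
      have m2 : wd (o ^^^ g) ∈ golayCode := by
        rw [wd_xor]; exact Submodule.add_mem _ m1 (basis_mem g hg)
      have := h2 _ m1 _ m2 (h1 _ m1 a1) (h1 _ m2 a2)
      rw [← wd_xor, ← Nat.xor_assoc, Nat.xor_self, Nat.zero_xor] at this
      exact ⟨basis_mem g hg, this⟩
    | zero => exact ⟨Submodule.zero_mem _, h0⟩
    | add c d _ _ a b => exact ⟨Submodule.add_mem _ a.1 b.1, h2 _ a.1 _ b.1 a.2 b.2⟩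
    | smul a c _ b =>
      have : a = 0 ∨ a = 1 := by revert a; decide
      rcases this with rfl | rfl
      · rw [zero_smul]; exact ⟨Submodule.zero_mem _, h0⟩
      · rwa [one_smul]
  exact k.2

/-- An element commuting with all sign changes up to sign is a sign change. -/
theorem eq_eps_of_comm' {g : Co0} (h : ∀ c hc, g * eps c hc * g⁻¹ = eps c hc ∨
    g * eps c hc * g⁻¹ = neg * eps c hc) : ∃ c hc, g = eps c hc := by
  refine eq_eps_of_comm fun c hc => code_induction
    (P := fun c => ∀ hc, g * eps c hc = eps c hc * g) (fun c _ h12 hc => ?_)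
    (fun c hc d hd a b _ => ?_) c hc hc
  · exact mul_inv_eq_iff_eq_mul.mp ((h c hc).resolve_right (conj_ne_neg_mul g hc h12))
  · rw [← eps_mul hc hd, ← mul_assoc, a, mul_assoc, b, mul_assoc]

end Cfsg.Co
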