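import Cfsg.Agent.Co.M0a
import Cfsg.Agent.Co.M0b
import Cfsg.Agent.Co.M0c

/-! The letters of the model as elements of `Co₁`, and the oracle for words in them. -/

set_option autoImplicit false
set_option maxRecDepth 100000

namespace Cfsg.Co.Md

open Cfsg.H4.Golay Cfsg.H6 Cfsg.H6.Leech Cfsg.H2

/-- The permutation of a letter. -/
noncomputable def pl (l : ℕ) : M24 :=
  if h : l < 28 then ⟨prm (ta l) (ta l) (hi l h), okM_spec (hi l h) (ho l h)⟩ else 1

/-- The code word of a letter. -/
theorem em_mem (l : ℕ) : wd (em l) ∈ golayCode := by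
  by_cases h : l < 28
  · exact wd_mem (hm l h)
  · have : ∀ (L : List ℕ) (k : ℕ), L.length ≤ k → nthN L k = 0 := by
      intro L
      induction L with
      | nil => intro k _; rfl
      | cons a L ih =>
        intro k hk
        cases k with
        | zero => simp at hk
        | succ k => exact ih k (by simpa using hk)
    have e : em l = 0 := this _ _ (by simpa using h)
    rw [e]
    exact wd_mem (by decide +kernel)

/-- The letters in `Co₀`. -/
noncomputable def l0 (l : ℕ) : Co0 :=
  if l = 0 ∨ 28 ≤ l then 1 else if l = 17 ∨ l = 26 then cu (cs l)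
  else eps (wd (em l)) (em_mem l) * toCo0 (pl l)

/-- The letters in `Co₁`. -/
noncomputable def e0 (l : ℕ) : Spor.Co1 := QuotientGroup.mk (l0 l)

theorem l0_mon {l : ℕ} (h1 : 1 ≤ l) (h2 : l < 28) (h3 : l ≠ 17) (h4 : l ≠ 26) :
    l0 l = eps (wd (em l)) (em_mem l) * toCo0 (pl l) := by
  unfold l0
  rw [if_neg (by omega), if_neg (by omega)]

theorem l0_26 : l0 26 = cu (cs 26) := by
  unfold l0
  rw [if_neg (by omega), if_pos (by omega)]

theorem e0_zero : e0 0 = 1 := by
  unfold e0 l0
  rw [if_pos (by omega)]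
  rfl

theorem e0_ge {l : ℕ} (h : 28 ≤ l) : e0 l = 1 := by
  unfold e0 l0
  rw [if_pos (by omega)]
  rfl

theorem hasMat_l0 {l : ℕ} (h1 : 1 ≤ l) (h2 : l < 28) : HasMat (l0 l) (cs l) := by
  by_cases h3 : l = 17
  · subst h3
    unfold l0
    rw [if_neg (by omega), if_pos (by omega)]
    exact hasMat_cu h17
  by_cases h4 : l = 26
  · subst h4
    rw [l0_26]
    exact hasMat_cu h26
  rw [l0_mon h1 h2 h3 h4]
  unfold pl
  rw [dif_pos h2]
  refine hasMat_sgn _ _ _ ?_
  rcases hs l h2 with h | h | h | h
  · omega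
  · omega
  · omega
  · exact h

theorem mu_e0 (l : ℕ) (h1 : 1 ≤ l) (h2 : l < 28) : mu1 (e0 l) = PP.mat code l := by
  have h : mu2Chk (cs l) (rw l) = true := by
    by_cases a : l < 10
    · exact hu0 l a h1
    by_cases b : l < 19
    · exact hu1 l b (by omega)
    · exact hu2 l h2 (by omega)
  unfold e0
  rw [mu1_mk, (hasMat_l0 h1 h2).mu2 h]
  ext i j
  have := hc l h2 i i.2 j j.2
  change dec2 (rw l i) j = ((PP.dgt (code l) i j : ℕ) : ZMod 2)
  rw [this]
  unfold dec2
  split_ifs <;> rfl

/-- The action of the letters on packed matrices. -/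
noncomputable def im : ℕ → ℕ → ℕ := PP.img PP.d code

/-- The code of the identity. -/
noncomputable def b1 : ℕ := PP.one

theorem dec_val {w : List ℕ} (hw : inR 28 w = true) :
    PP.dec PP.d (trF im w b1) = mu1 (evL e0 w) := by
  have h1 := Par.dec_tr (code := code) ok PP.d w b1
  have h2 : PP.dec PP.d b1 = 1 := Par.dec_one ok (by decide)
  have h3 := map_evL_mpr (μ := mu1) mu_e0 hw
  rw [h3]
  refine h1.trans ?_
  rw [h2]
  exact Matrix.one_mul _

/-- The oracle. -/
theorem ora : Oracle e0 im 28 [b1] := by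
  intro w h
  have hw : inR 28 w = true ∧ trF im w b1 = b1 := by
    unfold fixB at h
    simpa using h
  apply mu1_inj
  rw [← dec_val hw.1, hw.2, map_one]
  exact Par.dec_one ok (by decide)

/-- A normal form of the value of a word. -/
noncomputable def val (w : List ℕ) : ℕ := PP.mul PP.d b1 (trF im w b1)

theorem val_eq {u v : List ℕ} (hu : inR 28 u = true) (hv : inR 28 v = true) :
    evL e0 u = evL e0 v ↔ val u = val v := by
  constructor
  · intro h
    exact Par.mul_congr ok (by rw [dec_val hu, dec_val hv, h])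
  · intro h
    have h2 : PP.dec PP.d b1 = 1 := Par.dec_one ok (by decide)
    have h3 : ∀ p, PP.dec PP.d (PP.mul PP.d b1 p) = PP.dec PP.d p := fun p => by
      have := Par.dec_mul ok PP.d b1 p
      rw [this]
      exact (congrArg (PP.dec PP.d p * ·) h2).trans (Matrix.mul_one _)
    apply mu1_inj
    rw [← dec_val hu, ← dec_val hv, ← h3, ← h3 (trF im v b1)]
    exact congrArg _ h

theorem sq_e0 (l : ℕ) : e0 l * e0 l = 1 := by
  by_cases h : 1 ≤ l ∧ l < 28
  · have : ∀ l < 28, l = 0 ∨ fixB im 28 [b1] [l, l] = true := by decide +kernel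
    rcases this l h.2 with a | a
    · omega
    · simpa [evL_cons, evL_nil] using ora _ a
  · by_cases a : l = 0
    · rw [a, e0_zero, one_mul]
    · rw [e0_ge (by omega), one_mul]

end Cfsg.Co.Md
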