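import Cfsg.Agent.H6.Cert

/-! Relators of the extraspecial group of order 512. -/

set_option autoImplicit false

namespace Cfsg.Co.Rc

/-- The relators in the letters of a frame. -/
def QR : List (List ℕ) :=
  (List.range 8).flatMap fun i => [1, i + 2, 1, i + 2] :: (List.range 8).map fun j =>
    if j = (i + 4) % 8 then [i + 2, j + 2, i + 2, j + 2, 1] else [i + 2, j + 2, i + 2, j + 2]

end Cfsg.Co.Rc
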