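import Cfsg.Agent.Co.W2

/-! The classes of exchanged involutions, one by one. -/

set_option autoImplicit false
set_option maxRecDepth 100000
set_option synthInstance.maxSize 8192
set_option synthInstance.maxHeartbeats 400000
set_option linter.unusedSectionVars false

namespace Cfsg.Co.Rc

open Subgroup Cfsg.H6 Cfsg.Co.Md

/-- A commutator with a word. -/
noncomputable def kOk (Y : List ℕ) (u : ℕ) (t : List ℕ) : Bool :=
  decide (u < 256) && inR 10 t && eqw (bw u ++ Y ++ (bw u).reverse) (t ++ Y)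

/-- Both signs occur. -/
noncomputable def bothOk (Y : List ℕ) (T : List (ℕ × ℕ × ℕ)) : Bool :=
  T.all fun e => decide (e.1 < 256) && kOk Y e.2.1 (bw e.1) && kOk Y e.2.2 (1 :: bw e.1)

variable {G : Type*} [Group G] [Finite G] {z y h : G} {Q : Subgroup G} {a : ℕ → G}
  (E : ES z Q) (F : Fr z Q false a)
include E F

theorem kq {Y t : List ℕ} {u : ℕ} (hy : (y, evL e0 Y) ∈ NN E F) (k : kOk Y u t = true) :
    ∃ p ∈ Q, p * y * p⁻¹ = evL (fa z a) t * y := by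
  simp only [kOk, Bool.and_eq_true, decide_eq_true_eq] at k
  exact ⟨_, ev_mem E F _, cmy E F hy (bw_inR u k.1.1) k.1.2 k.2⟩

theorem both {Y : List ℕ} {T : List (ℕ × ℕ × ℕ)} (hy : (y, evL e0 Y) ∈ NN E F)
    (hT : bothOk Y T = true) {q : G} (hq : q ∈ Q) (k : ∃ e ∈ T, e.1 = co a q) :
    ∃ p ∈ Q, p * y * p⁻¹ = q * y := by
  obtain ⟨e, he, k⟩ := k
  have := List.all_eq_true.mp hT e he
  simp only [Bool.and_eq_true] at this
  rcases nf E F hq with l | l <;> rw [l, ← k]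
  · exact kq E F hy this.1.2
  · simpa only [evL_cons, fa, if_true] using kq E F hy this.2

theorem cm_all {Y L : List ℕ} (hy : (y, evL e0 Y) ∈ NN E F) (hL : cmOk Y L = true) {q : G}
    (hq : q ∈ Q) (hv : co a q ∈ L) : q * y = y * q := by
  obtain ⟨-, p, hp, e, k⟩ := cm_of E F hy hL hv
  rcases eq_of_co E F hq hp e.symm with rfl | rfl
  · exact k
  · rw [mul_assoc, k, ← mul_assoc, ← NN_cen E F hy, mul_assoc]

theorem liftX {Y r : List ℕ} (hy : (y, evL e0 Y) ∈ NN E F) (hr : inR 27 r = true)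
    (e : eqz (r ++ Y ++ r.reverse) Y = true) (c0 : IsConj z y)
    (k : (∃ p ∈ Q, p * y * p⁻¹ = z * y) ∨ ¬ IsConj z (z * y)) :
    ∃ c, c * z = z * c ∧ c * y = y * c ∧ ∀ q ∈ Q, co a (c * q * c⁻¹) = trF img8 r.reverse (co a q) := by
  obtain ⟨c, c1, c2, c3⟩ := lift_cj E F hy hr e
  have l : ∀ c, c * z = z * c → rh E F c = evL M8 r →
      ∀ q ∈ Q, co a (c * q * c⁻¹) = trF img8 r.reverse (co a q) := fun c c1 c2 q hq => by
    rw [rh_co E F c1 hq, c2, vl_ev hr (co_lt _ _)]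
  rcases c3 with c3 | c3
  · exact ⟨c, c1, cj_cm' c3, l c c1 c2⟩
  · rcases k with ⟨p, hp, k⟩ | k
    · have m := E.qz _ (inv_mem hp)
      refine ⟨p⁻¹ * c, cz_mul m c1, cj_cm' ?_, l _ (cz_mul m c1) ?_⟩
      · rw [show p⁻¹ * c * y * (p⁻¹ * c)⁻¹ = p⁻¹ * (c * y * c⁻¹) * p by group, c3, ← k]
        group
      · rw [rh_mul E F m c1, rh_Q E F (inv_mem hp), one_mul, c2]
    · exact absurd (c3 ▸ isConj_cj c0 c) k

theorem Sw.triv (S : Sw z Q y h) {Y HB r : List ℕ} {T : List (ℕ × ℕ × ℕ)}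
    (hy : (y, evL e0 Y) ∈ NN E F) (hY : inR 27 Y = true) (hB : cmOk Y HB = true)
    (hT : bothOk Y T = true) (h0 : ∃ e ∈ T, e.1 = 0) (hr : inR 27 r = true)
    (e : eqz (r ++ Y ++ r.reverse) Y = true)
    (hc : ∀ v < 256, qf false v = false ∧ trF img8 Y.reverse v = v ∧
      (∀ u ∈ HB, qf false (u ^^^ v) = qf false u) → (∃ e ∈ T, e.1 = v) ∨
      (trF img8 r.reverse v ≠ v ∧ ∃ e ∈ T, e.1 = v ^^^ trF img8 r.reverse v))
    (i : G) (h1 : i ∈ Q) (h2 : i ∈ Qc h Q) : i = 1 := by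
  have k : ∀ i ∈ Q, i ∈ Qc h Q → (∃ e ∈ T, e.1 = co a i) → i = 1 := fun i h1 h2 k => by
    obtain ⟨p, -, l⟩ := both E F hy hT h1 k
    exact S.Iy E h2 (l ▸ isConj_cj S.cy p)
  rcases hc _ (co_lt _ _) (S.cand E F hy hY hB h1 h2) with l | ⟨l1, l2⟩
  · exact k i h1 h2 l
  · obtain ⟨c, c1, c2, c3⟩ := liftX E F hy hr e S.cy
      (Or.inl (both E F hy hT E.zQ (by rwa [co_z E F])))
    have m := E.nrm c c1 i h1
    rw [← c3 i h1, ← co_mul E F h1 m] at l2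
    have := congrArg (co a) (k _ (mul_mem h1 m) (mul_mem h2 ((S.es E).nrm c c2 i h2)) l2)
    rw [co_mul E F h1 m, co_one, Nat.xor_eq_zero_iff, c3 i h1] at this
    exact absurd this.symm l1

theorem Sw.count1 (S : Sw z Q y h) {Y HB todo L : List ℕ} (hy : (y, evL e0 Y) ∈ NN E F)
    (hB : cmOk Y HB = true) (hI : ∀ i ∈ Q, i ∈ Qc h Q → i = 1) (hL : cmOk Y L = true)
    (h2 : ∀ i < 8, ∃ u ∈ todo.reverse ++ HB, ∃ v ∈ todo.reverse ++ HB,
      ∃ w ∈ todo.reverse ++ HB, fv (2 ^ i) = xo (fv u) (xo (fv v) (fv w)))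
    (h3 : L.Nodup) (h5 : prodCnt (isoP false) 256 todo HB < L.length) : False :=
  S.count E F (JS := [0]) hy (fun _ hn k _ hb => S.fix_triv E F hy hB hI hn k hb)
    (fun i h1 h2 => by rw [hI i h1 h2, co_one]; exact List.mem_cons_self) hL
    (fun _ hb => (cm_of E F hy hB hb).1) h2 h3
    (fun _ _ _ _ k => Nat.xor_eq_zero_iff.mp (List.mem_singleton.mp k)) h5

theorem Sw.case1 (S : Sw z Q y h) (hy : (y, evL e0 (YR 1)) ∈ NN E F) : False := by
  have hB : cmOk (YR 1) [0, 1, 2, 4, 8, 128] = true := by decide +kernel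
  exact S.count1 E F (todo := [16, 32, 64]) (L := [0, 1, 2, 3, 4, 5, 6, 7, 8, 9, 10, 11, 12, 13, 14, 15, 128, 129, 130, 131, 132, 133, 134, 135, 136, 137, 138, 139, 140, 141, 142, 143]) hy hB
    (S.triv E F (r := [7, 18]) (T := [(0, 0, 64), (1, 96, 32), (2, 16, 80), (3, 48, 112)]) hy (by decide) hB (by decide +kernel) (by decide)
      (by decide) (by decide +kernel) (by decide +kernel))
    (by decide +kernel) (by decide +kernel) (by decide +kernel) (by decide +kernel)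

theorem Sw.case2 (S : Sw z Q y h) (hy : (y, evL e0 (YR 2)) ∈ NN E F) : False := by
  have hB : cmOk (YR 2) [0, 1, 2, 8, 128, 68] = true := by decide +kernel
  exact S.count1 E F (todo := [4, 16, 32]) (L := [0, 1, 2, 3, 8, 9, 10, 11, 128, 129, 130, 131, 136, 137, 138, 139, 68, 69, 70, 71, 76, 77, 78, 79, 196, 197, 198, 199, 204, 205, 206, 207]) hy hB
    (S.triv E F (r := []) (T := [(0, 0, 4), (1, 36, 32), (2, 16, 20), (3, 48, 52)]) hy (by decide) hB (by decide +kernel) (by decide)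
      (by decide) (by decide +kernel) (by decide +kernel))
    (by decide +kernel) (by decide +kernel) (by decide +kernel) (by decide +kernel)

theorem Sw.case3 (S : Sw z Q y h) (hy : (y, evL e0 (YR 3)) ∈ NN E F) : False := by
  have hB : cmOk (YR 3) [0, 1, 2, 4, 32, 64] = true := by decide +kernel
  exact S.count1 E F (todo := [16, 8, 128]) (L := [0, 1, 2, 3, 4, 5, 6, 7, 32, 33, 34, 35, 36, 37, 38, 39, 64, 65, 66, 67, 68, 69, 70, 71, 96, 97, 98, 99, 100, 101, 102, 103]) hy hB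
    (S.triv E F (r := []) (T := [(0, 0, 136), (1, 128, 8)]) hy (by decide) hB (by decide +kernel) (by decide)
      (by decide) (by decide +kernel) (by decide +kernel))
    (by decide +kernel) (by decide +kernel) (by decide +kernel) (by decide +kernel)

theorem Sw.case4 (S : Sw z Q y h) (hy : (y, evL e0 (YR 4)) ∈ NN E F) : False := by
  have hB : cmOk (YR 4) [0, 1, 4, 64, 34, 138] = true := by decide +kernel
  exact S.count1 E F (todo := [2, 8, 16]) (L := [0, 1, 4, 5, 64, 65, 68, 69, 34, 35, 38, 39, 98, 99, 102, 103, 138, 139, 142, 143, 202, 203, 206, 207, 168, 169, 172, 173, 232, 233, 236, 237]) hy hB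
    (S.triv E F (r := []) (T := [(0, 0, 2), (1, 10, 8)]) hy (by decide) hB (by decide +kernel) (by decide)
      (by decide) (by decide +kernel) (by decide +kernel))
    (by decide +kernel) (by decide +kernel) (by decide +kernel) (by decide +kernel)

theorem Sw.aty (S : Sw z Q y h) {q : G} (hq : q ∈ Q) (k : q * y = y * q)
    (h1 : qf false (co a q) = false) (h2 : co a q ≠ 0) (h3 : IsConj z (q * y)) {v : ℕ}
    (hv : v < 256) : qf false (v ^^^ vl (rh E F (h * q * h⁻¹)) v) = false := by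
  have n1 := S.upc k
  have n2 : h * q * h⁻¹ * (h * q * h⁻¹) = 1 := by
    rw [conj_mul, sq_co E F hq, h1]; simp
  have n3 : IsConj z (z * (h * q * h⁻¹)) := by
    have := isConj_cj h3 h
    rwa [k, ← conj_mul, S.hy] at this
  have n4 : h * q * h⁻¹ ≠ y := fun e => h2 (by
    rw [← S.hz] at e
    rw [show q = z by simpa using e, co_z E F])
  have n5 := up_Qc (h := h) hq
  generalize h * q * h⁻¹ = n at *
  have p1 := ev_mem E F (bw v)
  have p2 := co_bw E F hv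
  generalize evL (fa z a) (bw v) = p at *
  have m := E.nrm n n1 _ (inv_mem p1)
  have s := sq_co E F (mul_mem p1 m)
  rw [co_mul E F p1 m, rh_co E F n1 (inv_mem p1), co_inv E F p1, p2] at s
  by_contra e
  rw [if_pos (by simpa using e)] at s
  refine n4 (S.wc' n5 (n3.trans (isConj_iff.mpr ⟨(p * (n * p⁻¹ * n⁻¹))⁻¹, ?_⟩)))
  rw [← s]
  calc _ = p * (n * n) * p⁻¹ * n⁻¹ := by group
    _ = n := by rw [n2, mul_one, mul_inv_cancel, one_mul, inv_eq_of_mul_eq_one_right n2]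

theorem Sw.case7 (S : Sw z Q y h) (hy : (y, evL e0 (YR 7)) ∈ NN E F) : False := by
  have hT : bothOk (YR 7) [(0, 0, 136), (1, 128, 8), (2, 64, 200), (3, 192, 72), (4, 32, 168), (5, 160, 40), (6, 232, 96), (7, 104, 224)] = true := by decide +kernel
  have hB : cmOk (YR 7) [0, 1, 2, 3, 4, 5, 6, 7] = true := by decide +kernel
  have hI := S.triv E F (r := []) hy (by decide) hB hT (by decide) rfl (by decide +kernel)
    (by decide +kernel)
  have t1 : ∀ x < 256, qf false x = false → qf false (16 ^^^ x) = false → x.testBit 0 = false := by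
    decide +kernel
  have t2 : ∀ p < 256, (∀ w ∈ [0, 1, 2, 3, 4, 5, 6, 7], qf false (p ^^^ w) = qf false (137 ^^^ w)) →
      p ^^^ 137 ∈ [0, 1, 2, 3, 4, 5, 6, 7] := by decide +kernel
  have c : ∀ q ∈ Q, co a q ∈ [1, 2, 3] → q * y = y * q := fun q hq k =>
    cm_all E F hy hB hq ((by decide : ∀ v ∈ [1, 2, 3], v ∈ [0, 1, 2, 3, 4, 5, 6, 7]) _ k)
  have k1 : ∀ q ∈ Q, co a q ∈ [1, 2, 3] → (vl (rh E F (h * q * h⁻¹)) 16).testBit 0 = false :=
    fun q hq k => by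
      obtain ⟨p, -, l⟩ := both E F hy hT hq
        ((by decide : ∀ v ∈ [1, 2, 3], ∃ e ∈ ([(0, 0, 136), (1, 128, 8), (2, 64, 200), (3, 192, 72), (4, 32, 168), (5, 160, 40), (6, 232, 96), (7, 104, 224)] : List (ℕ × ℕ × ℕ)), e.1 = v) _ k)
      exact t1 _ (vl_lt _ _) (vl_qf (rh_OG E F _) (by norm_num)) (S.aty E F hq (c q hq k)
        ((by decide : ∀ v ∈ [1, 2, 3], qf false v = false) _ k)
        ((by decide : ∀ v ∈ [1, 2, 3], v ≠ 0) _ k) (l ▸ isConj_cj S.cy p) (by norm_num))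
  have k2 : ∀ q ∈ Q, co a q ∈ [1, 2, 3] → (vl (rh E F (h * q * h⁻¹)) 137).testBit 0 = false :=
    fun q hq k => by
      have := k1 _ (mul_mem hq E.zQ) (by rwa [E.qz q hq, co_zm E F hq])
      rw [← conj_mul, S.hz, rh_mul E F (S.upc (c q hq k)) S.cm, vl_mul, rh_NN E F (by decide) hy,
        vl_ev (by decide) (by norm_num), show trF img8 (YR 7).reverse 16 = 153 by decide +kernel] at this
      rw [show 137 = 16 ^^^ 153 from rfl, vl_xor (rh_OG E F _) (by norm_num) (by norm_num),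
        Nat.testBit_xor, this, k1 q hq k]
      rfl
  have q0 := F.mem 0 (by norm_num)
  have q1 := F.mem 1 (by norm_num)
  have r0 : co a (a 0) ∈ [1, 2, 3] := by rw [co_a E F (by norm_num)]; decide
  have r1 : co a (a 1) ∈ [1, 2, 3] := by rw [co_a E F (by norm_num)]; decide
  have f := fun q hq k b => S.fix_triv E F hy hB hI (up_Qc hq) (S.upc (c q hq k)) (b := b)
  have u := t2 _ (vl_lt (rh E F (h * a 1 * h⁻¹)) 137) fun w hw => by
    have := vl_qf2 (rh_OG E F (h * a 1 * h⁻¹)) (p := 137) (by norm_num) (cm_of E F hy hB hw).1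
    rwa [f _ q1 r1 w hw] at this
  have e := k2 _ (mul_mem q0 q1) (by
    rw [co_mul E F q0 q1, co_a E F (by norm_num), co_a E F (by norm_num)]; decide)
  have e1 := k2 _ q1 r1
  rw [← conj_mul, rh_mul E F (S.upc (c _ q0 r0)) (S.upc (c _ q1 r1)), vl_mul] at e
  generalize vl (rh E F (h * a 1 * h⁻¹)) 137 = p at *
  rw [xor_swap (rfl : p ^^^ 137 = _), vl_xor (rh_OG E F _) (cm_of E F hy hB u).1 (by norm_num),
    f _ q0 r0 _ u, Nat.testBit_xor, Nat.testBit_xor, k2 _ q0 r0, e1] at e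
  exact absurd e (by decide)

theorem Sw.one (S : Sw z Q y h) {Y t : List ℕ} {u : ℕ} (hy : (y, evL e0 Y) ∈ NN E F)
    (k : kOk Y u t = true) {i : G} (h1 : i ∈ Q) (h2 : i ∈ Qc h Q) (e : co a i = xs t)
    (h0 : xs t ≠ 0) : i = z * evL (fa z a) t ∧ ¬ IsConj z (z * y) := by
  obtain ⟨p, hp, l⟩ := kq E F hy k
  have n : ¬ IsConj z (i * y) := fun c => h0 (by rw [← e, S.Iy E h2 c, co_one])
  rcases eq_of_co E F h1 (ev_mem E F t) (e.trans (co_ev E F t).symm) with m | m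
  · exact absurd (by rw [m, ← l]; exact isConj_cj S.cy p) n
  · refine ⟨m, fun c => n ?_⟩
    have := isConj_cj c p
    rwa [← conj_mul, cm_cj (E.qz p hp), l, ← mul_assoc, ← m] at this

omit F in
theorem Sw.back (S : Sw z Q y h) {q : G} (hq : q ∈ Q) : h⁻¹ * q * h ∈ Qc h Q := by
  have := E.nrm (h * h)⁻¹ (cz_inv (cj_cm' (by
    rw [show h * h * z * (h * h)⁻¹ = h * (h * z * h⁻¹) * h⁻¹ by group, S.hz, S.hy]))) _ hq
  rwa [show (h * h)⁻¹ * q * (h * h)⁻¹⁻¹ = h⁻¹ * (h⁻¹ * q * h) * h by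
    simp only [mul_inv_rev, inv_inv, mul_assoc], ← mem_Qc] at this

omit E F in
theorem pair1 {n q j : G} (h1 : n * j = j * n)
    (h2 : n * q * n⁻¹ * q⁻¹ * j = j * (n * q * n⁻¹ * q⁻¹)) :
    n * (j * q) * n⁻¹ * (j * q)⁻¹ = n * q * n⁻¹ * q⁻¹ := by
  rw [← mul_assoc, h1, show j * n * q * n⁻¹ * (j * q)⁻¹ = j * (n * q * n⁻¹ * q⁻¹) * j⁻¹ by group,
    ← h2, mul_inv_cancel_right]

omit E F in
theorem pair2 {n q j : G} (h1 : q * j = j * q)
    (h2 : n * q * n⁻¹ * q⁻¹ * j = j * (n * q * n⁻¹ * q⁻¹)) :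
    j * n * q * (j * n)⁻¹ * q⁻¹ = n * q * n⁻¹ * q⁻¹ := by
  rw [show j * n * q * (j * n)⁻¹ * q⁻¹ = j * (n * q * n⁻¹ * q⁻¹) * (q * j⁻¹ * q⁻¹) by group,
    cm_cj (Commute.inv_right h1 : Commute _ _), ← h2, mul_inv_cancel_right]

theorem Sw.case0 (S : Sw z Q y h) (hy : (y, evL e0 (YR 0)) ∈ NN E F) : False := by
  have hB : cmOk (YR 0) [1, 2, 4, 8, 64, 128] = true := by decide +kernel
  have hY : inR 27 (YR 0) = true := by decide
  have hJ : ∀ i ∈ Q, i ∈ Qc h Q → co a i ∈ [0, 1, 2, 3] := fun i h1 h2 =>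
    (by decide +kernel : ∀ v < 256, qf false v = false ∧ trF img8 (YR 0).reverse v = v ∧
      (∀ u ∈ [1, 2, 4, 8, 64, 128], qf false (u ^^^ v) = qf false u) → v ∈ [0, 1, 2, 3]) _
      (co_lt _ _) (S.cand E F hy hY hB h1 h2)
  refine S.count E F (HB := [1, 2, 4, 8, 64, 128]) (todo := [16, 32]) (L := [0, 4, 8, 12, 64, 68, 72, 76, 128, 132, 136, 140, 192, 196, 200, 204]) hy ?_ hJ
    (by decide +kernel) (by decide) (by decide +kernel) (by decide) (by decide +kernel)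
    (by decide +kernel)
  by_cases hI : ∀ i ∈ Q, i ∈ Qc h Q → i = 1
  · exact fun _ hn k _ hb => S.fix_triv E F hy hB hI hn k hb
  push Not at hI
  obtain ⟨i, i1, i2, i3⟩ := hI
  have i4 : co a i ≠ 0 := fun e => i3 (S.co_ne E F i1 i2 e)
  have hn : ¬ IsConj z (z * y) := by
    obtain ⟨e, -, e1, e2⟩ := (by decide +kernel : ∀ v ∈ [0, 1, 2, 3], v ≠ 0 →
      ∃ e ∈ ([(32, [1, 2]), (16, [3]), (48, [2, 3])] : List (ℕ × List ℕ)), v = xs e.2 ∧ kOk (YR 0) e.1 e.2 = true) _ (hJ i i1 i2) i4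
    exact (S.one E F hy e2 i1 i2 e1 (e1 ▸ i4)).2
  obtain ⟨ρ, ρ1, ρ2, ρ3⟩ := liftX E F hy (r := [6, 10, 11]) (by decide) (by decide +kernel) S.cy (Or.inr hn)
  obtain ⟨r, r1, r2, r3⟩ := liftX E F hy (r := [7, 10]) (by decide) (by decide +kernel) S.cy (Or.inr hn)
  have E' := S.es E
  have al : ∀ w < 4, ∃ j ∈ Q, j ∈ Qc h Q ∧ co a j = w := fun w hw => by
    have m := E.nrm ρ ρ1 i i1
    have m' := E'.nrm ρ ρ2 i i2
    rcases (by decide +kernel : ∀ v ∈ [0, 1, 2, 3], v ≠ 0 → ∀ w < 4, 0 = w ∨ v = w ∨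
      trF img8 ([6, 10, 11] : List ℕ).reverse v = w ∨ v ^^^ trF img8 ([6, 10, 11] : List ℕ).reverse v = w) _
      (hJ i i1 i2) i4 w hw with e | e | e | e
    · exact ⟨1, one_mem _, one_mem _, (co_one).trans e⟩
    · exact ⟨i, i1, i2, e⟩
    · exact ⟨_, m, m', (ρ3 i i1).trans e⟩
    · exact ⟨_, mul_mem i1 m, mul_mem i2 m', by rw [co_mul E F i1 m, ρ3 i i1, e]⟩
  have sg : ∀ {c : G} {w : List ℕ}, c * z = z * c →
      (∀ q ∈ Q, co a (c * q * c⁻¹) = trF img8 w (co a q)) →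
      (∀ v < 256, trF img8 (YR 0).reverse v = v → trF img8 w v ^^^ v < 4) →
      ∀ q ∈ Q, q * y = y * q → ∃ j ∈ Q, j ∈ Qc h Q ∧ (c * q * c⁻¹ = j * q ∨ c * q * c⁻¹ = z * j * q) :=
    fun {c w} c1 c2 c3 q hq k => by
      obtain ⟨j, j1, j2, j3⟩ := al _ (c3 _ (co_lt a q) (by
        rw [← vl_ev hY (co_lt _ _), ← rh_NN E F hY hy, ← rh_co E F S.cm hq, cm_cj k.symm]))
      refine ⟨j, j1, j2, ?_⟩
      rw [mul_assoc z]
      exact eq_of_co E F (E.nrm c c1 q hq) (mul_mem j1 hq) (by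
        rw [co_mul E F j1 hq, j3, c2 q hq, Nat.xor_assoc, Nat.xor_self, Nat.xor_zero])
  have L1 : ∀ n ∈ Qc h Q, n * z = z * n → ∀ q ∈ Q, q * y = y * q →
      r * (n * q * n⁻¹ * q⁻¹) * r⁻¹ = r * n * r⁻¹ * q * (r * n * r⁻¹)⁻¹ * q⁻¹ := fun n hn k q hq l => by
    obtain ⟨j, j1, j2, j3⟩ := sg r1 r3 (by decide +kernel) q hq l
    have n1 := E'.nrm r r2 n hn
    have n2 := cz_mul (cz_mul r1 k) (cz_inv r1)
    obtain ⟨m1, m2⟩ := S.cI E hq l n1 n2
    rw [show r * (n * q * n⁻¹ * q⁻¹) * r⁻¹ =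
      r * n * r⁻¹ * (r * q * r⁻¹) * (r * n * r⁻¹)⁻¹ * (r * q * r⁻¹)⁻¹ by group]
    have c1 := S.Icm' E j1 j2 n1 n2
    have c2 := S.Icm E j1 j2 m1 (E'.qz _ m2)
    rcases j3 with e | e <;> rw [e]
    · exact pair1 c1 c2
    · exact pair1 (Commute.mul_right n2 c1 : Commute _ _)
        (Commute.mul_right (E.qz _ m1) c2 : Commute _ _)
  have σ1 := S.upc ρ2
  have σ2 := S.upz ρ1
  have L2 : ∀ n ∈ Qc h Q, n * z = z * n → ∀ q ∈ Q, q * y = y * q →
      h * ρ * h⁻¹ * (n * q * n⁻¹ * q⁻¹) * (h * ρ * h⁻¹)⁻¹ = n * (h * ρ * h⁻¹ * q * (h * ρ * h⁻¹)⁻¹) *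
        n⁻¹ * (h * ρ * h⁻¹ * q * (h * ρ * h⁻¹)⁻¹)⁻¹ := fun n hn k q hq l => by
    obtain ⟨j, j1, j2, j3⟩ := sg ρ1 ρ3 (by decide +kernel) _ (mem_Qc.mp hn) (by
      have := cj_cm (h := h⁻¹) k
      rwa [← S.hy, show h⁻¹ * (h * y * h⁻¹) * h⁻¹⁻¹ = y by group, inv_inv] at this)
    have q1 := E.nrm _ σ1 q hq
    have q2 := cz_mul (cz_mul σ2 l) (cz_inv σ2)
    obtain ⟨m1, m2⟩ := S.cI E q1 q2 hn k
    have c1 := S.Icm E (S.down E j2) (up_Qc j1) q1 q2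
    have c2 := S.Icm E (S.down E j2) (up_Qc j1) m1 (E'.qz _ m2)
    rw [show h * ρ * h⁻¹ * (n * q * n⁻¹ * q⁻¹) * (h * ρ * h⁻¹)⁻¹ =
      h * (ρ * (h⁻¹ * n * h) * ρ⁻¹) * h⁻¹ * (h * ρ * h⁻¹ * q * (h * ρ * h⁻¹)⁻¹) *
      (h * (ρ * (h⁻¹ * n * h) * ρ⁻¹) * h⁻¹)⁻¹ * (h * ρ * h⁻¹ * q * (h * ρ * h⁻¹)⁻¹)⁻¹ by group]
    rcases j3 with e | e <;> rw [e]
    · rw [show h * (j * (h⁻¹ * n * h)) * h⁻¹ = h * j * h⁻¹ * n by group]
      exact pair2 c1 c2
    · rw [show h * (z * j * (h⁻¹ * n * h)) * h⁻¹ = h * z * h⁻¹ * (h * j * h⁻¹) * n by group, S.hz]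
      exact pair2 (Commute.mul_right q2 c1 : Commute _ _)
        (Commute.mul_right (E'.qz _ m2) c2 : Commute _ _)
  have fp : ∀ w < 4, vl (rh E F (h * ρ * h⁻¹)) w ∈ [0, 1, 2, 3] ∧
      (vl (rh E F (h * ρ * h⁻¹)) w = w → w = 0) := fun w hw => by
    obtain ⟨j, j1, j2, rfl⟩ := al w hw
    have m1 := E.nrm _ σ1 j j1
    have m2 := E'.nrm _ σ2 j j2
    rw [← rh_co E F σ1 j1]
    refine ⟨hJ _ m1 m2, fun e => ?_⟩
    have e' := (eq_of_co E F m1 j1 e).resolve_right fun k => S.zQ (by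
      have := mul_mem m2 (inv_mem j2)
      rwa [k, mul_inv_cancel_right] at this)
    have k := ρ3 _ (mem_Qc.mp j2)
    rw [show ρ * (h⁻¹ * j * h) * ρ⁻¹ = h⁻¹ * (h * ρ * h⁻¹ * j * (h * ρ * h⁻¹)⁻¹) * h by group,
      e'] at k
    have := S.co_ne E F (mem_Qc.mp j2) (S.back E j1) ((by decide +kernel : ∀ v ∈ [0, 1, 2, 3],
      v = trF img8 ([6, 10, 11] : List ℕ).reverse v → v = 0) _ (hJ _ (mem_Qc.mp j2) (S.back E j1)) k)
    rw [show j = 1 by simpa [mul_assoc, inv_mul_eq_one, eq_comm] using this, co_one]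
  intro n hn k b hb
  obtain ⟨-, q, hq, rfl, l⟩ := cm_of E F hy hB hb
  obtain ⟨m1, m2⟩ := S.cI E hq l hn k
  have e : r * (h * ρ * h⁻¹ * (n * q * n⁻¹ * q⁻¹) * (h * ρ * h⁻¹)⁻¹) * r⁻¹ =
      h * ρ * h⁻¹ * (r * (n * q * n⁻¹ * q⁻¹) * r⁻¹) * (h * ρ * h⁻¹)⁻¹ := by
    rw [L2 n hn k q hq l, L1 n hn k _ (E.nrm _ σ1 q hq) (cz_mul (cz_mul σ2 l) (cz_inv σ2)),
      L1 n hn k q hq l, L2 _ (E'.nrm r r2 n hn) (cz_mul (cz_mul r1 k) (cz_inv r1)) q hq l]
  have e' := congrArg (co a) e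
  rw [r3 _ (E.nrm _ σ1 _ m1), rh_co E F σ1 m1, rh_co E F σ1 (E.nrm r r1 _ m1), r3 _ m1] at e'
  have x3 := vl_xor (rh_OG E F (h * ρ * h⁻¹)) (p := 1) (q := 2) (by norm_num) (by norm_num)
  have f1 := fp 1 (by norm_num)
  have f2 := fp 2 (by norm_num)
  have f3 := fp 3 (by norm_num)
  have n0 : ∀ w < 4, vl (rh E F (h * ρ * h⁻¹)) w = 0 → w = 0 := fun w hw e =>
    vl_inj _ (by omega) (by norm_num) (e.trans (vl_zero (rh_OG E F _)).symm)
  have g1 := n0 1 (by norm_num)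
  have g2 := n0 2 (by norm_num)
  have g3 := n0 3 (by norm_num)
  have t : ∀ v ∈ [0, 1, 2, 3], trF img8 ([7, 10] : List ℕ).reverse v = [0, 1, 3, 2].getD v 0 := by
    decide +kernel
  have hw := hJ _ m1 m2
  rw [t _ hw, t _ (fp _ ((by decide : ∀ v ∈ [0, 1, 2, 3], v < 4) _ hw)).1] at e'
  have : co a (n * q * n⁻¹ * q⁻¹) = 0 := by
    rw [show 1 ^^^ 2 = 3 from rfl] at x3
    obtain ⟨u1, u2, u3⟩ := (by decide : ∀ x ∈ [0, 1, 2, 3], ∀ x' ∈ [0, 1, 2, 3], x ≠ 0 ∧ x ≠ 1 ∧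
      x' ≠ 0 ∧ x' ≠ 2 ∧ x ^^^ x' ≠ 0 ∧ x ^^^ x' ≠ 3 → [0, 1, 3, 2].getD x 0 ≠ x ∧
      [0, 1, 3, 2].getD x' 0 ≠ x ^^^ x' ∧ [0, 1, 3, 2].getD (x ^^^ x') 0 ≠ x') _ f1.1 _ f2.1
      ⟨fun e => absurd (g1 e) (by decide), fun e => absurd (f1.2 e) (by decide),
        fun e => absurd (g2 e) (by decide), fun e => absurd (f2.2 e) (by decide),
        fun e => absurd (g3 (x3.trans e)) (by decide), fun e => absurd (f3.2 (x3.trans e)) (by decide)⟩
    rw [← x3] at u2 u3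
    generalize co a (n * q * n⁻¹ * q⁻¹) = w at hw e' ⊢
    simp only [List.mem_cons, List.not_mem_nil, or_false] at hw
    rcases hw with rfl | rfl | rfl | rfl
    exacts [rfl, absurd e' u1, absurd e' u2, absurd e' u3]
  rw [← rh_co E F k hq, mul_inv_eq_one.mp (S.co_ne E F m1 m2 this)]

end Cfsg.Co.Rc
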