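import Cfsg.Agent.Co.W4
import Cfsg.Agent.Co.B3
import Cfsg.Agent.Co.C5
import Cfsg.Agent.H5.ZStar
import Cfsg.Agent.H7.Core

/-! The involution is not weakly closed; the odd core of the centraliser is trivial. -/

set_option autoImplicit false
set_option maxRecDepth 100000

namespace Cfsg.Co.Rc

open Subgroup QuadraticMap

section Odd

variable {ι : Type} [Fintype ι] [DecidableEq ι] {q : QuadraticForm (ZMod 2) (ι → ZMod 2)}

theorem z2 : ∀ x : ZMod 2, x ≠ 0 → x = 1 := by decide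

theorem refl_inj (hq : (polarBilin q).Nondegenerate) {v w : ι → ZMod 2} (hv : q v ≠ 0) (hw : q w ≠ 0)
    (h : H3.refl q v = H3.refl q w) : v = w := by
  have v0 : v ≠ 0 := by rintro rfl; exact hv (map_zero q)
  obtain ⟨x, hx⟩ := H3.exists_polar_eq_one hq v0
  have e : H3.refl q v • x = H3.refl q w • x := by rw [h]
  rw [H3.refl_smul, H3.refl_smul, z2 _ hv, z2 _ hw, hx, inv_one, one_mul, one_mul, one_smul,
    sub_right_inj] at e
  by_cases k : polar q w x = 0
  · rw [k, zero_smul] at e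
    exact absurd e v0
  · rwa [z2 _ k, one_smul] at e

theorem sing_orth (hq : (polarBilin q).Nondegenerate) (hn : 4 < Fintype.card ι) (v w : ι → ZMod 2) :
    ∃ s, s ≠ 0 ∧ q s = 0 ∧ polar q v s = 0 ∧ polar q w s = 0 := by
  obtain ⟨x, x0, hx⟩ := H3.exists_ne_zero_polar (Q := q) [v, w] (by simp; omega)
  by_cases a : q x = 0
  · exact ⟨x, x0, a, hx v (by simp), hx w (by simp)⟩
  obtain ⟨b, hb⟩ := H3.exists_polar_eq_one hq x0
  obtain ⟨y, y0, hy⟩ := H3.exists_ne_zero_polar (Q := q) [v, w, x, b] (by simpa using hn)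
  by_cases c : q y = 0
  · exact ⟨y, y0, c, hy v (by simp), hy w (by simp)⟩
  refine ⟨x + y, fun e => ?_, ?_, ?_, ?_⟩
  · have := congrArg (polar q b) e
    rw [polar_add_right, hy b (by simp), polar_comm, hb, polar_zero_right] at this
    exact absurd this (by decide)
  · rw [H3.Q_add, z2 _ a, z2 _ c, hy x (by simp)]; decide
  · rw [polar_add_right, hx v (by simp), hy v (by simp), add_zero]
  · rw [polar_add_right, hx w (by simp), hy w (by simp), add_zero]

theorem odd_bot (hq : (polarBilin q).Nondegenerate) (hn : 4 < Fintype.card ι) (K : Subgroup (H3.OG q))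
    [hK : K.Normal] (h2 : (Nat.card K).Coprime 2) : K = ⊥ := by
  have inv : ∀ k ∈ K, k * k = 1 → k = 1 := fun k hk e => orderOf_eq_one_iff.mp
    (Nat.eq_one_of_dvd_coprimes h2 (K.orderOf_dvd_natCard hk)
      (orderOf_dvd_of_pow_eq_one (by rwa [pow_two])))
  have cm : ∀ v w, q v ≠ 0 → q w ≠ 0 → polar q v w = 0 → H3.refl q v * H3.refl q w ∈ K → v = w :=
    fun v w hv hw e m => by
      have c := H3.refl_conj (H3.refl q v) w
      rw [H3.refl_smul_of_polar e, H3.refl_inv] at c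
      have := inv _ m (by rw [← mul_assoc, c, H3.refl_mul_self])
      rw [mul_eq_one_iff_eq_inv, H3.refl_inv] at this
      exact refl_inj hq hv hw this
  have fx : ∀ k ∈ K, ∀ v, q v ≠ 0 → k • v = v := fun k hk v hv => by
    have hw : q (k • v) ≠ 0 := by rwa [H3.OG.map_Q]
    have m : H3.refl q v * H3.refl q (k • v) ∈ K := by
      have := mul_mem (hK.conj_mem k hk (H3.refl q v)) (inv_mem hk)
      rwa [H3.refl_inv, mul_assoc, mul_assoc, ← mul_assoc k, H3.refl_conj] at this
    generalize k • v = w at *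
    by_cases e : polar q v w = 0
    · exact (cm v w hv hw e m).symm
    obtain ⟨s, s0, s1, s2, s3⟩ := sing_orth hq hn v w
    have t : ∀ x : ZMod 2, 2 * x = 0 := by decide
    have key : ∀ u, q u = 1 → polar q u v = 0 → polar q u w = 1 →
        H3.refl q v * H3.refl q (w - u) ∈ K := fun u u1 u2 u3 => by
      have := hK.conj_mem _ m (H3.refl q u)
      rwa [← conj_mul, H3.refl_conj, H3.refl_conj, H3.refl_smul_of_polar u2, H3.refl_smul, u1, u3,
        inv_one, one_mul, one_smul] at this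
    have q2 : q (v + s) = 1 := by rw [H3.Q_add, s1, s2, z2 _ hv]; decide
    have p2 : polar q (v + s) w = 1 := by rw [polar_add_left, polar_comm q s, s3, z2 _ e, add_zero]
    have m1 := key v (z2 _ hv) (by rw [H3.polar_self', t]) (z2 _ e)
    have m2 := key (v + s) q2 (by rw [polar_add_left, H3.polar_self', t, polar_comm, s2, add_zero]) p2
    have m3 := mul_mem (inv_mem m1) m2
    rw [mul_inv_rev, H3.refl_inv, H3.refl_inv, mul_assoc, ← mul_assoc (H3.refl q v), H3.refl_mul_self,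
      one_mul] at m3
    have := cm _ _ (by rw [H3.Q_sub, z2 _ hw, z2 _ hv, polar_comm, z2 _ e]; decide)
      (by rw [H3.Q_sub, z2 _ hw, q2, polar_comm, p2]; decide)
      (by rw [← sub_sub, polar_sub_right, H3.polar_self', t, polar_sub_left, s3, s2]; decide) m3
    exact absurd (by simpa using this) s0
  refine eq_bot_iff.mpr fun k hk => mem_bot.mpr (H3.OG.ext_smul fun x => ?_)
  rw [one_smul]
  by_cases a : q x = 0
  swap
  · exact fx k hk x a
  have : ∃ n, q n ≠ 0 ∧ polar q x n = 0 := by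
    obtain ⟨n, hn'⟩ := H3.exists_nonsingular hq (by omega)
    by_cases b : polar q x n = 0
    · exact ⟨n, hn', b⟩
    obtain ⟨s, s0, s1, s2, s3⟩ := sing_orth hq hn x n
    obtain ⟨c, hc⟩ := H3.exists_polar_eq_one hq s0
    have c1 : polar q x (c - polar q x c • n) = 0 := by
      rw [polar_sub_right, polar_smul_right, z2 _ b]; simp
    have c2 : polar q s (c - polar q x c • n) = 1 := by
      rw [polar_sub_right, polar_smul_right, polar_comm q s n, s3, hc]; simp
    generalize c - polar q x c • n = d at *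
    by_cases e : q d = 0
    · exact ⟨s + d, by rw [H3.Q_add, s1, e, c2]; decide, by rw [polar_add_right, s2, c1, add_zero]⟩
    · exact ⟨d, e, c1⟩
  obtain ⟨n, hn', b⟩ := this
  have := fx k hk (x + n) (by rwa [H3.Q_add, a, b, zero_add, add_zero])
  rwa [smul_add, fx k hk n hn', add_left_inj] at this

theorem core_omega :
    pPrimeCore 2 (Cfsg.Omega (ZMod 2) (Cfsg.quadFormPlus 4 (ZMod 2))) = ⊥ := by
  have := odd_bot (q := H3.QPlus 4 (ZMod 2)) (H2.nondegenerate_of_ofQuad H2.QPlus_nondeg) (by simp)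
    ((pPrimeCore 2 (commutator (H3.OG (H3.QPlus 4 (ZMod 2))))).map (Subgroup.subtype _))
    (by rw [card_subtype]; exact H7.coprime_card_pPrimeCore 2 _)
  exact (map_eq_bot_iff_of_injective _ (subtype_injective _)).mp this

end Odd

theorem cen_le {C : Type*} [Group C] [Finite C] (hcon : IsPConstrained 2 C)
    (e : C ⧸ pCore 2 C ≃* Cfsg.Omega (ZMod 2) (Cfsg.quadFormPlus 4 (ZMod 2))) :
    centralizer (pCore 2 C : Set C) ≤ pCore 2 C := by
  have h1 : pPrimeCore 2 C = ⊥ := by
    have := H7.map_pPrimeCore_le (p := 2) (f := e.toMonoidHom.comp (QuotientGroup.mk' _))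
      (e.surjective.comp (QuotientGroup.mk'_surjective _))
    rw [core_omega, le_bot_iff, Subgroup.map_eq_bot_iff, ← MonoidHom.comap_ker,
      (MonoidHom.ker_eq_bot_iff _).mpr e.injective, MonoidHom.comap_bot, QuotientGroup.ker_mk'] at this
    rw [← H7.pCore_inf_pPrimeCore 2 C, inf_of_le_right this]
  have h2 : pPrimePCore 2 C = pCore 2 C :=
    H7.comap_pCore_quotient (by rw [h1]; exact IsPGroup.of_bot)
  obtain ⟨P⟩ : Nonempty (Sylow 2 (pPrimePCore 2 C)) := inferInstance
  have h3 : (P : Subgroup (pPrimePCore 2 C)) = ⊤ :=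
    (P.3 (IsPGroup.to_subgroup (by rw [h2]; exact H7.isPGroup_pCore 2 C) ⊤) le_top).symm
  have := hcon P
  rwa [h3, ← MonoidHom.range_eq_map, range_subtype, h2] at this

variable {G : Type*} [Group G] [Finite G] {z : G} {Q : Subgroup G}

theorem ES.sw (E : ES z Q) (wc : ∀ x ∈ Q, IsConj z x → x = z) {g : G}
    (h1 : Commute z (g * z * g⁻¹)) (h2 : g * z * g⁻¹ ≠ z) : ∃ y h, Sw z Q y h := by
  have E' := E.conj g
  generalize g * z * g⁻¹ = y at *
  generalize Q.map (MulAut.conj g).toMonoidHom = R at *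
  have mk : ∀ h ∈ R, h * z * h⁻¹ * z = z * (h * z * h⁻¹) → h * z * h⁻¹ ≠ z → ∃ y h, Sw z Q y h :=
    fun h hh a b => ⟨_, h, wc, rfl, by
      rw [show h * (h * z * h⁻¹) * h⁻¹ = h * h * z * (h * h)⁻¹ by group]
      rcases E'.sq h hh with e | e <;> rw [e]
      · simp
      · exact cm_cj h1.symm, a, b⟩
  have : ∃ h ∈ R, z * h ≠ h * z := by
    by_contra! k
    rcases E'.cen z h1 k with e | e
    exacts [E.z1 e, h2 e.symm]
  obtain ⟨h, hh, k⟩ := this
  have m : h * (z * h⁻¹ * z⁻¹) ∈ R := mul_mem hh (E'.nrm z h1 _ (inv_mem hh))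
  have zz := E.zz
  rcases E'.sq _ m with e | e
  · refine mk h hh ?_ fun e => k (cj_cm' e).symm
    rw [E.zinv, show h * (z * h⁻¹ * z) = h * z * h⁻¹ * z by group] at e
    rw [eq_inv_of_mul_eq_one_left e, mul_inv_rev, conj_inv, E.zinv]
  · have e' : h * (z * h⁻¹ * z⁻¹) * z * (h * (z * h⁻¹ * z⁻¹))⁻¹ = y * z := by
      rw [← e, E.zinv]
      calc _ = h * z * h⁻¹ * (z * z) * z⁻¹ * (h * z⁻¹ * h⁻¹) := by group
        _ = h * z * h⁻¹ * z * (h * z * h⁻¹) * (z * z) := by rw [zz, E.zinv, mul_one, mul_one]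
        _ = _ := by group
    refine mk _ m ?_ ?_ <;> rw [e']
    · rw [← mul_assoc, h1.eq]
    · simpa using E'.z1

theorem ES.iso_of (E : ES z Q) (hO : pPrimeCore 2 G = ⊥) (hZ : center G = ⊥) : Spor.IsoCo1 G := by
  by_cases k : ∃ c, c * z * c⁻¹ ∈ Q ∧ c * z * c⁻¹ ≠ z
  · obtain ⟨c, h1, h2⟩ := k
    obtain ⟨g, rfl, h⟩ := E.amal h1 h2
    exact h.iso E
  have wc : ∀ x ∈ Q, IsConj z x → x = z := fun x hx h => by
    obtain ⟨c, rfl⟩ := isConj_iff.mp h
    by_contra e
    exact k ⟨c, hx, e⟩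
  have : ¬ IsIsolated z := fun h => E.z1 (mem_bot.mp (hZ ▸ H5.mem_center_of_isIsolated hO
    (orderOf_eq_prime (by rw [pow_two, E.zz]) E.z1) h))
  unfold IsIsolated at this
  push Not at this
  obtain ⟨g, h1, h2⟩ := this
  obtain ⟨y, h, S⟩ := E.sw wc h1 h2
  obtain ⟨x, x1, x2, x3, x4⟩ := Gd.inv E (S := Q) ⟨le_rfl, E.zQ,
    fun s hs => E.cen s (E.qz s hs), by rw [E.card]; norm_num⟩
  obtain ⟨m, a, F, -⟩ := E.exists_fr x1 x2 x3 x4
  obtain rfl := plus E F
  exact (S.false E F).elim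

end Cfsg.Co.Rc
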